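import Cfsg.Agent.Lib.Linalg.Quad.Surj
import Mathlib

/-!
# Unipotent pairs of root subgroups: commutators
-/

set_option autoImplicit false

namespace Cfsg.Agent.Lib.Linalg.Quad.Class2

open Polynomial
open Cfsg.Agent.Lib.Linalg.Quad.Dich Cfsg.Agent.Lib.Linalg.Quad.Psi Cfsg.Agent.Lib.Linalg.Quad.Root
  Cfsg.Agent.Lib.Linalg.Quad.Pair Cfsg.Agent.Lib.Linalg.Quad.NType Cfsg.Agent.Lib.Linalg.Quad.UType
  Cfsg.Agent.Lib.Linalg.Quad.Surj

section Gen

variable {Γ : Type*} [Group Γ]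

/-- Commutators of a generated subgroup modulo a central subgroup. -/
lemma comm_mem_of_gens {S : Set Γ} {Z : Subgroup Γ} (hZ : ∀ c ∈ Z, ∀ g ∈ Subgroup.closure S, c * g = g * c)
    (hS : ∀ s ∈ S, ∀ t ∈ S, s * t * s⁻¹ * t⁻¹ ∈ Z) :
    ∀ g ∈ Subgroup.closure S, ∀ h ∈ Subgroup.closure S, g * h * g⁻¹ * h⁻¹ ∈ Z := by
  -- general step
  have key : ∀ h : Γ, h ∈ Subgroup.closure S → (∀ s ∈ S, s * h * s⁻¹ * h⁻¹ ∈ Z) →
      ∀ g ∈ Subgroup.closure S, g * h * g⁻¹ * h⁻¹ ∈ Z := by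
    intro h hh hs g hg
    induction hg using Subgroup.closure_induction with
    | mem s hs' => exact hs s hs'
    | one => simp
    | mul a b ha hb iha ihb =>
      have hc := hZ _ ihb a ha
      have e : a * b * h * (a * b)⁻¹ * h⁻¹ = (b * h * b⁻¹ * h⁻¹) * (a * h * a⁻¹ * h⁻¹) := by
        have e1 : a * b * h * (a * b)⁻¹ * h⁻¹ = a * (b * h * b⁻¹ * h⁻¹) * (h * a⁻¹ * h⁻¹) := by group
        rw [e1, hc.symm]
        group
      rw [e]
      exact Z.mul_mem ihb iha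
    | inv a ha iha =>
      have hc := hZ _ (Z.inv_mem iha) a ha
      have e : a⁻¹ * h * a⁻¹⁻¹ * h⁻¹ = (a * h * a⁻¹ * h⁻¹)⁻¹ := by
        calc a⁻¹ * h * a⁻¹⁻¹ * h⁻¹ = a⁻¹ * ((a * h * a⁻¹ * h⁻¹)⁻¹ * a) := by group
          _ = a⁻¹ * (a * (a * h * a⁻¹ * h⁻¹)⁻¹) := by rw [hc]
          _ = _ := by group
      rw [e]
      exact Z.inv_mem iha
  -- first the generators on the right
  have h1 : ∀ t ∈ S, ∀ g ∈ Subgroup.closure S, g * t * g⁻¹ * t⁻¹ ∈ Z := by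
    intro t ht
    exact key t (Subgroup.subset_closure ht) (fun s hs => hS s hs t ht)
  intro g hg h hh
  refine key h hh (fun s hs => ?_) g hg
  have := Z.inv_mem (h1 s hs h hh)
  have e : (h * s * h⁻¹ * s⁻¹)⁻¹ = s * h * s⁻¹ * h⁻¹ := by group
  rwa [e] at this

end Gen

variable {k : Type*} [Field k] {M : Type*} [AddCommGroup M] [Module k M]

lemma comm_val' {a : LinearMap.GeneralLinearGroup k M} {y' : M →ₗ[k] M} (hyy : y' * y' = 0)
    (hxx : NN a * NN a = 0) (hxyx : NN a * y' * NN a = 0) (hyxy : y' * NN a * y' = 0) :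
    NN (a * oa y' hyy 1 * a⁻¹ * (oa y' hyy 1)⁻¹) = zz (NN a) y' := by
  have h1 := comm_val hxx hyy hxyx hyxy 1 1
  rw [← eq_oa a hxx, mul_one, one_smul] at h1
  simp only [NN] at h1 ⊢
  rw [h1, add_sub_cancel_left]

lemma comm_val'' {a b : LinearMap.GeneralLinearGroup k M}
    (hxx : NN a * NN a = 0) (hyy : NN b * NN b = 0) (hxyx : NN a * NN b * NN a = 0) (hyxy : NN b * NN a * NN b = 0) :
    NN (a * b * a⁻¹ * b⁻¹) = zz (NN a) (NN b) := by
  have h1 := comm_val' hyy hxx hxyx hyxy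
  rwa [← eq_oa b hyy] at h1

lemma comm_val_left {x' : M →ₗ[k] M} {b : LinearMap.GeneralLinearGroup k M} (hxx : x' * x' = 0)
    (hyy : NN b * NN b = 0) (hxyx : x' * NN b * x' = 0) (hyxy : NN b * x' * NN b = 0) :
    NN (oa x' hxx 1 * b * (oa x' hxx 1)⁻¹ * b⁻¹) = zz x' (NN b) := by
  have h1 := comm_val hxx hyy hxyx hyxy 1 1
  rw [← eq_oa b hyy, mul_one, one_smul] at h1
  simp only [NN] at h1 ⊢
  rw [h1, add_sub_cancel_left]

lemma eq_of_NN {a b : LinearMap.GeneralLinearGroup k M} (h : NN a = NN b) : a = b := by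
  apply Units.ext
  exact sub_left_injective h

variable [FiniteDimensional k M] {G : Subgroup (LinearMap.GeneralLinearGroup k M)}
  {σ τ ρ : LinearMap.GeneralLinearGroup k M}

lemma fixed_E (hρ : ρ ∈ Cfsg.minimalQuadraticElements G) :
    Cfsg.fixedSubmodule (Cfsg.sameActionSubgroup G ρ) = LinearMap.ker (NN ρ) := by
  apply le_antisymm
  · intro v hv
    simp only [Cfsg.fixedSubmodule, Submodule.mem_iInf, LinearMap.mem_ker] at hv
    exact hv ρ (Subgroup.subset_closure ⟨hρ, rfl, rfl⟩)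
  · intro v hv
    simp only [Cfsg.fixedSubmodule, Submodule.mem_iInf, LinearMap.mem_ker]
    intro g hg
    exact LL_ker_le (minLog_of_mem hρ) ((mem_E_iff hρ).1 hg) hv

lemma comm_E (hρ : ρ ∈ Cfsg.minimalQuadraticElements G) :
    Cfsg.commutatorSubmodule (Cfsg.sameActionSubgroup G ρ) = LinearMap.range (NN ρ) := by
  apply le_antisymm
  · unfold Cfsg.commutatorSubmodule
    refine iSup₂_le (fun g hg => ?_)
    exact LL_range_le (minLog_of_mem hρ) ((mem_E_iff hρ).1 hg)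
  · exact le_iSup₂_of_le ρ (Subgroup.subset_closure ⟨hρ, rfl, rfl⟩) le_rfl

/-- Products of elements with the same action as `x`, `z`. -/
lemma mul_zero_of_same {a a' b b' : M →ₗ[k] M} (h : a * b = 0) (ha : Same a a') (hb : Same b b') : a' * b' = 0 := by
  ext v
  have h1 : b' v ∈ LinearMap.range b := by rw [← hb.2]; exact ⟨v, rfl⟩
  obtain ⟨u, hu⟩ := h1
  have h4 : b' v ∈ LinearMap.ker a := by
    rw [← hu]
    exact congrArg (fun f : M →ₗ[k] M => f u) h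
  rw [← ha.1] at h4
  exact h4

section Main

variable (hG : Cfsg.IsQuadraticPair G) (h2 : (2 : k) ≠ 0) (h3 : Nat.card k ≠ 3)
  (hσ : σ ∈ Cfsg.minimalQuadraticElements G) (hτ : τ ∈ Cfsg.minimalQuadraticElements G)
  (hN : ¬ NTy (NN σ) (NN τ))
include hG h2 h3 hσ hτ hN

/-- The main theorem on unipotent pairs. -/
theorem unipotent_main :
    ⁅Cfsg.sameActionSubgroup G σ, Cfsg.sameActionSubgroup G τ⁆ = ⊥ ∨
    (⁅Cfsg.sameActionSubgroup G σ, Cfsg.sameActionSubgroup G τ⁆ ∈ Cfsg.quadraticRootSubgroups G ∧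
      (∀ e ∈ Cfsg.sameActionSubgroup G σ, e ≠ 1 → Subgroup.closure ((fun f : LinearMap.GeneralLinearGroup k M => e * f * e⁻¹ * f⁻¹) '' (Cfsg.sameActionSubgroup G τ : Set (LinearMap.GeneralLinearGroup k M))) = ⁅Cfsg.sameActionSubgroup G σ, Cfsg.sameActionSubgroup G τ⁆) ∧
      (∀ f ∈ Cfsg.sameActionSubgroup G τ, f ≠ 1 → Subgroup.closure ((fun e : LinearMap.GeneralLinearGroup k M => e * f * e⁻¹ * f⁻¹) '' (Cfsg.sameActionSubgroup G σ : Set (LinearMap.GeneralLinearGroup k M))) = ⁅Cfsg.sameActionSubgroup G σ, Cfsg.sameActionSubgroup G τ⁆) ∧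
      ⁅Cfsg.sameActionSubgroup G σ ⊔ Cfsg.sameActionSubgroup G τ, Cfsg.sameActionSubgroup G σ ⊔ Cfsg.sameActionSubgroup G τ⁆ ≠ ⊥ ∧
      ⁅⁅Cfsg.sameActionSubgroup G σ ⊔ Cfsg.sameActionSubgroup G τ, Cfsg.sameActionSubgroup G σ ⊔ Cfsg.sameActionSubgroup G τ⁆, Cfsg.sameActionSubgroup G σ ⊔ Cfsg.sameActionSubgroup G τ⁆ = ⊥ ∧
      ((Cfsg.sameActionSubgroup G σ ⊔ Cfsg.sameActionSubgroup G τ : Subgroup (LinearMap.GeneralLinearGroup k M)) : Set (LinearMap.GeneralLinearGroup k M)) ⊆ Cfsg.quadraticUnipotentCore G ⁅Cfsg.sameActionSubgroup G σ, Cfsg.sameActionSubgroup G τ⁆) := by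
  by_cases hb : ⁅Cfsg.sameActionSubgroup G σ, Cfsg.sameActionSubgroup G τ⁆ = ⊥
  · exact Or.inl hb
  right
  set E := Cfsg.sameActionSubgroup G σ with hE
  set F := Cfsg.sameActionSubgroup G τ with hF
  have hxmin := minLog_of_mem hσ
  have hymin := minLog_of_mem hτ
  -- a non-commuting pair
  obtain ⟨g₀, hg₀, h₀, hh₀, hne⟩ : ∃ g ∈ E, ∃ h ∈ F, g * h ≠ h * g := by
    by_contra hcon
    push Not at hcon
    exact hb (commutator_eq_bot_of hcon)
  have hg1 : g₀ ≠ 1 := by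
    rintro rfl
    simp at hne
  have hh1 : h₀ ≠ 1 := by
    rintro rfl
    simp at hne
  obtain ⟨hx₀, hsx₀⟩ := mem_E_log hσ hg₀ hg1
  obtain ⟨hy₀, hsy₀⟩ := mem_E_log hτ hh₀ hh1
  have P₀ := upair_of_not h2 h3 hN hx₀ hy₀ hsx₀ hsy₀
  have hz₀ : zz (NN g₀) (NN h₀) ≠ 0 := fun h => hne (mul_comm_of_zz h)
  obtain ⟨z, hzd⟩ : ∃ z, z = zz (NN g₀) (NN h₀) := ⟨_, rfl⟩
  have hzm : MinLog G z := hzd ▸ P₀.minZ hz₀
  have hρ := mem_of_minLog hzm
  obtain ⟨ρ', hρ'⟩ : ∃ ρ', ρ' = oa z hzm.sq 1 := ⟨_, rfl⟩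
  rw [← hρ'] at hρ
  have hNρ : NN ρ' = z := by rw [hρ']; exact NN_oa _
  set D := Cfsg.sameActionSubgroup G ρ' with hD
  have memD : ∀ d, d ∈ D ↔ NN d = 0 ∨ (MinLog G (NN d) ∧ Same z (NN d)) := by
    intro d
    rw [hD, mem_E_iff hρ, mem_LL_iff]
    simp only [NN] at hNρ ⊢
    rw [hNρ]
  -- all pairs
  have pairs : ∀ {x₁ y₁ : M →ₗ[k] M}, MinLog G x₁ → MinLog G y₁ → Same (NN σ) x₁ → Same (NN τ) y₁ →
      UPair G x₁ y₁ ∧ zz x₁ y₁ ≠ 0 ∧ Same z (zz x₁ y₁) := by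
    intro x₁ y₁ h4 h5 h6 h7
    have P₁ := upair_of_not h2 h3 hN h4 h5 h6 h7
    have hz₁ : zz x₁ y₁ ≠ 0 := z_ne P₀ P₁ hz₀ (hsx₀.symm.trans h6) (hsy₀.symm.trans h7)
    refine ⟨P₁, hz₁, ?_⟩
    rw [hzd]
    exact same_z P₀ P₁ hz₀ hz₁ (hsx₀.symm.trans h6) (hsy₀.symm.trans h7)
  have key_mem : ∀ a ∈ E, ∀ b ∈ F, a * b * a⁻¹ * b⁻¹ ∈ D := by
    intro a ha b hb
    by_cases ha1 : a = 1
    · subst ha1; simp [Subgroup.one_mem]
    by_cases hb1 : b = 1
    · subst hb1; simp [Subgroup.one_mem]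
    obtain ⟨hx₁, hsx₁⟩ := mem_E_log hσ ha ha1
    obtain ⟨hy₁, hsy₁⟩ := mem_E_log hτ hb hb1
    obtain ⟨P₁, hz₁, hs₁⟩ := pairs hx₁ hy₁ hsx₁ hsy₁
    rw [memD, comm_val'' P₁.hx.sq P₁.hy.sq P₁.xyx P₁.yxy]
    exact Or.inr ⟨P₁.minZ hz₁, hs₁⟩
  have hle : ⁅E, F⁆ ≤ D := Subgroup.commutator_le.2 key_mem
  have hLLy : ∀ {y₁ : M →ₗ[k] M} (h : MinLog G y₁), Same (NN τ) y₁ → ∀ y' ∈ LL h, y' ∈ LL (minLog_of_mem hτ) := by
    intro y₁ h h' y' hy'
    rwa [← LL_eq_of_mem hymin h h']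
  have hLLx : ∀ {y₁ : M →ₗ[k] M} (h : MinLog G y₁), Same (NN σ) y₁ → ∀ y' ∈ LL h, y' ∈ LL (minLog_of_mem hσ) := by
    intro y₁ h h' y' hy'
    rwa [← LL_eq_of_mem hxmin h h']
  -- the commutators of a fixed element
  have hright : ∀ e ∈ E, e ≠ 1 → D ≤ Subgroup.closure ((fun f : LinearMap.GeneralLinearGroup k M => e * f * e⁻¹ * f⁻¹) '' (F : Set (LinearMap.GeneralLinearGroup k M))) := by
    intro e he he1 d hd
    by_cases hd1 : d = 1
    · rw [hd1]; exact Subgroup.one_mem _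
    obtain ⟨hx₁, hsx₁⟩ := mem_E_log hσ he he1
    obtain ⟨P₁, hz₁, hs₁⟩ := pairs hx₁ hy₀ hsx₁ hsy₀
    have hN₁ : ¬ NTy (NN e) (NN h₀) := fun h => hN (h.congr hsx₁.symm hsy₀.symm)
    have hd' := ((memD d).1 hd).resolve_left (fun h0 => hd1 (NN_eq_zero h0))
    obtain ⟨y', hy', hy'e⟩ := surj_right hG h2 h3 P₁ hN₁ hz₁ (NN d) (LL_mem_of_same _ hd'.1 (hs₁.symm.trans hd'.2))
    have hy'F := hLLy hy₀ hsy₀ y' hy'
    have hyy : y' * y' = 0 := LL_sq hymin hy'F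
    have hf := oa_mem_E hτ hy'F hyy 1
    have hy'0 : y' ≠ 0 := by
      rintro rfl
      apply hd1
      apply NN_eq_zero
      rw [← hy'e]
      exact zz_zero_right _
    have hP' : UPair G (NN e) y' := by
      obtain ⟨h5, h6⟩ := hy'.resolve_left hy'0
      exact upair_of_not h2 h3 hN hx₁ h5 hsx₁ (hsy₀.trans h6)
    have hcomm := comm_val' hyy hx₁.sq hP'.xyx hP'.yxy
    rw [hy'e] at hcomm
    rw [← eq_of_NN hcomm]
    exact Subgroup.subset_closure ⟨_, hf, rfl⟩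
  have hleft : ∀ f ∈ F, f ≠ 1 → D ≤ Subgroup.closure ((fun e : LinearMap.GeneralLinearGroup k M => e * f * e⁻¹ * f⁻¹) '' (E : Set (LinearMap.GeneralLinearGroup k M))) := by
    intro f hf hf1 d hd
    by_cases hd1 : d = 1
    · rw [hd1]; exact Subgroup.one_mem _
    obtain ⟨hy₁, hsy₁⟩ := mem_E_log hτ hf hf1
    obtain ⟨P₁, hz₁, hs₁⟩ := pairs hx₀ hy₁ hsx₀ hsy₁
    have hN₁ : ¬ NTy (NN g₀) (NN f) := fun h => hN (h.congr hsx₀.symm hsy₁.symm)
    have hd' := ((memD d).1 hd).resolve_left (fun h0 => hd1 (NN_eq_zero h0))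
    obtain ⟨x', hx', hx'e⟩ := surj_left hG h2 h3 P₁ hN₁ hz₁ (NN d) (LL_mem_of_same _ hd'.1 (hs₁.symm.trans hd'.2))
    have hx'F := hLLx hx₀ hsx₀ x' hx'
    have hxx : x' * x' = 0 := LL_sq hxmin hx'F
    have he := oa_mem_E hσ hx'F hxx 1
    have hx'0 : x' ≠ 0 := by
      rintro rfl
      apply hd1
      apply NN_eq_zero
      rw [← hx'e]
      exact zz_zero_left _
    have hP' : UPair G x' (NN f) := by
      obtain ⟨h5, h6⟩ := hx'.resolve_left hx'0
      exact upair_of_not h2 h3 hN h5 hy₁ (hsx₀.trans h6) hsy₁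
    have hcomm := comm_val_left hxx hy₁.sq hP'.xyx hP'.yxy
    rw [hx'e] at hcomm
    rw [← eq_of_NN hcomm]
    exact Subgroup.subset_closure ⟨_, he, rfl⟩
  have hclR : ∀ e ∈ E, ∀ S : Set (LinearMap.GeneralLinearGroup k M), S = ((fun f : LinearMap.GeneralLinearGroup k M => e * f * e⁻¹ * f⁻¹) '' (F : Set (LinearMap.GeneralLinearGroup k M))) →
      Subgroup.closure S ≤ ⁅E, F⁆ := by
    rintro e he S rfl
    rw [Subgroup.closure_le]
    rintro _ ⟨f, hf, rfl⟩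
    exact Subgroup.commutator_mem_commutator he hf
  have hclL : ∀ f ∈ F, ∀ S : Set (LinearMap.GeneralLinearGroup k M), S = ((fun e : LinearMap.GeneralLinearGroup k M => e * f * e⁻¹ * f⁻¹) '' (E : Set (LinearMap.GeneralLinearGroup k M))) →
      Subgroup.closure S ≤ ⁅E, F⁆ := by
    rintro f hf S rfl
    rw [Subgroup.closure_le]
    rintro _ ⟨e, he, rfl⟩
    exact Subgroup.commutator_mem_commutator he hf
  have hEq : ⁅E, F⁆ = D := le_antisymm hle ((hright g₀ hg₀ hg1).trans (hclR g₀ hg₀ _ rfl))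
  rw [hEq]
  -- centrality of `D`
  have hsame_mul : ∀ {w a : M →ₗ[k] M}, Same z w → Same (NN σ) a → w * a = 0 ∧ a * w = 0 := by
    intro w a hw ha
    have e1 : z * NN g₀ = 0 := hzd ▸ P₀.z_mul_x
    have e2 : NN g₀ * z = 0 := hzd ▸ P₀.x_mul_z
    exact ⟨mul_zero_of_same e1 hw (hsx₀.symm.trans ha), mul_zero_of_same e2 (hsx₀.symm.trans ha) hw⟩
  have hsame_mul' : ∀ {w a : M →ₗ[k] M}, Same z w → Same (NN τ) a → w * a = 0 ∧ a * w = 0 := by
    intro w a hw ha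
    have e1 : z * NN h₀ = 0 := hzd ▸ P₀.z_mul_y
    have e2 : NN h₀ * z = 0 := hzd ▸ P₀.y_mul_z
    exact ⟨mul_zero_of_same e1 hw (hsy₀.symm.trans ha), mul_zero_of_same e2 (hsy₀.symm.trans ha) hw⟩
  have hcentE : ∀ d ∈ D, ∀ a ∈ E, d * a = a * d := by
    intro d hd a ha
    by_cases hd1 : d = 1
    · simp [hd1]
    by_cases ha1 : a = 1
    · simp [ha1]
    have hd' := ((memD d).1 hd).resolve_left (fun h0 => hd1 (NN_eq_zero h0))
    obtain ⟨_, hsa⟩ := mem_E_log hσ ha ha1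
    obtain ⟨e1, e2⟩ := hsame_mul hd'.2 hsa
    apply mul_comm_of_zz
    rw [zz, e1, e2, sub_zero]
  have hcentF : ∀ d ∈ D, ∀ a ∈ F, d * a = a * d := by
    intro d hd a ha
    by_cases hd1 : d = 1
    · simp [hd1]
    by_cases ha1 : a = 1
    · simp [ha1]
    have hd' := ((memD d).1 hd).resolve_left (fun h0 => hd1 (NN_eq_zero h0))
    obtain ⟨_, hsa⟩ := mem_E_log hτ ha ha1
    obtain ⟨e1, e2⟩ := hsame_mul' hd'.2 hsa
    apply mul_comm_of_zz
    rw [zz, e1, e2, sub_zero]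
  have hcent : E ⊔ F ≤ Subgroup.centralizer (D : Set (LinearMap.GeneralLinearGroup k M)) := by
    refine sup_le (fun a ha => ?_) (fun a ha => ?_)
    · rw [Subgroup.mem_centralizer_iff]
      intro d hd
      exact hcentE d hd a ha
    · rw [Subgroup.mem_centralizer_iff]
      intro d hd
      exact hcentF d hd a ha
  have hclosure : E ⊔ F = Subgroup.closure ((E : Set (LinearMap.GeneralLinearGroup k M)) ∪ F) := by
    rw [Subgroup.closure_union, Subgroup.closure_eq, Subgroup.closure_eq]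
  have hcomm : ⁅E ⊔ F, E ⊔ F⁆ ≤ D := by
    rw [Subgroup.commutator_le]
    intro a ha b hb
    rw [hclosure] at ha hb
    refine comm_mem_of_gens ?_ ?_ a ha b hb
    · intro c hc g hg
      rw [← hclosure] at hg
      exact (Subgroup.mem_centralizer_iff.1 (hcent hg) c hc)
    · have hEE : ∀ s ∈ E, ∀ t ∈ E, s * t * s⁻¹ * t⁻¹ ∈ D := by
        intro s hs t ht
        rw [E_comm hσ hs ht]
        simp [Subgroup.one_mem]
      have hFF : ∀ s ∈ F, ∀ t ∈ F, s * t * s⁻¹ * t⁻¹ ∈ D := by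
        intro s hs t ht
        rw [E_comm hτ hs ht]
        simp [Subgroup.one_mem]
      rintro s (hs | hs) t (ht | ht)
      · exact hEE s hs t ht
      · exact key_mem s hs t ht
      · have := D.inv_mem (key_mem t ht s hs)
        have e : (t * s * t⁻¹ * s⁻¹)⁻¹ = s * t * s⁻¹ * t⁻¹ := by group
        rwa [e] at this
      · exact hFF s hs t ht
  have hflag : E ⊔ F ≤ flagGroup (LinearMap.ker z) (LinearMap.range z) (by
      rintro _ ⟨v, rfl⟩
      exact congrArg (fun f : M →ₗ[k] M => f v) hzm.sq) := by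
    have hEf : ∀ a ∈ E, (∀ m, NN a m ∈ LinearMap.ker z) ∧ (∀ m ∈ LinearMap.ker z, NN a m ∈ LinearMap.range z) ∧
        (∀ m ∈ LinearMap.range z, NN a m = 0) := by
      intro a ha
      by_cases ha1 : a = 1
      · subst ha1; simp [NN]
      obtain ⟨hx₁, hsx₁⟩ := mem_E_log hσ ha ha1
      obtain ⟨P₁, hz₁, hs₁⟩ := pairs hx₁ hy₀ hsx₁ hsy₀
      refine ⟨fun m => ?_, fun m hm => ?_, fun m hm => ?_⟩
      · rw [← hs₁.1]
        exact congrArg (fun f : M →ₗ[k] M => f m) P₁.z_mul_x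
      · rw [← hs₁.2]
        rw [← hs₁.1] at hm
        exact P₁.x_ker_z hz₁ hm
      · rw [← hs₁.2] at hm
        obtain ⟨u, rfl⟩ := hm
        exact congrArg (fun f : M →ₗ[k] M => f u) P₁.x_mul_z
    have hFf : ∀ a ∈ F, (∀ m, NN a m ∈ LinearMap.ker z) ∧ (∀ m ∈ LinearMap.ker z, NN a m ∈ LinearMap.range z) ∧
        (∀ m ∈ LinearMap.range z, NN a m = 0) := by
      intro a ha
      by_cases ha1 : a = 1
      · subst ha1; simp [NN]
      obtain ⟨hx₁, hsx₁⟩ := mem_E_log hτ ha ha1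
      obtain ⟨P₁, hz₁, hs₁⟩ := pairs hx₀ hx₁ hsx₀ hsx₁
      refine ⟨fun m => ?_, fun m hm => ?_, fun m hm => ?_⟩
      · rw [← hs₁.1]
        exact congrArg (fun f : M →ₗ[k] M => f m) P₁.z_mul_y
      · rw [← hs₁.2]
        rw [← hs₁.1] at hm
        exact P₁.y_ker_z hz₁ hm
      · rw [← hs₁.2] at hm
        obtain ⟨u, rfl⟩ := hm
        exact congrArg (fun f : M →ₗ[k] M => f u) P₁.y_mul_z
    refine sup_le (fun a ha => ⟨hEf a ha, hEf _ (E.inv_mem ha)⟩) (fun a ha => ⟨hFf a ha, hFf _ (F.inv_mem ha)⟩)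
  refine ⟨⟨ρ', hρ, rfl⟩, ?_, ?_, ?_, ?_, ?_⟩
  · intro e he he1
    apply le_antisymm
    · rw [← hEq]; exact hclR e he _ rfl
    · exact hright e he he1
  · intro f hf hf1
    apply le_antisymm
    · rw [← hEq]; exact hclL f hf _ rfl
    · exact hleft f hf hf1
  · intro h0
    have : ⁅E, F⁆ ≤ ⁅E ⊔ F, E ⊔ F⁆ := Subgroup.commutator_mono le_sup_left le_sup_right
    rw [h0, le_bot_iff] at this
    exact hb this
  · apply commutator_eq_bot_of
    intro a ha b hb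
    exact (Subgroup.mem_centralizer_iff.1 (hcent hb) a (hcomm ha))
  · intro g hg
    have hgm : g ∈ E ⊔ F := hg
    have hfl := (hflag hgm).1
    have hfix := fixed_E hρ
    have hcm := comm_E hρ
    rw [hNρ] at hfix hcm
    refine ⟨?_, ?_, ?_, ?_, ?_⟩
    · exact (sup_le E_le_G E_le_G : E ⊔ F ≤ G) hgm
    · rw [Subgroup.mem_normalizer_iff]
      intro h
      have hc := Subgroup.mem_centralizer_iff.1 (hcent hgm)
      constructor
      · intro hh
        have : g * h * g⁻¹ = h := by rw [← hc h hh]; group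
        rw [this]; exact hh
      · intro hh
        have h5 := hc _ hh
        have : h = g * h * g⁻¹ := by
          exact mul_left_cancel (a := g) (by
            calc g * h = (g * h * g⁻¹) * g := by group
              _ = g * (g * h * g⁻¹) := h5)
        rw [this]; exact hh
    · intro m
      rw [hfix]
      exact hfl.1 m
    · intro m hm
      rw [hfix] at hm
      rw [hcm]
      exact hfl.2.1 m hm
    · intro m hm
      rw [hcm] at hm
      exact sub_eq_zero.1 (hfl.2.2 m hm)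

end Main

/-- Non-unipotent pairs do not act unipotently. -/
theorem not_unipotent_of_NTy (h2 : (2 : k) ≠ 0) (h3 : Nat.card k ≠ 3) (hσ : σ ∈ Cfsg.minimalQuadraticElements G)
    (hτ : τ ∈ Cfsg.minimalQuadraticElements G) (hN : NTy (NN σ) (NN τ)) :
    ¬ Cfsg.IsUnipotentOn (Cfsg.sameActionSubgroup G σ ⊔ Cfsg.sameActionSubgroup G τ) := by
  rintro ⟨n, hn⟩
  have hx := minLog_of_mem hσ
  have hy := minLog_of_mem hτ
  obtain ⟨y', hy', hs', hex⟩ := exists_exact h2 h3 hx hy hN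
  have h5 : oa (NN σ) hex.xx 1 ∈ Cfsg.sameActionSubgroup G σ ⊔ Cfsg.sameActionSubgroup G τ :=
    Subgroup.mem_sup_left (oa_mem_E hσ (self_mem_LL hx) _ 1)
  have h6 : oa y' hex.yy 1 ∈ Cfsg.sameActionSubgroup G σ ⊔ Cfsg.sameActionSubgroup G τ :=
    Subgroup.mem_sup_right (oa_mem_E hτ (LL_mem_of_same hy hy' hs') _ 1)
  have h7 : wU hex ∈ Cfsg.sameActionSubgroup G σ ⊔ Cfsg.sameActionSubgroup G τ :=
    Subgroup.mul_mem _ (Subgroup.mul_mem _ h5 (Subgroup.inv_mem _ h6)) h5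
  have h8 : wU hex * wU hex ∈ Cfsg.sameActionSubgroup G σ ⊔ Cfsg.sameActionSubgroup G τ := Subgroup.mul_mem _ h7 h7
  obtain ⟨i, hi⟩ : ∃ i, i = wU hex * wU hex := ⟨_, rfl⟩
  rw [← hi] at h8
  have hi1 : ((i : M →ₗ[k] M) - 1) * NN σ = (-2 : k) • NN σ := by
    rw [hi, pi_mul_self hex, sub_sub_cancel_left, neg_mul, smul_mul_assoc, pi_x hex, neg_smul]
  have hall : ∀ m : ℕ, (((List.replicate m i).map fun g => (g : M →ₗ[k] M) - 1).prod) * NN σ = (-2 : k) ^ m • NN σ := by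
    intro m
    induction m with
    | zero => simp
    | succ m ih =>
      have e : (((List.replicate (m + 1) i).map fun g => (g : M →ₗ[k] M) - 1).prod) =
          ((i : M →ₗ[k] M) - 1) * (((List.replicate m i).map fun g => (g : M →ₗ[k] M) - 1).prod) := rfl
      rw [e, mul_assoc, ih, mul_smul_comm, hi1, smul_smul, pow_succ]
  have h9 := hn (List.replicate n i) (fun g hg => by
    rw [List.eq_of_mem_replicate hg]; exact h8) (by simp)
  have h10 := hall n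
  have h11 : (((List.replicate n i).map fun g => (g : M →ₗ[k] M) - 1).prod) = 0 := h9
  rw [h11, zero_mul] at h10
  have h12 : ((-2 : k) ^ n) ≠ 0 := pow_ne_zero _ (neg_ne_zero.2 h2)
  exact hx.ne ((smul_eq_zero.1 h10.symm).resolve_left h12)

lemma class2_contra {A : Type*} [Ring A] {a b : A} (h1 : a * a = 0) (h2 : b * b = 0) (h3 : a * b * a = a)
    (h4 : b * a * b = b) (hc : (1 + a) * (1 + b) * (1 + -a) * (1 + -b) * (1 + a) =
      (1 + a) * ((1 + a) * (1 + b) * (1 + -a) * (1 + -b))) : a = 0 := by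
  have h5 : ∀ w, a * (a * w) = 0 := fun w => by rw [← mul_assoc, h1, zero_mul]
  have h6 : ∀ w, b * (b * w) = 0 := fun w => by rw [← mul_assoc, h2, zero_mul]
  have h7 : a * (b * a) = a := by rw [← mul_assoc, h3]
  have h8 : b * (a * b) = b := by rw [← mul_assoc, h4]
  have h9 : ∀ w, a * (b * (a * w)) = a * w := fun w => by
    calc a * (b * (a * w)) = (a * b * a) * w := by noncomm_ring
      _ = a * w := by rw [h3]
  have h10 : ∀ w, b * (a * (b * w)) = b * w := fun w => by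
    calc b * (a * (b * w)) = (b * a * b) * w := by noncomm_ring
      _ = b * w := by rw [h4]
  have e1 : (1 + a) * (1 + b) * (1 + -a) * (1 + -b) = 1 + a * b + a * b - b * a - a + b := by
    simp only [add_mul, mul_add, mul_neg, neg_mul, one_mul, mul_one, mul_assoc, h1, h2, h5, h6, h7, h8, h9, h10,
      neg_zero, add_zero, zero_add, mul_zero]
    abel
  rw [e1] at hc
  obtain ⟨C, hC⟩ : ∃ C, C = 1 + a * b + a * b - b * a - a + b := ⟨_, rfl⟩
  rw [← hC] at hc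
  have e2 : a * (C * (1 + a)) = a * C + a * C * a := by noncomm_ring
  have e3 : a * ((1 + a) * C) = a * C := by
    rw [← mul_assoc, mul_add, mul_one, h1, add_zero]
  have e4 : a * C * a = a := by
    rw [hC]
    simp only [add_mul, mul_add, sub_mul, mul_sub, one_mul, mul_one, mul_assoc, h1, h2, h5, h6, h7, h8, h9, h10,
      add_zero, zero_add, mul_zero, sub_zero, zero_sub]
  have e5 := congrArg (fun w => a * w) hc
  simp only [e2, e3] at e5
  rw [e4] at e5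
  exact left_eq_add.1 e5.symm

/-- Non-unipotent pairs do not have class two. -/
theorem not_class2_of_NTy (h2 : (2 : k) ≠ 0) (h3 : Nat.card k ≠ 3) (hσ : σ ∈ Cfsg.minimalQuadraticElements G)
    (hτ : τ ∈ Cfsg.minimalQuadraticElements G) (hN : NTy (NN σ) (NN τ)) :
    ⁅⁅Cfsg.sameActionSubgroup G σ ⊔ Cfsg.sameActionSubgroup G τ, Cfsg.sameActionSubgroup G σ ⊔ Cfsg.sameActionSubgroup G τ⁆,
      Cfsg.sameActionSubgroup G σ ⊔ Cfsg.sameActionSubgroup G τ⁆ ≠ ⊥ := by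
  intro h0
  have hx := minLog_of_mem hσ
  have hy := minLog_of_mem hτ
  obtain ⟨y', hy', hs', hex⟩ := exists_exact h2 h3 hx hy hN
  have h5 : oa (NN σ) hex.xx 1 ∈ Cfsg.sameActionSubgroup G σ ⊔ Cfsg.sameActionSubgroup G τ :=
    Subgroup.mem_sup_left (oa_mem_E hσ (self_mem_LL hx) _ 1)
  have h6 : oa y' hex.yy 1 ∈ Cfsg.sameActionSubgroup G σ ⊔ Cfsg.sameActionSubgroup G τ :=
    Subgroup.mem_sup_right (oa_mem_E hτ (LL_mem_of_same hy hy' hs') _ 1)
  rw [Subgroup.commutator_eq_bot_iff_le_centralizer] at h0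
  have h7 := Subgroup.commutator_mem_commutator h5 h6
  have h8 := Subgroup.mem_centralizer_iff.1 (h0 h7) _ h5
  have h9 := congrArg Units.val h8
  simp only [commutatorElement_def, Units.val_mul, oa_inv, oa_val, neg_smul, one_smul] at h9
  exact hx.ne (class2_contra hex.xx hex.yy hex.xyx hex.yxy h9.symm)

end Cfsg.Agent.Lib.Linalg.Quad.Class2
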