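import Cfsg.Agent.Lib.Linalg.Quad.Elems
import Cfsg.Prelude.Def_RootSubgroups
import Mathlib

/-!
# The dichotomy for pairs of minimal square-zero elements
-/

set_option autoImplicit false

namespace Cfsg.Agent.Lib.Linalg.Quad.Dich

open Polynomial
open Cfsg.Agent.Lib.Linalg.Quad.Chain Cfsg.Agent.Lib.Linalg.Quad.Psi Cfsg.Agent.Lib.Linalg.Quad.Elems

variable {k : Type*} [Field k] {M : Type*} [AddCommGroup M] [Module k M]

/-- The unit `1 + c z`. -/
def oa (z : M →ₗ[k] M) (hz : z * z = 0) (c : k) : LinearMap.GeneralLinearGroup k M where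
  val := 1 + c • z
  inv := 1 - c • z
  val_inv := by
    simp only [mul_sub, add_mul, one_mul, mul_one, smul_mul_assoc, mul_smul_comm, hz, smul_zero, add_zero]
    abel
  inv_val := by
    simp only [sub_mul, mul_add, one_mul, mul_one, smul_mul_assoc, mul_smul_comm, hz, smul_zero]
    abel

@[simp] lemma oa_val (z : M →ₗ[k] M) (hz : z * z = 0) (c : k) :
    ((oa z hz c : LinearMap.GeneralLinearGroup k M) : M →ₗ[k] M) = 1 + c • z := rfl

lemma oa_one_sub (z : M →ₗ[k] M) (hz : z * z = 0) :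
    ((oa z hz 1 : LinearMap.GeneralLinearGroup k M) : M →ₗ[k] M) - 1 = z := by
  simp

lemma oa_inv (z : M →ₗ[k] M) (hz : z * z = 0) (c : k) : (oa z hz c)⁻¹ = oa z hz (-c) := by
  apply Units.ext
  simp only [oa, neg_smul]
  show (1 : M →ₗ[k] M) - c • z = 1 + -(c • z)
  abel

/-- Logarithms of the quadratic elements. -/
structure LogQ (G : Subgroup (LinearMap.GeneralLinearGroup k M)) (z : M →ₗ[k] M) : Prop where
  sq : z * z = 0
  ne : z ≠ 0
  mem : ∀ (c : k) (u : LinearMap.GeneralLinearGroup k M), (u : M →ₗ[k] M) = 1 + c • z → u ∈ G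

lemma LogQ.oa_mem {G : Subgroup (LinearMap.GeneralLinearGroup k M)} {z : M →ₗ[k] M} (h : LogQ G z) (c : k) :
    oa z h.sq c ∈ G := h.mem c _ rfl

/-- The rank. -/
noncomputable def rk (z : M →ₗ[k] M) : ℕ := Module.finrank k (LinearMap.range z)

/-- Minimal logarithms. -/
structure MinLog (G : Subgroup (LinearMap.GeneralLinearGroup k M)) (z : M →ₗ[k] M) : Prop extends LogQ G z where
  min : ∀ w, LogQ G w → rk z ≤ rk w

variable {G : Subgroup (LinearMap.GeneralLinearGroup k M)}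

lemma logQ_of_mem {σ : LinearMap.GeneralLinearGroup k M} (h : σ ∈ Cfsg.quadraticElements G) :
    LogQ G ((σ : M →ₗ[k] M) - 1) :=
  ⟨h.2.1.1, h.2.1.2, fun c u hu => h.2.2 ⟨c, hu⟩⟩

lemma mem_of_logQ {z : M →ₗ[k] M} (h : LogQ G z) : oa z h.sq 1 ∈ Cfsg.quadraticElements G := by
  refine ⟨h.oa_mem 1, ⟨?_, ?_⟩, ?_⟩
  · rw [oa_one_sub]; exact h.sq
  · rw [oa_one_sub]; exact h.ne
  · rintro u ⟨c, hc⟩
    rw [oa_one_sub] at hc
    exact h.mem c u hc

lemma commutatorRank_oa {z : M →ₗ[k] M} (hz : z * z = 0) : Cfsg.commutatorRank (oa z hz 1) = rk z := by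
  unfold Cfsg.commutatorRank rk
  rw [oa_one_sub]

lemma minLog_of_mem {σ : LinearMap.GeneralLinearGroup k M} (h : σ ∈ Cfsg.minimalQuadraticElements G) :
    MinLog G ((σ : M →ₗ[k] M) - 1) where
  toLogQ := logQ_of_mem h.1
  min w hw := by
    have := h.2 _ (mem_of_logQ hw)
    rwa [commutatorRank_oa] at this

lemma mem_of_minLog {z : M →ₗ[k] M} (h : MinLog G z) : oa z h.sq 1 ∈ Cfsg.minimalQuadraticElements G := by
  refine ⟨mem_of_logQ h.toLogQ, fun τ hτ => ?_⟩
  rw [commutatorRank_oa]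
  exact h.min _ (logQ_of_mem hτ)

/-! ### The universal group acts -/

lemma exists_unit_of_gam {x y : M →ₗ[k] M} (hx : LogQ G x) (hy : LogQ G y) {h : Matrix.SpecialLinearGroup (Fin 2) k[X]}
    (hh : h ∈ Gam k) : ∃ u ∈ G, (u : M →ₗ[k] M) = psiV x y h :=
  ⟨psiU hx.sq hy.sq ⟨h, hh⟩, psiU_mem hx.sq hy.sq G hx.mem hy.mem ⟨h, hh⟩, rfl⟩

/-! ### Rank lemmas -/

/-- A subspace on which an endomorphism does not drop the rank. -/
lemma inj_of_finrank_map [FiniteDimensional k M] {R : Submodule k M} {P : M →ₗ[k] M}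
    (h : Module.finrank k R ≤ Module.finrank k (R.map P)) {v : M} (hv : v ∈ R) (hP : P v = 0) : v = 0 := by
  have h1 := LinearMap.finrank_range_add_finrank_ker (P.domRestrict R)
  rw [LinearMap.range_domRestrict] at h1
  have h2 : Module.finrank k (LinearMap.ker (P.domRestrict R)) = 0 := by omega
  have h3 := Submodule.finrank_eq_zero.1 h2
  have h4 : (⟨v, hv⟩ : R) ∈ LinearMap.ker (P.domRestrict R) := by
    rw [LinearMap.mem_ker, LinearMap.domRestrict_apply]
    exact hP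
  rw [h3, Submodule.mem_bot] at h4
  exact congrArg Subtype.val h4

lemma range_mul (P Q : M →ₗ[k] M) : LinearMap.range (P * Q) = (LinearMap.range Q).map P := by
  rw [Module.End.mul_eq_comp, LinearMap.range_comp]

/-- The commutator bound: `rk [x, V] ≤ rk V` when `x V x = 0`. -/
lemma rk_comm_le [FiniteDimensional k M] {x V : M →ₗ[k] M} (h : x * V * x = 0) :
    rk (x * V - V * x) ≤ rk V := by
  classical
  set Y := LinearMap.range V with hY
  have h1 : LinearMap.range (x * V - V * x) ≤ Y.map x ⊔ LinearMap.range (V * x) := by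
    rintro _ ⟨v, rfl⟩
    rw [LinearMap.sub_apply]
    refine Submodule.sub_mem _ (Submodule.mem_sup_left ?_) (Submodule.mem_sup_right ⟨v, rfl⟩)
    exact ⟨V v, ⟨v, rfl⟩, rfl⟩
  have h2 : Module.finrank k (Y.map x ⊔ LinearMap.range (V * x) : Submodule k M) ≤
      Module.finrank k (Y.map x) + Module.finrank k (LinearMap.range (V * x)) :=
    Submodule.finrank_add_le_finrank_add_finrank _ _
  -- rank-nullity
  have h3 := LinearMap.finrank_range_add_finrank_ker (x.domRestrict Y)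
  rw [LinearMap.range_domRestrict] at h3
  have h4 : LinearMap.range (V * x) ≤ Y := by
    rintro _ ⟨v, rfl⟩
    exact ⟨x v, rfl⟩
  have h5 : Module.finrank k (LinearMap.range (V * x)) ≤ Module.finrank k (LinearMap.ker (x.domRestrict Y)) := by
    have h6 : (LinearMap.range (V * x)).comap Y.subtype ≤ LinearMap.ker (x.domRestrict Y) := by
      rintro ⟨w, hw⟩ hw'
      obtain ⟨v, rfl⟩ := hw'
      rw [LinearMap.mem_ker, LinearMap.domRestrict_apply]
      have := congrArg (fun f : M →ₗ[k] M => f v) h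
      simpa [mul_assoc] using this
    have h7 := Submodule.finrank_mono h6
    have h8 : Module.finrank k ((LinearMap.range (V * x)).comap Y.subtype) =
        Module.finrank k (LinearMap.range (V * x)) :=
      LinearEquiv.finrank_eq (Submodule.comapSubtypeEquivOfLe h4)
    omega
  have h9 := Submodule.finrank_mono h1
  show Module.finrank k (LinearMap.range (x * V - V * x)) ≤ Module.finrank k Y
  omega

/-- A nilpotent endomorphism drops the rank. -/
lemma rk_pow_mul_lt [FiniteDimensional k M] {T x : M →ₗ[k] M} (hx : x ≠ 0) (hc : Commute T x) {n : ℕ}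
    (hn : T ^ n = 0) {e : ℕ} (he : 1 ≤ e) : rk (T ^ e * x) < rk x := by
  by_contra hcon
  push Not at hcon
  have hle : LinearMap.range (T ^ e * x) ≤ LinearMap.range x := by
    rw [(hc.pow_left e).eq]
    exact LinearMap.range_comp_le_range _ _
  have heq : LinearMap.range (T ^ e * x) = LinearMap.range x :=
    Submodule.eq_of_le_of_finrank_le hle hcon
  have hall : ∀ j : ℕ, LinearMap.range ((T ^ e) ^ j * x) = LinearMap.range x := by
    intro j
    induction j with
    | zero => simp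
    | succ j ih =>
      rw [pow_succ', mul_assoc, range_mul, ih, ← range_mul, heq]
  have h0 := hall n
  rw [← pow_mul, mul_comm, pow_mul, hn, zero_pow (by omega), zero_mul, LinearMap.range_zero] at h0
  exact hx (LinearMap.range_eq_bot.1 h0.symm)

/-! ### Evaluation of the iterated commutators -/

section Eval

variable {x y : M →ₗ[k] M} (hxx : x * x = 0) (hyy : y * y = 0)
include hxx hyy

local notation "TT'" => TT x y
local notation "S'" => (aeval (TT x y) : k[X] →ₐ[k] (M →ₗ[k] M))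

omit hxx hyy in
lemma S_mul_comm (p q : k[X]) (v : M →ₗ[k] M) :
    S' (p * q) * v = S' q * (S' p * v) := by
  rw [mul_comm, map_mul, mul_assoc]

lemma S_top {e : ℕ} (h1 : (TT x y) ^ (e + 1) * x = 0) (h2 : (TT x y) ^ (e + 1) * y = 0) :
    (TT x y) ^ (e + 2) = 0 := by
  rw [pow_succ]
  show _ * (x * y + y * x) = 0
  rw [mul_add, ← mul_assoc, ← mul_assoc, h1, h2, zero_mul, zero_mul, add_zero]

omit hxx hyy in
lemma TT_pow_succ (e : ℕ) : (TT x y) ^ (e + 1) = (TT x y) ^ e * (x * y) + (TT x y) ^ e * (y * x) := by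
  rw [pow_succ]
  show _ * (x * y + y * x) = _
  rw [mul_add]

/-- The value on the even elements. -/
lemma psiV_even {c : k} {e : ℕ} {h : Matrix.SpecialLinearGroup (Fin 2) k[X]} (hs : EvenShape c e h)
    (h1 : (TT x y) ^ (e + 1) * x = 0) (h2 : (TT x y) ^ (e + 1) * y = 0) :
    psiV x y h = 1 + (c * 2 ^ e) • ((TT x y) ^ e * (x * y - y * x)) := by
  obtain ⟨a, b, c', d, h00, h11, h01, h10⟩ := hs
  generalize c * 2 ^ e = κ at *
  have htop := S_top hxx hyy h1 h2
  have hyx : (TT x y) ^ (e + 1) * (y * x) = 0 := by rw [← mul_assoc, h2, zero_mul]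
  have hc : h.1 1 0 = X * (X ^ (e + 1) * c') := by rw [h10]; ring
  have hC : C (-(2 * κ)) = -(2 * C κ) := by rw [C_neg, C_mul, map_ofNat]
  have hd : h.1 1 1 - h.1 0 0 = X * (C (-(2 * κ)) * X ^ e + X ^ (e + 1) * (d - a)) := by
    rw [h00, h11, hC]; ring
  rw [psiV_eq x y hc hd, Psi4, h00, h01]
  have e1 : aeval (TT x y) (1 + C κ * X ^ (e + 1) + X ^ (e + 2) * a) =
      1 + κ • (TT x y) ^ (e + 1) := by
    simp only [map_add, map_one, map_mul, aeval_C, map_pow, aeval_X, htop, zero_mul, add_zero,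
      Algebra.algebraMap_eq_smul_one, smul_mul_assoc, one_mul]
  have e2 : aeval (TT x y) (X ^ (e + 1) * b) * x = 0 := by
    rw [S_mul_comm]
    simp only [map_pow, aeval_X, h1, mul_zero]
  have e3 : aeval (TT x y) (X ^ (e + 1) * c') * y = 0 := by
    rw [S_mul_comm]
    simp only [map_pow, aeval_X, h2, mul_zero]
  have e4 : aeval (TT x y) (X ^ (e + 1) * (d - a)) * (y * x) = 0 := by
    rw [S_mul_comm]
    simp only [map_pow, aeval_X, hyx, mul_zero]
  have e5 : aeval (TT x y) (C (-(2 * κ)) * X ^ e + X ^ (e + 1) * (d - a)) * (y * x) =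
      (-(2 * κ)) • ((TT x y) ^ e * (y * x)) := by
    rw [map_add, add_mul, e4, add_zero]
    simp only [map_mul, aeval_C, map_pow, aeval_X, Algebra.algebraMap_eq_smul_one, smul_mul_assoc,
      one_mul]
  rw [e1, e2, e3, e5, TT_pow_succ, mul_sub]
  module

/-- The value on the odd elements. -/
lemma psiV_odd {c : k} {e : ℕ} {h : Matrix.SpecialLinearGroup (Fin 2) k[X]} (hs : OddShape c e h)
    (h1 : (TT x y) ^ (e + 1) * x = 0) (h2 : (TT x y) ^ (e + 1) * y = 0)
    (hz : (TT x y) ^ e * (x * y - y * x) = 0) :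
    ∃ w : k[X], psiV x y h = 1 + (c * 2 ^ e) • ((TT x y) ^ e * x) +
      aeval (TT x y) w * ((TT x y) ^ e * (y * x)) := by
  obtain ⟨a, b, c', d, h00, h11, h01, h10⟩ := hs
  generalize c * 2 ^ e = κ at *
  have hz' : (TT x y) ^ e * (x * y) = (TT x y) ^ e * (y * x) := by
    rw [mul_sub] at hz
    exact sub_eq_zero.1 hz
  have hc : h.1 1 0 = X * (X ^ (e + 1) * c') := by rw [h10]; ring
  have hd : h.1 1 1 - h.1 0 0 = X * (X ^ e * (d - a)) := by
    rw [h00, h11]; ring
  rw [psiV_eq x y hc hd, Psi4, h00, h01]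
  have e1 : aeval (TT x y) (1 + X ^ (e + 1) * a) =
      1 + aeval (TT x y) (C 2 * a) * ((TT x y) ^ e * (y * x)) := by
    rw [map_add, map_one, mul_comm (X ^ (e + 1)) a, map_mul (aeval (TT x y)) a, map_pow, aeval_X,
      TT_pow_succ, hz', map_mul (aeval (TT x y)) (C 2) a, aeval_C, Algebra.algebraMap_eq_smul_one,
      smul_mul_assoc, one_mul, smul_mul_assoc, mul_add, two_smul]
  have e2 : aeval (TT x y) (C κ * X ^ e + X ^ (e + 1) * b) * x = κ • ((TT x y) ^ e * x) := by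
    have e21 : aeval (TT x y) (X ^ (e + 1) * b) * x = 0 := by
      rw [S_mul_comm]
      simp only [map_pow, aeval_X, h1, mul_zero]
    rw [map_add, add_mul, e21, add_zero]
    simp only [map_mul, aeval_C, map_pow, aeval_X, Algebra.algebraMap_eq_smul_one, smul_mul_assoc,
      one_mul]
  have e3 : aeval (TT x y) (X ^ (e + 1) * c') * y = 0 := by
    rw [S_mul_comm]
    simp only [map_pow, aeval_X, h2, mul_zero]
  have e4 : aeval (TT x y) (X ^ e * (d - a)) * (y * x) =
      aeval (TT x y) (d - a) * ((TT x y) ^ e * (y * x)) := by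
    rw [S_mul_comm]
    simp only [map_pow, aeval_X]
  refine ⟨C 2 * a + (d - a), ?_⟩
  rw [e1, e2, e3, e4, map_add, add_mul]
  abel

end Eval

/-! ### Lemma U -/

section StepU

variable [FiniteDimensional k M] {x y : M →ₗ[k] M}

lemma zero_of_rk_lt {z : M →ₗ[k] M} (hG : MinLog G x) (hz2 : z * z = 0)
    (hz : ∀ (c : k) (u : LinearMap.GeneralLinearGroup k M), (u : M →ₗ[k] M) = 1 + c • z → u ∈ G)
    (hr : rk z < rk x) : z = 0 := by
  by_contra hne
  have := hG.min z ⟨hz2, hne, hz⟩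
  omega

lemma sq_diff (hxx : x * x = 0) (hyy : y * y = 0) :
    (x * y - y * x) * (x * y - y * x) = TT x y * TT x y := by
  unfold TT
  have e1 : x * y * (y * x) = 0 := by
    rw [mul_assoc, ← mul_assoc y, hyy, zero_mul, mul_zero]
  have e2 : y * x * (x * y) = 0 := by
    rw [mul_assoc, ← mul_assoc x, hxx, zero_mul, mul_zero]
  simp only [sub_mul, mul_sub, add_mul, mul_add, e1, e2]
  abel

lemma even_zero (h2 : (2 : k) ≠ 0) (hx : MinLog G x) (hy : MinLog G y) {n : ℕ} (hn : TT x y ^ n = 0)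
    {e : ℕ} (he : 1 ≤ e) (h1 : TT x y ^ (e + 1) * x = 0) (h2' : TT x y ^ (e + 1) * y = 0) :
    TT x y ^ e * (x * y - y * x) = 0 := by
  have hxx := hx.sq
  have hyy := hy.sq
  have hcx := comm_x hxx hyy
  have hcy := comm_y hxx hyy
  have htop := S_top hxx hyy h1 h2'
  apply zero_of_rk_lt hy
  · have hc : Commute (TT x y ^ e) (x * y - y * x) :=
      ((hcx.mul_right hcy).sub_right (hcy.mul_right hcx)).pow_left e
    calc TT x y ^ e * (x * y - y * x) * (TT x y ^ e * (x * y - y * x))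
        = TT x y ^ e * (TT x y ^ e * ((x * y - y * x) * (x * y - y * x))) := by
          rw [mul_assoc, ← mul_assoc (x * y - y * x), hc.symm.eq, mul_assoc]
      _ = 0 := by
          rw [sq_diff hxx hyy, ← mul_assoc, ← mul_assoc, ← pow_add, ← pow_succ, ← pow_succ]
          rw [show e + e + 1 + 1 = (e + 2) + e by omega, pow_add, htop, zero_mul]
  · intro c u hu
    obtain ⟨v, hvG, hv⟩ := exists_unit_of_gam hx.toLogQ hy.toLogQ (evenE_mem (c / 2 ^ e) e)
    have huv : u = v := by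
      apply Units.ext
      rw [hu, hv, psiV_even hxx hyy (evenE_shape _ _) h1 h2']
      congr 2
      field_simp
    rw [huv]
    exact hvG
  · have e1 : TT x y ^ e * (x * y - y * x) = x * (TT x y ^ e * y) - TT x y ^ e * y * x := by
      rw [mul_sub, ← mul_assoc x, ← (hcx.pow_left e).eq, mul_assoc, mul_assoc]
    rw [e1]
    refine lt_of_le_of_lt (rk_comm_le ?_) (rk_pow_mul_lt hy.ne hcy hn he)
    rw [← mul_assoc x, ← (hcx.pow_left e).eq, mul_assoc (TT x y ^ e), mul_assoc (TT x y ^ e),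
      ← TT_mul_x hxx hyy, ← mul_assoc, ← pow_succ, h1]

omit [FiniteDimensional k M] in
/-- A commutator of a conjugate of `x` with `x`. -/
lemma conj_step (hx : LogQ G x) {U : LinearMap.GeneralLinearGroup k M} (hU : U ∈ G) {D : M →ₗ[k] M}
    (h : ((U * oa x hx.sq 1 * U⁻¹ * (oa x hx.sq 1)⁻¹ : LinearMap.GeneralLinearGroup k M) : M →ₗ[k] M) = 1 + D)
    (hDx : D * x = 0) (hxD : x * D = 0) :
    D * D = 0 ∧ ∀ (c : k) (u : LinearMap.GeneralLinearGroup k M), (u : M →ₗ[k] M) = 1 + c • D → u ∈ G := by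
  have hxx := hx.sq
  obtain ⟨P, hP⟩ : ∃ P : M →ₗ[k] M, P = ((U : _) : M →ₗ[k] M) := ⟨_, rfl⟩
  obtain ⟨Q, hQ⟩ : ∃ Q : M →ₗ[k] M, Q = ((U⁻¹ : (M →ₗ[k] M)ˣ) : M →ₗ[k] M) := ⟨_, rfl⟩
  have hPQ : P * Q = 1 := hP ▸ hQ ▸ U.val_inv
  have hQP : Q * P = 1 := hP ▸ hQ ▸ U.inv_val
  obtain ⟨x', hx'⟩ : ∃ x', x' = P * x * Q := ⟨_, rfl⟩
  have hx'x' : x' * x' = 0 := by
    rw [hx']
    calc P * x * Q * (P * x * Q) = P * x * (Q * P) * x * Q := by noncomm_ring
      _ = 0 := by rw [hQP, mul_one, mul_assoc P, hxx, mul_zero, zero_mul]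
  have e : ∀ c : k, P * (1 + c • x) * Q = 1 + c • x' := by
    intro c
    rw [hx', mul_add, mul_one, add_mul, hPQ, mul_smul_comm, smul_mul_assoc]
  have h3 : (1 + x') * (1 - x) = 1 + D := by
    rw [← h, oa_inv]
    simp only [Units.val_mul, oa_val]
    rw [← hQ, ← hP, e 1, one_smul]
    have : (1 + (-1 : k) • x) = 1 - x := by rw [neg_one_smul]; abel
    rw [this]
  have h4 : x' - x - x' * x = D := by
    have : (1 + x') * (1 - x) = 1 + (x' - x - x' * x) := by noncomm_ring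
    rw [this] at h3
    exact add_left_cancel h3
  have h5 : x' * x = 0 := by
    have : (x' - x - x' * x) * x = x' * x := by
      rw [sub_mul, sub_mul, hxx, mul_assoc, hxx, mul_zero, sub_zero, sub_zero]
    rw [← this, h4, hDx]
  have h6 : D = x' - x := by rw [← h4, h5, sub_zero]
  refine ⟨?_, ?_⟩
  · have : x * x' = 0 := by
      have : x * D = x * x' := by rw [h6, mul_sub, hxx, sub_zero]
      rw [← this, hxD]
    rw [h6, sub_mul, mul_sub, mul_sub, hx'x', h5, this, hxx]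
    abel
  · intro c u hu
    have hu' : u = U * oa x hxx c * U⁻¹ * (oa x hxx c)⁻¹ := by
      apply Units.ext
      rw [hu, oa_inv]
      simp only [Units.val_mul, oa_val]
      rw [← hQ, ← hP, e, h6]
      have h55 : c • x' * ((-c) • x) = 0 := by
        rw [smul_mul_assoc, mul_smul_comm, h5, smul_zero, smul_zero]
      rw [add_mul, mul_add, mul_add, h55, one_mul, one_mul, mul_one, add_zero, smul_sub, neg_smul]
      abel
    rw [hu']
    exact G.mul_mem (G.mul_mem (G.mul_mem hU (hx.oa_mem c)) (G.inv_mem hU)) (G.inv_mem (hx.oa_mem c))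

lemma odd_zero (h2 : (2 : k) ≠ 0) (hx : MinLog G x) (hy : MinLog G y) {n : ℕ} (hn : TT x y ^ n = 0)
    {j : ℕ} (h1 : TT x y ^ (j + 1 + 1) * x = 0) (h2' : TT x y ^ (j + 1 + 1) * y = 0) :
    TT x y ^ (j + 1) * x = 0 := by
  have hxx := hx.sq
  have hyy := hy.sq
  have hcx := comm_x hxx hyy
  have hcy := comm_y hxx hyy
  have hz := even_zero h2 hx hy hn (e := j + 1) (by omega) h1 h2'
  have hz' : TT x y ^ (j + 1) * (x * y) = TT x y ^ (j + 1) * (y * x) := by
    rw [mul_sub] at hz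
    exact sub_eq_zero.1 hz
  obtain ⟨w, hw⟩ := psiV_odd hxx hyy (oddE_shape (1 : k) (j + 1)) h1 h2' hz
  rw [one_mul] at hw
  obtain ⟨κ, hκ⟩ : ∃ κ : k, κ = 2 ^ (j + 1) := ⟨_, rfl⟩
  rw [← hκ] at hw
  have hκ0 : κ ≠ 0 := hκ ▸ pow_ne_zero _ h2
  obtain ⟨Sw, hSw⟩ : ∃ Sw : M →ₗ[k] M, Sw = aeval (TT x y) w := ⟨_, rfl⟩
  rw [← hSw] at hw
  have hSwx : Commute Sw x := hSw ▸ SS_comm_x k hxx hyy w
  have hST : Commute Sw (TT x y ^ (j + 1)) := by
    have h : Commute (aeval (TT x y) w) (aeval (TT x y) (X ^ (j + 1))) :=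
      (Commute.all w (X ^ (j + 1))).map (aeval (TT x y))
    rw [← hSw] at h
    simpa using h
  obtain ⟨V, hV⟩ : ∃ V, V = TT x y ^ (j + 1) * (y * x) := ⟨_, rfl⟩
  rw [← hV] at hw
  obtain ⟨D, hD⟩ : ∃ D : M →ₗ[k] M, D = κ • (TT x y ^ (j + 1) * x) + Sw * V := ⟨_, rfl⟩
  have hDx : D * x = 0 := by
    rw [hD, add_mul, smul_mul_assoc, mul_assoc, hxx, mul_zero, smul_zero, zero_add, hV, mul_assoc,
      mul_assoc, mul_assoc, hxx, mul_zero, mul_zero, mul_zero]
  have hxT : ∀ e : ℕ, x * TT x y ^ e = TT x y ^ e * x := fun e => (hcx.pow_left e).eq.symm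
  have hxD : x * D = 0 := by
    have e1 : x * (TT x y ^ (j + 1) * x) = 0 := by
      rw [← mul_assoc, hxT, mul_assoc, hxx, mul_zero]
    have e2 : x * (Sw * V) = Sw * (TT x y ^ (j + 1 + 1) * x) := by
      rw [← mul_assoc, ← hSwx.eq, mul_assoc, hV, ← mul_assoc x, hxT, mul_assoc (TT x y ^ (j + 1)),
        ← mul_assoc x, pow_succ (TT x y) (j + 1), mul_assoc (TT x y ^ (j + 1)) (TT x y), TT_mul_x hxx hyy,
        mul_assoc x]
    rw [hD, mul_add, mul_smul_comm, e1, smul_zero, zero_add, e2, h1, mul_zero]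
  -- the conjugating element
  have hab : ∃ U ∈ G, ((U * oa x hxx 1 * U⁻¹ * (oa x hxx 1)⁻¹ : LinearMap.GeneralLinearGroup k M) :
      M →ₗ[k] M) = 1 + D := by
    let b : Gam k := ⟨evenE (1 : k) j, evenE_mem _ _⟩
    let a : Gam k := ⟨Cfsg.Agent.Lib.PSL2.Basic.x (1 : k[X]), x_1_mem⟩
    have hUa : psiU hxx hyy a = oa x hxx 1 := by
      apply Units.ext
      show psiV x y _ = _
      rw [psiV_x]
      simp
    refine ⟨psiU hxx hyy b, psiU_mem hxx hyy G hx.mem hy.mem b, ?_⟩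
    rw [← hUa, ← map_inv, ← map_inv, ← map_mul, ← map_mul, ← map_mul]
    show psiV x y (evenE (1 : k) j * Cfsg.Agent.Lib.PSL2.Basic.x (1 : k[X]) * (evenE (1 : k) j)⁻¹ *
      (Cfsg.Agent.Lib.PSL2.Basic.x (1 : k[X]))⁻¹) = _
    have : oddE (1 : k) (j + 1) = evenE (1 : k) j * Cfsg.Agent.Lib.PSL2.Basic.x (1 : k[X]) *
        (evenE (1 : k) j)⁻¹ * (Cfsg.Agent.Lib.PSL2.Basic.x (1 : k[X]))⁻¹ := rfl
    rw [← this, hw, add_assoc, hD]
  obtain ⟨U, hU, hUD⟩ := hab
  obtain ⟨hD2, hDmem⟩ := conj_step hx.toLogQ hU hUD hDx hxD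
  have hD0 : D = 0 := by
    apply zero_of_rk_lt hx hD2 hDmem
    refine lt_of_le_of_lt ?_ (rk_pow_mul_lt hx.ne hcx hn (e := j + 1) (by omega))
    have hfac : D = TT x y ^ (j + 1) * x * (κ • 1 + Sw * y) := by
      rw [hD, mul_add, mul_smul_comm, mul_one, hV, ← hz']
      congr 1
      calc Sw * (TT x y ^ (j + 1) * (x * y)) = (Sw * TT x y ^ (j + 1)) * x * y := by noncomm_ring
        _ = TT x y ^ (j + 1) * (Sw * x) * y := by rw [hST.eq, mul_assoc (TT x y ^ (j + 1))]
        _ = TT x y ^ (j + 1) * x * (Sw * y) := by rw [hSwx.eq]; noncomm_ring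
    rw [hfac]
    exact Submodule.finrank_mono (LinearMap.range_comp_le_range _ _)
  -- conclusion
  have hyxy : V * y = 0 := by
    rw [hV, mul_assoc, ← TT_mul_y hxx hyy, ← mul_assoc, ← pow_succ, h2']
  have hV0 : TT x y ^ (j + 1) * (x * y) = 0 := by
    have h7 : D * y = κ • (TT x y ^ (j + 1) * (x * y)) := by
      rw [hD, add_mul, smul_mul_assoc, mul_assoc (Sw), hyxy, mul_zero, add_zero, mul_assoc]
    rw [hD0, zero_mul] at h7
    exact (smul_eq_zero.1 h7.symm).resolve_left hκ0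
  have h8 : V = 0 := by rw [hV, ← hz', hV0]
  rw [hD, h8, mul_zero, add_zero] at hD0
  exact (smul_eq_zero.1 hD0).resolve_left hκ0

/-- **Lemma U**. -/
theorem lemU (h2 : (2 : k) ≠ 0) (hx : MinLog G x) (hy : MinLog G y) {n : ℕ} (hn : TT x y ^ n = 0) :
    TT x y * x = 0 ∧ TT x y * y = 0 := by
  have hn' : TT y x ^ n = 0 := by rw [TT_comm]; exact hn
  have key : ∀ m : ℕ, TT x y ^ (m + 1) * x = 0 → TT x y ^ (m + 1) * y = 0 →
      TT x y * x = 0 ∧ TT x y * y = 0 := by
    intro m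
    induction m with
    | zero => intro h h'; simpa using And.intro h h'
    | succ m ih =>
      intro h h'
      have h3 := odd_zero h2 hx hy hn h h'
      have h4 := odd_zero h2 hy hx hn' (j := m) (by rw [TT_comm]; exact h') (by rw [TT_comm]; exact h)
      rw [TT_comm] at h4
      exact ih h3 h4
  apply key n
  · rw [pow_succ, hn, zero_mul, zero_mul]
  · rw [pow_succ, hn, zero_mul, zero_mul]

end StepU

/-! ### Lemma N -/

section StepN

variable [FiniteDimensional k M] {x y : M →ₗ[k] M}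

/-- The annihilator of an endomorphism is principal. -/
lemma exists_ann (T x : M →ₗ[k] M) :
    ∃ μ : k[X], μ ≠ 0 ∧ ∀ P : k[X], aeval T P * x = 0 ↔ μ ∣ P := by
  let I : Ideal k[X] :=
    { carrier := {P | aeval T P * x = 0}
      add_mem' := by
        intro a b ha hb
        simp only [Set.mem_setOf_eq] at ha hb ⊢
        rw [map_add, add_mul, ha, hb, add_zero]
      zero_mem' := by simp
      smul_mem' := by
        intro c a ha
        simp only [Set.mem_setOf_eq, smul_eq_mul] at ha ⊢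
        rw [map_mul, mul_assoc, ha, mul_zero] }
  refine ⟨Submodule.IsPrincipal.generator I, ?_, fun P => Submodule.IsPrincipal.mem_iff_generator_dvd I⟩
  intro h0
  have hmin : minpoly k T ∈ I := by
    show aeval T (minpoly k T) * x = 0
    rw [minpoly.aeval, zero_mul]
  rw [Submodule.IsPrincipal.mem_iff_generator_dvd, h0, zero_dvd_iff] at hmin
  exact minpoly.ne_zero (Algebra.IsIntegral.isIntegral T) hmin

omit [FiniteDimensional k M] in
lemma S_X_mul (hxx : x * x = 0) (hyy : y * y = 0) {P : k[X]} (hP : aeval (TT x y) P * x = 0) :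
    aeval (TT x y) (X * P) = 0 := by
  have hc : Commute (aeval (TT x y) P) y := SS_comm_y k hxx hyy P
  rw [mul_comm, map_mul, aeval_X]
  show _ * (x * y + y * x) = 0
  rw [mul_add, ← mul_assoc, hP, zero_mul, zero_add, ← mul_assoc, hc.eq, mul_assoc, hP, mul_zero]

/-- **Lemma N**, first half. -/
lemma lemN_one (h2 : (2 : k) ≠ 0) (h3 : Nat.card k ≠ 3) (hx : MinLog G x) (hy : LogQ G y)
    (hn : ∀ n : ℕ, TT x y ^ n ≠ 0) :
    ∃ f : k[X], Irreducible f ∧ ¬ X ∣ f ∧ aeval (TT x y) f * x = 0 := by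
  have hxx := hx.sq
  have hyy := hy.sq
  obtain ⟨μ, hμ0, hμ⟩ := exists_ann (TT x y) x
  obtain ⟨b, μ', hμ', rfl⟩ := WfDvdMonoid.max_power_factor hμ0 (Polynomial.irreducible_X (R := k))
  have hnu : ¬ IsUnit μ' := by
    intro hu
    have h1 : aeval (TT x y) (X ^ b) * x = 0 := (hμ _).2 (by
      rw [mul_comm]; exact (hu.mul_left_dvd).2 dvd_rfl)
    have h4 := S_X_mul hxx hyy h1
    apply hn (b + 1)
    rw [pow_succ']
    simpa using h4
  obtain ⟨f, hf, g, rfl⟩ := WfDvdMonoid.exists_irreducible_factor hnu (right_ne_zero_of_mul hμ0)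
  have hXf : ¬ X ∣ f := fun hd => hμ' (hd.trans (dvd_mul_right _ _))
  refine ⟨f, hf, hXf, ?_⟩
  have hne : X ^ b * (f * g) ≠ 0 := hμ0
  obtain ⟨μ₁, hμ₁⟩ : ∃ μ₁, μ₁ = X ^ b * g := ⟨_, rfl⟩
  have hfμ : X ^ b * (f * g) = f * μ₁ := by rw [hμ₁]; ring
  rw [hfμ] at hμ hne
  have hμ₁0 : μ₁ ≠ 0 := right_ne_zero_of_mul hne
  have hS0 : aeval (TT x y) (X * (f * μ₁)) = 0 := S_X_mul hxx hyy ((hμ _).2 dvd_rfl)
  -- the element `x'`
  have hm : aeval (TT x y) (f * (X * μ₁)) = 0 := by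
    rw [← hS0]; congr 1; ring
  obtain ⟨x', hx'⟩ : ∃ x' : M →ₗ[k] M, x' = aeval (TT x y) (X * (X * μ₁)) * x := ⟨_, rfl⟩
  have hc : Commute (aeval (TT x y) (X * (X * μ₁))) x := SS_comm_x k hxx hyy _
  have hx'2 : x' * x' = 0 := by
    rw [hx', mul_assoc, ← mul_assoc x, ← hc.eq, mul_assoc, hxx, mul_zero, mul_zero]
  have hx'0 : x' ≠ 0 := by
    intro h0
    rw [hx'] at h0
    have h5 := (hμ _).1 h0
    have h6 : f ∣ X * X := by
      have h7 : f * μ₁ ∣ (X * X) * μ₁ := by
        convert h5 using 1; ring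
      exact (mul_dvd_mul_iff_right hμ₁0).1 h7
    rcases (hf.prime.dvd_or_dvd h6) with h8 | h8
    · exact hXf ((hf.associated_of_dvd irreducible_X h8).symm.dvd)
    · exact hXf ((hf.associated_of_dvd irreducible_X h8).symm.dvd)
  have hx'mem : ∀ (c : k) (u : LinearMap.GeneralLinearGroup k M), (u : M →ₗ[k] M) = 1 + c • x' → u ∈ G := by
    intro c u hu
    obtain ⟨h, hh, he⟩ := exists_top h2 h3 hf hXf (X * μ₁) (mul_ne_zero X_ne_zero hμ₁0) c
    obtain ⟨v, hv, hv'⟩ := exists_unit_of_gam hx.toLogQ hy hh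
    have hent := gam_entries hh
    have hcongr := psiV_congr hm he hent.1 (by simp) hent.2.1 (by simp)
    have huv : u = v := by
      apply Units.ext
      rw [hu, hv', hcongr, psiV_x, hx', map_mul (aeval (TT x y)) (C c), aeval_C,
        Algebra.algebraMap_eq_smul_one, smul_mul_assoc, smul_mul_assoc, one_mul]
    rw [huv]
    exact hv
  have hlog : LogQ G x' := ⟨hx'2, hx'0, hx'mem⟩
  have hrk := hx.min x' hlog
  have hrk' : Module.finrank k (LinearMap.range x) ≤
      Module.finrank k ((LinearMap.range x).map (aeval (TT x y) (X * (X * μ₁)))) := by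
    rw [← range_mul, ← hx']
    exact hrk
  ext v
  have hcf : Commute (aeval (TT x y) f) x := SS_comm_x k hxx hyy _
  have h9 : (aeval (TT x y) f * x) v ∈ LinearMap.range x := by
    rw [hcf.eq]
    exact ⟨_, rfl⟩
  refine inj_of_finrank_map hrk' h9 ?_
  have h10 : aeval (TT x y) (X * (X * μ₁)) * (aeval (TT x y) f * x) = 0 := by
    rw [← mul_assoc, ← map_mul, show X * (X * μ₁) * f = X * X * (f * μ₁) by ring, map_mul, mul_assoc,
      (hμ _).2 dvd_rfl, mul_zero]
  exact congrArg (fun F : M →ₗ[k] M => F v) h10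

/-- **Lemma N**. -/
lemma lemN (h2 : (2 : k) ≠ 0) (h3 : Nat.card k ≠ 3) (hx : MinLog G x) (hy : MinLog G y)
    (hn : ∀ n : ℕ, TT x y ^ n ≠ 0) :
    ∃ f : k[X], Irreducible f ∧ ¬ X ∣ f ∧ aeval (TT x y) f * x = 0 ∧ aeval (TT x y) f * y = 0 := by
  have hxx := hx.sq
  have hyy := hy.sq
  obtain ⟨f, hf, hXf, hfx⟩ := lemN_one h2 h3 hx hy.toLogQ hn
  refine ⟨f, hf, hXf, hfx, ?_⟩
  have hn' : ∀ n : ℕ, TT y x ^ n ≠ 0 := by rw [TT_comm]; exact hn
  obtain ⟨f', hf', hXf', hfy⟩ := lemN_one h2 h3 hy hx.toLogQ hn'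
  rw [TT_comm] at hfy
  have hS : aeval (TT x y) (X * f) = 0 := S_X_mul hxx hyy hfx
  by_cases hd : f' ∣ f
  · obtain ⟨g, rfl⟩ := hd
    rw [mul_comm, map_mul, mul_assoc, hfy, mul_zero]
  · exfalso
    have hcop : IsCoprime f' (X * f) := by
      have h1 : IsCoprime f' X := (hf'.coprime_iff_not_dvd).2 (fun hd => hXf' ((hf'.associated_of_dvd irreducible_X hd).symm.dvd))
      exact h1.mul_right ((hf'.coprime_iff_not_dvd).2 hd)
    obtain ⟨A, B, hAB⟩ := hcop
    have h5 : y = 0 := by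
      have := congrArg (fun P => aeval (TT x y) P * y) hAB
      simp only [map_add, map_mul, map_one, one_mul, add_mul] at this
      rw [mul_assoc (aeval (TT x y) A), hfy, mul_zero, zero_add] at this
      rw [← this]
      have h6 : aeval (TT x y) (X * f) = 0 := hS
      rw [map_mul] at h6
      rw [h6]
      simp
    exact hy.ne h5

/-- **The dichotomy**. -/
theorem dichotomy (h2 : (2 : k) ≠ 0) (h3 : Nat.card k ≠ 3) (hx : MinLog G x) (hy : MinLog G y) :
    (TT x y * x = 0 ∧ TT x y * y = 0) ∨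
      ∃ f : k[X], Irreducible f ∧ ¬ X ∣ f ∧ aeval (TT x y) f * x = 0 ∧ aeval (TT x y) f * y = 0 := by
  by_cases hn : ∃ n : ℕ, TT x y ^ n = 0
  · obtain ⟨n, hn⟩ := hn
    exact Or.inl (lemU h2 hx hy hn)
  · push Not at hn
    exact Or.inr (lemN h2 h3 hx hy hn)

end StepN

end Cfsg.Agent.Lib.Linalg.Quad.Dich
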