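import Cfsg.Agent.Lib.Linalg.Quad.Level
import Mathlib

/-!
# Theorem Q in all cases; iterated commutators in the universal group
-/

set_option autoImplicit false

namespace Cfsg.Agent.Lib.Linalg.Quad.Elems

open Polynomial Matrix Matrix.SpecialLinearGroup
open scoped MatrixGroups
open Cfsg.Agent.Lib.PSL2.Basic Cfsg.Agent.Lib.Linalg.Quad.Chain Cfsg.Agent.Lib.Linalg.Quad.Sep
open Cfsg.Agent.Lib.Linalg.Quad.Psi

variable {k : Type*} [Field k]

/-- **Theorem Q.** -/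
theorem exists_top (h2 : (2 : k) ≠ 0) (h3 : Nat.card k ≠ 3) {f : k[X]} (hf : Irreducible f) (hX : ¬ X ∣ f)
    (m₁ : k[X]) (hm₁ : m₁ ≠ 0) (c : k) :
    ∃ h ∈ Gam k, ev (X * (f * m₁)) h = ev (X * (f * m₁)) (x (C c * (X * m₁))) := by
  by_cases hfin : Finite k
  · haveI : Fact (Irreducible f) := ⟨hf⟩
    exact Level.exists_top_finite h2 h3 hX m₁ hm₁ c
  · haveI : Infinite k := not_finite_iff_infinite.1 hfin
    have hne : f * m₁ ≠ 0 := mul_ne_zero hf.ne_zero hm₁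
    have hmonic : (C (f * m₁).leadingCoeff⁻¹ * (f * m₁)).Monic := monic_C_mul_of_mul_leadingCoeff_eq_one
      (inv_mul_cancel₀ (leadingCoeff_ne_zero.2 hne))
    obtain ⟨h, hh, e⟩ := exists_x_of_infinite h2 hmonic (C c * (X * m₁))
    refine ⟨h, hh, ?_⟩
    have hdvd : X * (f * m₁) ∣ X * (C (f * m₁).leadingCoeff⁻¹ * (f * m₁)) :=
      ⟨C (f * m₁).leadingCoeff⁻¹, by ring⟩
    have hent : ∀ i j, X * (f * m₁) ∣ h.1 i j - (x (C c * (X * m₁)) : SL(2, k[X])).1 i j := by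
      intro i j
      have := congrFun (congrFun (congrArg Subtype.val e) i) j
      exact hdvd.trans (AdjoinRoot.mk_eq_mk.1 this)
    exact ev_eq_of_dvd (hent 0 0) (hent 0 1) (hent 1 0) (hent 1 1)

/-- Commutators. -/
def cm {G : Type*} [Group G] (a b : G) : G := a * b * a⁻¹ * b⁻¹

lemma cm_y_00 (h : SL(2, k[X])) (t : k[X]) :
    (cm h (y t)).1 0 0 = 1 + h.1 0 1 * t * h.1 1 1 + h.1 0 1 ^ 2 * t ^ 2 := by
  have hdet := det_entries h
  simp [cm]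
  linear_combination (1 : k[X]) * hdet

lemma cm_y_01 (h : SL(2, k[X])) (t : k[X]) : (cm h (y t)).1 0 1 = - (h.1 0 1 ^ 2 * t) := by
  simp [cm]
  ring

lemma cm_y_10 (h : SL(2, k[X])) (t : k[X]) :
    (cm h (y t)).1 1 0 = h.1 1 1 ^ 2 * t - t + h.1 0 1 * t ^ 2 * h.1 1 1 := by
  have hdet := det_entries h
  simp [cm]
  linear_combination (-t) * hdet

lemma cm_y_11 (h : SL(2, k[X])) (t : k[X]) :
    (cm h (y t)).1 1 1 = 1 - h.1 0 1 * t * h.1 1 1 := by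
  have hdet := det_entries h
  simp [cm]
  linear_combination (1 : k[X]) * hdet

lemma cm_x_00 (h : SL(2, k[X])) (t : k[X]) :
    (cm h (x t)).1 0 0 = 1 - h.1 1 0 * h.1 0 0 * t := by
  have hdet := det_entries h
  simp [cm]
  linear_combination (1 : k[X]) * hdet

lemma cm_x_01 (h : SL(2, k[X])) (t : k[X]) :
    (cm h (x t)).1 0 1 = h.1 0 0 ^ 2 * t - t + h.1 1 0 * h.1 0 0 * t ^ 2 := by
  have hdet := det_entries h
  simp [cm]
  linear_combination (-t) * hdet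

lemma cm_x_10 (h : SL(2, k[X])) (t : k[X]) : (cm h (x t)).1 1 0 = - (h.1 1 0 ^ 2 * t) := by
  simp [cm]
  ring

lemma cm_x_11 (h : SL(2, k[X])) (t : k[X]) :
    (cm h (x t)).1 1 1 = 1 + h.1 1 0 * h.1 0 0 * t + h.1 1 0 ^ 2 * t ^ 2 := by
  have hdet := det_entries h
  simp [cm]
  linear_combination (1 : k[X]) * hdet

/-- The iterated commutators. -/
noncomputable def oddE (c : k) : ℕ → SL(2, k[X])
  | 0 => x (C c)
  | j + 1 => cm (cm (oddE c j) (y X)) (x 1)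

/-- The iterated commutators. -/
noncomputable def evenE (c : k) (j : ℕ) : SL(2, k[X]) := cm (oddE c j) (y X)

lemma y_X_mem : y (X : k[X]) ∈ Gam k := by
  simpa using y_mem (1 : k)

lemma x_1_mem : x (1 : k[X]) ∈ Gam k := by
  simpa using x_mem (1 : k)

lemma cm_mem {a b : SL(2, k[X])} (ha : a ∈ Gam k) (hb : b ∈ Gam k) : cm a b ∈ Gam k :=
  (Gam k).mul_mem ((Gam k).mul_mem ((Gam k).mul_mem ha hb) ((Gam k).inv_mem ha)) ((Gam k).inv_mem hb)

lemma oddE_mem (c : k) (j : ℕ) : oddE c j ∈ Gam k := by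
  induction j with
  | zero => exact x_mem c
  | succ j ih => exact cm_mem (cm_mem ih y_X_mem) x_1_mem

lemma evenE_mem (c : k) (j : ℕ) : evenE c j ∈ Gam k := cm_mem (oddE_mem c j) y_X_mem

/-- The shape of the odd elements. -/
def OddShape (c : k) (j : ℕ) (h : SL(2, k[X])) : Prop :=
  ∃ a b c' d : k[X], h.1 0 0 = 1 + X ^ (j + 1) * a ∧ h.1 1 1 = 1 + X ^ (j + 1) * d ∧
    h.1 0 1 = C (c * 2 ^ j) * X ^ j + X ^ (j + 1) * b ∧ h.1 1 0 = X ^ (j + 2) * c'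

/-- The shape of the even elements. -/
def EvenShape (c : k) (j : ℕ) (h : SL(2, k[X])) : Prop :=
  ∃ a b c' d : k[X], h.1 0 0 = 1 + C (c * 2 ^ j) * X ^ (j + 1) + X ^ (j + 2) * a ∧
    h.1 1 1 = 1 - C (c * 2 ^ j) * X ^ (j + 1) + X ^ (j + 2) * d ∧
    h.1 0 1 = X ^ (j + 1) * b ∧ h.1 1 0 = X ^ (j + 2) * c'

lemma even_of_odd {c : k} {j : ℕ} {h : SL(2, k[X])} (hh : OddShape c j h) : EvenShape c j (cm h (y X)) := by
  obtain ⟨a, b, c', d, h00, h11, h01, h10⟩ := hh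
  unfold EvenShape
  generalize C (c * 2 ^ j) = κ at h01 ⊢
  refine ⟨b + κ * X ^ j * d + X ^ (j + 1) * b * d + X ^ j * (κ + X * b) ^ 2, - (X ^ j * (κ + X * b) ^ 2),
    2 * d + X ^ (j + 1) * d ^ 2 + (κ + X * b) * (1 + X ^ (j + 1) * d),
    -(b + κ * X ^ j * d + X ^ (j + 1) * b * d), ?_, ?_, ?_, ?_⟩
  · rw [cm_y_00, h01, h11]
    ring
  · rw [cm_y_11, h01, h11]
    ring
  · rw [cm_y_01, h01]
    ring
  · rw [cm_y_10, h01, h11]
    ring

lemma odd_of_even {c : k} {j : ℕ} {h : SL(2, k[X])} (hh : EvenShape c j h) :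
    OddShape c (j + 1) (cm h (x 1)) := by
  obtain ⟨a, b, c', d, h00, h11, h01, h10⟩ := hh
  have e2 : C (c * 2 ^ (j + 1)) = 2 * C (c * 2 ^ j) := by
    rw [pow_succ, ← mul_assoc, mul_comm, C_mul, map_ofNat]
  unfold OddShape
  rw [e2]
  generalize C (c * 2 ^ j) = κ at h00 ⊢
  have hsq : h.1 0 0 ^ 2 - 1 = 2 * κ * X ^ (j + 1) + X ^ (j + 2) * (2 * a + X ^ j * (κ + X * a) ^ 2) := by
    rw [h00]
    ring
  refine ⟨- c' * h.1 0 0, 2 * a + X ^ j * (κ + X * a) ^ 2 + c' * h.1 0 0, -(X ^ (j + 1) * c' ^ 2),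
    c' * h.1 0 0 + c' ^ 2 * X ^ (j + 2), ?_, ?_, ?_, ?_⟩
  · rw [cm_x_00, h10]
    ring
  · rw [cm_x_11, h10]
    ring
  · rw [cm_x_01, h10]
    linear_combination hsq
  · rw [cm_x_10, h10]
    ring

lemma oddE_shape (c : k) (j : ℕ) : OddShape c j (oddE c j) := by
  induction j with
  | zero =>
    refine ⟨0, 0, 0, 0, ?_, ?_, ?_, ?_⟩ <;> simp [oddE]
  | succ j ih => exact odd_of_even (even_of_odd ih)

lemma evenE_shape (c : k) (j : ℕ) : EvenShape c j (evenE c j) := even_of_odd (oddE_shape c j)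

end Cfsg.Agent.Lib.Linalg.Quad.Elems
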