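import Cfsg.Agent.Lib.Linalg.Quad.Sep
import Mathlib

/-!
# Levels in the universal group, finite `k`
-/

set_option autoImplicit false

namespace Cfsg.Agent.Lib.Linalg.Quad.Level

open Polynomial Matrix Matrix.SpecialLinearGroup
open scoped MatrixGroups
open Cfsg.Agent.Lib.PSL2.Basic Cfsg.Agent.Lib.Linalg.Quad.Chain Cfsg.Agent.Lib.Linalg.Quad.Sep

section Ad

variable {F : Type*} [Field F]

/-- The elementary matrices. -/
def E12 (w : F) : Matrix (Fin 2) (Fin 2) F := !![0, w; 0, 0]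
/-- The elementary matrices. -/
def E21 (w : F) : Matrix (Fin 2) (Fin 2) F := !![0, 0; w, 0]

/-- Conjugation. -/
def Ad (A : SL(2, F)) (β : Matrix (Fin 2) (Fin 2) F) : Matrix (Fin 2) (Fin 2) F := A.1 * β * (A⁻¹).1

lemma Ad_x (s a b c d : F) : Ad (x s) !![a, b; c, d] =
    !![a + s * c, b + s * d - (a + s * c) * s; c, d - c * s] := by
  ext i j
  fin_cases i <;> fin_cases j <;> simp [Ad, Matrix.mul_apply, Fin.sum_univ_two, x_inv] <;> ring

lemma Ad_w (a b c d : F) : Ad (w : SL(2, F)) !![a, b; c, d] = !![d, -c; -b, a] := by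
  ext i j
  rw [Ad, w_inv]
  fin_cases i <;> fin_cases j <;> simp [Matrix.mul_apply, Fin.sum_univ_two, w, sl2]

variable (h2 : (2 : F) ≠ 0) (Λ : AddSubgroup (Matrix (Fin 2) (Fin 2) F))
  (hAd : ∀ (A : SL(2, F)), ∀ β ∈ Λ, Ad A β ∈ Λ)
include h2 hAd

/-- **Lemma Ad**: a non-zero invariant additive group of trace zero matrices contains all `E12`. -/
theorem E12_mem {a b c : F} (hβ : !![a, b; c, -a] ∈ Λ) (hne : !![a, b; c, -a] ≠ 0) (w₀ : F) :
    E12 w₀ ∈ Λ := by
  -- difference with `x s`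
  have hD : ∀ s : F, !![s * c, -(2 * a * s) - s * c * s; 0, - (s * c)] ∈ Λ := by
    intro s
    have h1 := Λ.sub_mem (hAd (x s) _ hβ) hβ
    rw [Ad_x] at h1
    convert h1 using 1
    ext i j
    fin_cases i <;> fin_cases j <;> simp <;> ring
  by_cases hc : c = 0
  · by_cases ha : a = 0
    · -- `β = b E12`
      have hb : b ≠ 0 := by
        intro hb
        apply hne
        subst ha hb hc
        ext i j
        fin_cases i <;> fin_cases j <;> simp
      -- apply the Weyl element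
      have h1 := hAd w _ hβ
      rw [Ad_w, ha, hc] at h1
      simp only [neg_zero] at h1
      have hD' : ∀ s : F, !![s * (-b), - (s * (-b) * s); 0, s * b] ∈ Λ := by
        intro s
        have h3 := Λ.sub_mem (hAd (x s) _ h1) h1
        rw [Ad_x] at h3
        convert h3 using 1
        ext i j
        fin_cases i <;> fin_cases j <;> simp <;> ring
      have h4 := Λ.sub_mem (hAd (x (w₀ / (2 * b))) _ (hD' 1)) (hD' 1)
      rw [Ad_x] at h4
      convert h4 using 1
      ext i j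
      fin_cases i <;> fin_cases j <;> simp [E12]
      field_simp
      ring
    · have h4 := hD (-(w₀ / (2 * a)))
      convert h4 using 1
      ext i j
      fin_cases i <;> fin_cases j <;> simp [E12, hc]
      field_simp
  · have h4 := Λ.sub_mem (hAd (x (-(w₀ / (2 * c)))) _ (hD 1)) (hD 1)
    rw [Ad_x] at h4
    convert h4 using 1
    ext i j
    fin_cases i <;> fin_cases j <;> simp [E12]
    field_simp
    ring

theorem E21_mem {a b c : F} (hβ : !![a, b; c, -a] ∈ Λ) (hne : !![a, b; c, -a] ≠ 0) (w₀ : F) :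
    E21 w₀ ∈ Λ := by
  have h1 := hAd w _ (E12_mem h2 Λ hAd hβ hne (-w₀))
  rw [E12, Ad_w] at h1
  convert h1 using 1
  ext i j
  fin_cases i <;> fin_cases j <;> simp [E21]

end Ad

section Comm

variable {R : Type*} [CommRing R]

lemma val_mul (a b : SL(2, R)) : (a * b).1 = a.1 * b.1 := rfl

lemma val_mul_inv (a : SL(2, R)) : a.1 * (a⁻¹).1 = 1 := by
  have : (a * a⁻¹).1 = (1 : SL(2, R)).1 := congrArg Subtype.val (mul_inv_cancel a)
  exact this

lemma val_inv_mul (a : SL(2, R)) : (a⁻¹).1 * a.1 = 1 := by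
  have : (a⁻¹ * a).1 = (1 : SL(2, R)).1 := congrArg Subtype.val (inv_mul_cancel a)
  exact this

lemma comm_val (a b : SL(2, R)) :
    (a * b * a⁻¹ * b⁻¹).1 = 1 + (a.1 * b.1 - b.1 * a.1) * (a⁻¹).1 * (b⁻¹).1 := by
  have h1 : b.1 * a.1 * (a⁻¹).1 * (b⁻¹).1 = 1 := by
    rw [mul_assoc b.1, val_mul_inv, mul_one, val_mul_inv]
  rw [sub_mul, sub_mul, h1]
  simp only [val_mul]
  abel

end Comm

section Lam

variable {k : Type*} [Field k] (f : k[X])

/-- Reduction of matrices. -/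
noncomputable abbrev redu : Matrix (Fin 2) (Fin 2) k[X] →+* Matrix (Fin 2) (Fin 2) (AdjoinRoot f) :=
  (AdjoinRoot.mk f).mapMatrix

variable {f}

lemma redu_smul_of_dvd {F : k[X]} (hF : f ∣ F) (β : Matrix (Fin 2) (Fin 2) k[X]) : redu f (F • β) = 0 := by
  ext i j
  simp only [RingHom.mapMatrix_apply, Matrix.map_apply, Matrix.smul_apply, smul_eq_mul, map_mul,
    Matrix.zero_apply]
  rw [AdjoinRoot.mk_eq_zero.2 hF, zero_mul]

lemma redu_val (h : SL(2, k[X])) : redu f h.1 = (ev f h).1 := rfl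

lemma ev_eq_one_of_val {F : k[X]} (hF : f ∣ F) {h : SL(2, k[X])} {β : Matrix (Fin 2) (Fin 2) k[X]}
    (he : h.1 = 1 + F • β) : ev f h = 1 := by
  apply Subtype.ext
  rw [← redu_val, he, map_add, map_one, redu_smul_of_dvd hF, add_zero]
  rfl

/-- The trace condition. -/
lemma trace_zero {F : k[X]} (hF0 : F ≠ 0) (hF : f ∣ F) {h : SL(2, k[X])}
    {β : Matrix (Fin 2) (Fin 2) k[X]} (he : h.1 = 1 + F • β) :
    AdjoinRoot.mk f (β 1 1) = -AdjoinRoot.mk f (β 0 0) := by
  have hdet := det_entries h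
  rw [he] at hdet
  simp only [Matrix.add_apply, Matrix.smul_apply, smul_eq_mul, Matrix.one_apply_eq,
    Matrix.one_apply_ne (by simp : (0 : Fin 2) ≠ 1), Matrix.one_apply_ne (by simp : (1 : Fin 2) ≠ 0)] at hdet
  have h1 : F * (β 0 0 + β 1 1 + F * (β 0 0 * β 1 1 - β 0 1 * β 1 0)) = 0 := by
    linear_combination hdet
  have h2 := (mul_eq_zero.1 h1).resolve_left hF0
  have h3 := congrArg (AdjoinRoot.mk f) h2
  rw [map_add, map_add, map_mul, AdjoinRoot.mk_eq_zero.2 hF, zero_mul, add_zero, map_zero] at h3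
  linear_combination h3

/-- The inverse of an element of level `F`. -/
lemma inv_val {F : k[X]} {h : SL(2, k[X])} {β : Matrix (Fin 2) (Fin 2) k[X]} (he : h.1 = 1 + F • β) :
    (h⁻¹).1 = 1 + F • !![β 1 1, -β 0 1; -β 1 0, β 0 0] := by
  refine Matrix.ext fun i j => ?_
  fin_cases i <;> fin_cases j
  · show (h⁻¹).1 0 0 = _
    rw [inv_00, he]
    simp
  · show (h⁻¹).1 0 1 = _
    rw [inv_01, he]
    simp
  · show (h⁻¹).1 1 0 = _
    rw [inv_10, he]
    simp
  · show (h⁻¹).1 1 1 = _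
    rw [inv_11, he]
    simp

variable (f)

/-- The additive group of the leading terms at level `j + 1`, inside `NN g`. -/
noncomputable def Lam (hf0 : f ≠ 0) (g : k[X]) (j : ℕ) : AddSubgroup (Matrix (Fin 2) (Fin 2) (AdjoinRoot f)) where
  carrier := {b | ∃ h ∈ NN g, ∃ β : Matrix (Fin 2) (Fin 2) k[X], h.1 = 1 + f ^ (j + 1) • β ∧ redu f β = b}
  add_mem' := by
    rintro _ _ ⟨h, hh, β, he, rfl⟩ ⟨h', hh', β', he', rfl⟩
    refine ⟨h * h', (NN g).mul_mem hh hh', β + β' + f ^ (j + 1) • (β * β'), ?_, ?_⟩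
    · rw [val_mul, he, he', add_mul, mul_add, mul_add, one_mul, mul_one,
        smul_mul_smul_comm, smul_add, smul_add, smul_smul, one_mul]
      abel
    · rw [map_add, map_add, redu_smul_of_dvd (dvd_pow_self f (Nat.succ_ne_zero j)), add_zero]
  zero_mem' := ⟨1, (NN g).one_mem, 0, by simp, by simp⟩
  neg_mem' := by
    rintro _ ⟨h, hh, β, he, rfl⟩
    refine ⟨h⁻¹, (NN g).inv_mem hh, _, inv_val he, ?_⟩
    have hF0 : f ^ (j + 1) ≠ 0 := pow_ne_zero _ hf0
    have htr := trace_zero hF0 (dvd_pow_self f (Nat.succ_ne_zero j)) he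
    ext i j
    fin_cases i <;> fin_cases j
    · simpa using htr
    · simp
    · simp
    · simp [htr]

variable {f}

lemma mem_Lam {hf0 : f ≠ 0} {g : k[X]} {j : ℕ} {b : Matrix (Fin 2) (Fin 2) (AdjoinRoot f)} :
    b ∈ Lam f hf0 g j ↔ ∃ h ∈ NN g, ∃ β : Matrix (Fin 2) (Fin 2) k[X], h.1 = 1 + f ^ (j + 1) • β ∧ redu f β = b :=
  Iff.rfl

/-- The shape of the elements of `Lam`. -/
lemma Lam_shape {hf0 : f ≠ 0} {g : k[X]} {j : ℕ} {b : Matrix (Fin 2) (Fin 2) (AdjoinRoot f)}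
    (hb : b ∈ Lam f hf0 g j) : b = !![b 0 0, b 0 1; b 1 0, -b 0 0] := by
  obtain ⟨h, _, β, he, rfl⟩ := hb
  have hF0 : f ^ (j + 1) ≠ 0 := pow_ne_zero _ hf0
  have htr := trace_zero hF0 (dvd_pow_self f (Nat.succ_ne_zero j)) he
  ext i j
  fin_cases i <;> fin_cases j
  · simp
  · simp
  · simp
  · simpa using htr

variable [hf : Fact (Irreducible f)]

/-- Invariance. -/
lemma Lam_Ad (h2 : (2 : k) ≠ 0) (h3 : Nat.card k ≠ 3) (hX : ¬ X ∣ f) {hf0 : f ≠ 0} {g : k[X]} {j : ℕ}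
    (A : SL(2, AdjoinRoot f)) {b : Matrix (Fin 2) (Fin 2) (AdjoinRoot f)} (hb : b ∈ Lam f hf0 g j) :
    Ad A b ∈ Lam f hf0 g j := by
  obtain ⟨a, ha, rfl⟩ := ev_surj h2 h3 hX A
  obtain ⟨h, hh, β, he, rfl⟩ := hb
  refine ⟨a * h * a⁻¹, NN_conj hh ha, a.1 * β * (a⁻¹).1, ?_, ?_⟩
  · rw [val_mul, val_mul, he, mul_add, add_mul, mul_one, val_mul_inv, mul_smul_comm, smul_mul_assoc]
  · rw [map_mul, map_mul, redu_val, redu_val, Ad, map_inv]

/-- Everything is there as soon as something non-zero is. -/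
theorem Lam_E12 (h2 : (2 : k) ≠ 0) (h3 : Nat.card k ≠ 3) (hX : ¬ X ∣ f) {hf0 : f ≠ 0} {g : k[X]} {j : ℕ}
    {b : Matrix (Fin 2) (Fin 2) (AdjoinRoot f)} (hb : b ∈ Lam f hf0 g j) (hne : b ≠ 0) (w : AdjoinRoot f) :
    E12 w ∈ Lam f hf0 g j ∧ E21 w ∈ Lam f hf0 g j := by
  have hs := Lam_shape hb
  rw [hs] at hb hne
  exact ⟨E12_mem (two_ne_zero' h2) _ (fun A _ hβ => Lam_Ad h2 h3 hX A hβ) hb hne w,
    E21_mem (two_ne_zero' h2) _ (fun A _ hβ => Lam_Ad h2 h3 hX A hβ) hb hne w⟩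

/-- Raising the level. -/
lemma Lam_comm {hf0 : f ≠ 0} {g : k[X]} {j : ℕ} {b c : Matrix (Fin 2) (Fin 2) (AdjoinRoot f)}
    (hb : b ∈ Lam f hf0 g j) (hc : c ∈ Lam f hf0 1 0) : b * c - c * b ∈ Lam f hf0 g (j + 1) := by
  obtain ⟨a, ha, β, he, rfl⟩ := hb
  obtain ⟨d, hd, γ, he', rfl⟩ := hc
  have hdG := (mem_NN.1 hd).2
  refine ⟨a * d * a⁻¹ * d⁻¹, ?_, (β * γ - γ * β) * (a⁻¹).1 * (d⁻¹).1, ?_, ?_⟩
  · have : a * d * a⁻¹ * d⁻¹ = a * (d * a⁻¹ * d⁻¹) := by group
    rw [this]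
    exact (NN g).mul_mem ha (NN_conj ((NN g).inv_mem ha) hdG)
  · rw [comm_val]
    have hD : a.1 * d.1 - d.1 * a.1 = f ^ (j + 1 + 1) • (β * γ - γ * β) := by
      rw [he, he']
      simp only [add_mul, mul_add, one_mul, mul_one, smul_mul_smul_comm]
      rw [show f ^ (j + 1 + 1) = f ^ (j + 1) * f ^ (0 + 1) by ring, mul_comm (f ^ (0 + 1)), smul_sub]
      abel
    rw [hD, smul_mul_assoc, smul_mul_assoc]
  · rw [map_mul, map_mul, map_sub, map_mul, map_mul]
    have e1 : ev f a = 1 := ev_eq_one_of_val (dvd_pow_self f (Nat.succ_ne_zero j)) he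
    have e2 : ev f d = 1 := ev_eq_one_of_val (dvd_pow_self f (Nat.succ_ne_zero 0)) he'
    rw [redu_val, redu_val, map_inv, map_inv, e1, e2]
    simp

/-- Commutators with the elementary matrices detect non-zero trace zero matrices. -/
lemma exists_comm_ne {F : Type*} [Field F] (h2 : (2 : F) ≠ 0) {b : Matrix (Fin 2) (Fin 2) F}
    (hs : b = !![b 0 0, b 0 1; b 1 0, -b 0 0]) (hne : b ≠ 0) :
    b * E12 1 - E12 1 * b ≠ 0 ∨ b * E21 1 - E21 1 * b ≠ 0 := by
  by_contra hcon
  push Not at hcon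
  obtain ⟨h1, h3⟩ := hcon
  have e1 := congrFun (congrFun h1 0) 1
  have e2 := congrFun (congrFun h1 1) 1
  have e3 := congrFun (congrFun h3 0) 0
  rw [hs] at e1 e2 e3
  simp [E12, E21] at e1 e2 e3
  apply hne
  have e4 : b 0 0 = 0 := by
    have : (2 : F) * b 0 0 = 0 := by linear_combination e1
    exact (mul_eq_zero.1 this).resolve_left h2
  rw [hs, e4]
  have e5 : b 1 0 = 0 := e2
  have e6 : b 0 1 = 0 := e3
  rw [e5, e6]
  ext i j
  fin_cases i <;> fin_cases j <;> simp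

section Tower

/-- The polynomial identity: a finite order element whose trace generates a nilpotent thickening
can not exist. -/
theorem no_tower (hf0 : ¬ IsUnit f) (hf00 : f ≠ 0) {n : ℕ} (hn : (n : k) ≠ 0)
    (u₀ : SL(2, AdjoinRoot (f ^ 2))) (hpow : u₀ ^ n = 1) {c : k} (hc : c ≠ 0)
    (htr : tr u₀ = 2 + algebraMap k _ c * AdjoinRoot.root (f ^ 2)) : False := by
  classical
  have hn0 : n ≠ 0 := by
    rintro rfl
    simp at hn
  have hf2 : f ^ 2 ≠ 0 := pow_ne_zero _ hf00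
  set R := AdjoinRoot (f ^ 2) with hR
  haveI : Module.Finite k R := (AdjoinRoot.powerBasis hf2).finite
  set A := Matrix (Fin 2) (Fin 2) R with hA
  let s : A := u₀.1
  have hint : IsIntegral k s := IsIntegral.of_finite k s
  -- the element `s` has order dividing `n`
  have hsn : s ^ n = 1 := by
    have : (u₀ ^ n).1 = (1 : SL(2, R)).1 := by rw [hpow]
    simpa [Matrix.SpecialLinearGroup.coe_pow] using this
  have hinv : s ^ (n - 1) = (u₀⁻¹).1 := by
    have h1 : u₀ ^ (n - 1) = u₀⁻¹ := by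
      rw [eq_inv_iff_mul_eq_one, ← pow_succ, Nat.sub_add_cancel (Nat.pos_of_ne_zero hn0), hpow]
    rw [← h1]
    simp [s, Matrix.SpecialLinearGroup.coe_pow]
  have htrace : s + s ^ (n - 1) = algebraMap R A (tr u₀) := by
    rw [hinv]
    ext i j
    fin_cases i <;> fin_cases j
    · show u₀.1 0 0 + (u₀⁻¹).1 0 0 = (algebraMap R A (tr u₀)) 0 0
      rw [inv_00, Matrix.algebraMap_matrix_apply]
      simp [tr_def]
    · show u₀.1 0 1 + (u₀⁻¹).1 0 1 = (algebraMap R A (tr u₀)) 0 1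
      rw [inv_01, Matrix.algebraMap_matrix_apply]
      simp
    · show u₀.1 1 0 + (u₀⁻¹).1 1 0 = (algebraMap R A (tr u₀)) 1 0
      rw [inv_10, Matrix.algebraMap_matrix_apply]
      simp
    · show u₀.1 1 1 + (u₀⁻¹).1 1 1 = (algebraMap R A (tr u₀)) 1 1
      rw [inv_11, Matrix.algebraMap_matrix_apply]
      simp [tr_def]
      ring
  -- the polynomial giving the root
  let Q : k[X] := C c⁻¹ * (X + X ^ (n - 1) - 2)
  have hQ : aeval s Q = algebraMap R A (AdjoinRoot.root (f ^ 2)) := by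
    have e1 : aeval s (X + X ^ (n - 1) - 2 : k[X]) = algebraMap R A (tr u₀) - 2 := by
      simp only [map_sub, map_add, map_pow, aeval_X, htrace, map_ofNat]
    simp only [Q, map_mul, aeval_C, e1, htr]
    have e2 : (algebraMap k A) c⁻¹ * (algebraMap R A (2 + algebraMap k R c * AdjoinRoot.root (f ^ 2)) - 2) =
        algebraMap k A (c⁻¹ * c) * algebraMap R A (AdjoinRoot.root (f ^ 2)) := by
      rw [map_add, map_mul, map_ofNat, ← IsScalarTower.algebraMap_apply k R A, add_sub_cancel_left,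
        ← mul_assoc, ← map_mul]
    rw [e2, inv_mul_cancel₀ hc, map_one, one_mul]
  let P : k[X] := f.comp Q
  set v : R := AdjoinRoot.mk (f ^ 2) f with hv
  have hP : aeval s P = algebraMap R A v := by
    simp only [P]
    rw [aeval_comp, hQ, aeval_algebraMap_apply, AdjoinRoot.aeval_eq]
  have hv0 : v ≠ 0 := by
    intro h
    rw [hv, AdjoinRoot.mk_eq_zero] at h
    obtain ⟨w, hw⟩ := h
    have h1 : f * (1 - f * w) = 0 := by linear_combination hw
    have h2 := (mul_eq_zero.1 h1).resolve_left hf00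
    exact hf0 (IsUnit.of_mul_eq_one w (by linear_combination -h2))
  have hvv : v ^ 2 = 0 := by
    rw [hv, ← map_pow, AdjoinRoot.mk_self]
  have hP2 : aeval s (P ^ 2) = 0 := by
    rw [map_pow, hP, ← map_pow, hvv, map_zero]
  have h1 : minpoly k s ∣ P ^ 2 := minpoly.dvd k s hP2
  have h2 : minpoly k s ∣ X ^ n - C 1 := minpoly.dvd k s (by simp [hsn])
  have hsq : Squarefree (minpoly k s) :=
    ((separable_X_pow_sub_C (1 : k) hn one_ne_zero).squarefree).squarefree_of_dvd h2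
  have h3 : minpoly k s ∣ P := (hsq.dvd_pow_iff_dvd two_ne_zero).1 h1
  have h4 : aeval s P = 0 := by
    obtain ⟨w, hw⟩ := h3
    rw [hw, map_mul, minpoly.aeval, zero_mul]
  rw [hP] at h4
  apply hv0
  have h5 : (algebraMap R A v) 0 0 = 0 := congrFun (congrFun h4 0) 0
  rw [Matrix.algebraMap_matrix_apply] at h5
  simpa using h5

end Tower

section Finite

variable [Finite k]

/-- The element of order prime to `p`. -/
lemma not_dvd_orderOf {p : ℕ} [hp : Fact p.Prime] [CharP k p] (h2 : (2 : k) ≠ 0) {F : Type*} [Field F] [Finite F]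
    [CharP F p] (h2F : (2 : F) ≠ 0) {u : SL(2, F)} (h1 : Cfsg.Agent.Lib.PSL2.Members.disc u ≠ 0) :
    ¬ p ∣ orderOf u := by
  classical
  intro hdvd
  obtain ⟨n, hn⟩ := hdvd
  have hord := orderOf_pos u
  set v := u ^ n with hv
  have hv1 : v ^ p = 1 := by
    rw [hv, ← pow_mul, mul_comm, ← hn, pow_orderOf_eq_one]
  have hvne : v ≠ 1 := by
    intro h
    have h3 := orderOf_dvd_of_pow_eq_one h
    have hnpos : 0 < n := by
      rcases Nat.eq_zero_or_pos n with rfl | h0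
      · rw [Nat.mul_zero] at hn; omega
      · exact h0
    have h4 := Nat.le_of_dvd hnpos h3
    have h5 : n < p * n := by
      have := hp.out.two_le
      nlinarith
    omega
  have hp2 : p ≠ 2 := by
    rintro rfl
    exact h2 (by exact_mod_cast CharP.cast_eq_zero k 2)
  have hvm : v ≠ -1 := by
    intro h
    rw [h] at hv1
    have hodd : Odd p := hp.out.odd_of_ne_two hp2
    rw [hodd.neg_pow, one_pow] at hv1
    exact neg_one_ne_one_of_two_ne_zero h2F hv1
  have htr : tr v = 2 := by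
    apply Cfsg.Agent.Lib.PSL2.Unipotent.tr_eq_two_of_pow_prime_pow p v 1
    rwa [pow_one]
  have hd : Cfsg.Agent.Lib.PSL2.Members.disc v = 0 := by
    simp [Cfsg.Agent.Lib.PSL2.Members.disc, htr]
    norm_num
  have hncu : Cfsg.Agent.Lib.PSL2.Members.NC u := by
    constructor
    · rintro rfl
      apply h1
      simp [Cfsg.Agent.Lib.PSL2.Members.disc, tr_def]
      norm_num
    · rintro rfl
      apply h1
      simp [Cfsg.Agent.Lib.PSL2.Members.disc, tr_def]
      norm_num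
  have hc : v * u = u * v := by
    rw [hv, ← pow_succ, ← pow_succ']
  exact h1 ((Cfsg.Agent.Lib.PSL2.Members.disc_eq_zero_iff ⟨hvne, hvm⟩ hncu hc).2 hd)

/-- **Existence of level one elements.** -/
theorem exists_level_one (h2 : (2 : k) ≠ 0) (hX : ¬ X ∣ f) (hf0 : f ≠ 0) :
    ∃ b ∈ Lam f hf0 1 0, b ≠ 0 := by
  classical
  by_contra hcon
  push Not at hcon
  have hF : ¬ IsUnit f := hf.out.not_isUnit
  -- the elements `1` modulo `f` are `1` modulo `f²`
  have hkey : ∀ h ∈ Gam k, ev f h = 1 → ev (f ^ 2) h = 1 := by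
    intro h hh he
    obtain ⟨⟨a, ha⟩, ⟨b, hb⟩, ⟨c, hc⟩, ⟨d, hd⟩⟩ := ev_eq_one_iff.1 he
    have hval : h.1 = 1 + f ^ (0 + 1) • !![a, b; c, d] := by
      refine Matrix.ext fun i j => ?_
      fin_cases i <;> fin_cases j
      · show h.1 0 0 = (1 : Matrix (Fin 2) (Fin 2) k[X]) 0 0 + f ^ (0 + 1) * a
        rw [Matrix.one_apply_eq]
        linear_combination ha
      · show h.1 0 1 = (1 : Matrix (Fin 2) (Fin 2) k[X]) 0 1 + f ^ (0 + 1) * b
        rw [Matrix.one_apply_ne (by simp : (0 : Fin 2) ≠ 1), hb, zero_add]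
        ring
      · show h.1 1 0 = (1 : Matrix (Fin 2) (Fin 2) k[X]) 1 0 + f ^ (0 + 1) * c
        rw [Matrix.one_apply_ne (by simp : (1 : Fin 2) ≠ 0), hc, zero_add]
        ring
      · show h.1 1 1 = (1 : Matrix (Fin 2) (Fin 2) k[X]) 1 1 + f ^ (0 + 1) * d
        rw [Matrix.one_apply_eq]
        linear_combination hd
    have h0 := hcon _ ⟨h, mem_NN.2 ⟨ev_eq_one_iff.2 (by simp), hh⟩, _, hval, rfl⟩
    have hzero : ∀ w : Matrix (Fin 2) (Fin 2) k[X], redu f w = 0 → ∀ i j, f ∣ w i j := by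
      intro w hw i j
      have := congrFun (congrFun hw i) j
      exact AdjoinRoot.mk_eq_zero.1 this
    have e1 := hzero _ h0 0 0
    have e2 := hzero _ h0 0 1
    have e3 := hzero _ h0 1 0
    have e4 := hzero _ h0 1 1
    simp only [Matrix.of_apply, Matrix.cons_val', Matrix.cons_val_zero, Matrix.cons_val_one,
      Matrix.cons_val_fin_one] at e1 e2 e3 e4
    rw [ev_eq_one_iff]
    obtain ⟨a', rfl⟩ := e1
    obtain ⟨b', rfl⟩ := e2
    obtain ⟨c', rfl⟩ := e3
    obtain ⟨d', rfl⟩ := e4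
    exact ⟨⟨a', by rw [ha]; ring⟩, ⟨b', by rw [hb]; ring⟩, ⟨c', by rw [hc]; ring⟩,
      ⟨d', by rw [hd]; ring⟩⟩
  -- the characteristic
  haveI : Fintype k := Fintype.ofFinite k
  obtain ⟨p, hchar⟩ := CharP.exists k
  haveI := hchar
  have hpp : p.Prime := by
    rcases CharP.char_is_prime_or_zero k p with h | h
    · exact h
    · subst h
      exact absurd (ringChar.eq k 0) (CharP.ringChar_ne_zero_of_finite k)
  haveI : Fact p.Prime := ⟨hpp⟩
  have h2' := two_ne_zero' (f := f) h2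
  haveI : CharP (AdjoinRoot f) p := charP_of_injective_algebraMap (algebraMap k (AdjoinRoot f)).injective p
  -- choice of `c`
  obtain ⟨c, hc0, hc⟩ : ∃ c : k, c ≠ 0 ∧ algebraMap k (AdjoinRoot f) c * AdjoinRoot.root f + 4 ≠ 0 := by
    by_cases h : AdjoinRoot.root f + 4 = 0
    · refine ⟨-1, neg_ne_zero.2 one_ne_zero, ?_⟩
      intro h1
      have h3 : (2 * 2 * 2 : AdjoinRoot f) = 0 := by
        simp only [map_neg, map_one] at h1
        linear_combination h1 + h
      rcases mul_eq_zero.1 h3 with h5 | h5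
      · rcases mul_eq_zero.1 h5 with h6 | h6 <;> exact h2' h6
      · exact h2' h5
    · exact ⟨1, one_ne_zero, by simpa using h⟩
  let u : SL(2, k[X]) := x (C 1) * y (C c * X)
  have huG : u ∈ Gam k := (Gam k).mul_mem (x_mem 1) (y_mem c)
  have htru : tr (ev f u) = 2 + algebraMap k _ c * AdjoinRoot.root f := by
    simp [u, tr_def, ev_entry]
    ring
  have hdisc : Cfsg.Agent.Lib.PSL2.Members.disc (ev f u) ≠ 0 := by
    rw [Cfsg.Agent.Lib.PSL2.Members.disc, htru]
    intro h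
    have h1 : (algebraMap k (AdjoinRoot f) c * AdjoinRoot.root f) *
        (algebraMap k (AdjoinRoot f) c * AdjoinRoot.root f + 4) = 0 := by
      linear_combination h
    rcases mul_eq_zero.1 h1 with h3 | h3
    · rcases mul_eq_zero.1 h3 with h4 | h4
      · exact hc0 (by simpa using h4)
      · exact root_ne_zero hX h4
    · exact hc h3
  have hnp := not_dvd_orderOf (p := p) h2 h2' hdisc
  set n := orderOf (ev f u) with hn
  have hnk : (n : k) ≠ 0 := by
    intro h
    exact hnp ((CharP.cast_eq_zero_iff k p n).1 h)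
  have hpow : ev (f ^ 2) u ^ n = 1 := by
    rw [← map_pow]
    apply hkey _ ((Gam k).pow_mem huG n)
    rw [map_pow, hn, pow_orderOf_eq_one]
  refine no_tower hF hf0 hnk _ hpow hc0 ?_
  simp [u, tr_def, ev_entry]
  ring

/-- Non-zero leading terms at all levels. -/
theorem Lam_ne (h2 : (2 : k) ≠ 0) (h3 : Nat.card k ≠ 3) (hX : ¬ X ∣ f) (hf0 : f ≠ 0) {g : k[X]}
    (hg : IsCoprime f g) (j : ℕ) : ∃ b ∈ Lam f hf0 g j, b ≠ 0 := by
  have h2' := two_ne_zero' (f := f) h2
  obtain ⟨b₀, hb₀, hne₀⟩ := exists_level_one h2 hX hf0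
  have hE := Lam_E12 h2 h3 hX hb₀ hne₀
  induction j with
  | zero =>
    obtain ⟨n', hn', h1, hm⟩ := sep h2 h3 hX g hg
    have htop := map_NN_eq_top h2 h3 hX g hn' h1 hm
    have hy1 : y 1 ∈ (NN g).map (ev f) := by rw [htop]; trivial
    obtain ⟨a, ha, ea⟩ := hy1
    obtain ⟨d, hd, γ, he', hγ⟩ := (hE 1).1
    have hdG := (mem_NN.1 hd).2
    refine ⟨(redu f a.1 * redu f γ - redu f γ * redu f a.1) * redu f (a⁻¹).1 * redu f (d⁻¹).1, ?_, ?_⟩
    · refine ⟨a * d * a⁻¹ * d⁻¹, ?_, (a.1 * γ - γ * a.1) * (a⁻¹).1 * (d⁻¹).1, ?_, ?_⟩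
      · have : a * d * a⁻¹ * d⁻¹ = a * (d * a⁻¹ * d⁻¹) := by group
        rw [this]
        exact (NN g).mul_mem ha (NN_conj ((NN g).inv_mem ha) hdG)
      · rw [comm_val]
        have hD : a.1 * d.1 - d.1 * a.1 = f ^ (0 + 1) • (a.1 * γ - γ * a.1) := by
          rw [he']
          simp only [add_mul, mul_add, one_mul, mul_one, smul_mul_assoc, mul_smul_comm, smul_sub]
          abel
        rw [hD, smul_mul_assoc, smul_mul_assoc]
      · simp only [map_mul, map_sub]
    · -- the value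
      have e2 : ev f d = 1 := ev_eq_one_of_val (dvd_pow_self f (Nat.succ_ne_zero 0)) he'
      rw [hγ, redu_val, redu_val, redu_val, map_inv, map_inv, ea, e2]
      intro h
      rw [y_inv, inv_one] at h
      have := congrFun (congrFun h 0) 0
      simp [E12, y, sl2, Matrix.mul_apply, Fin.sum_univ_two] at this
  | succ j ih =>
    obtain ⟨b, hb, hne⟩ := ih
    rcases exists_comm_ne h2' (Lam_shape hb) hne with h | h
    · exact ⟨_, Lam_comm hb (hE 1).1, h⟩
    · exact ⟨_, Lam_comm hb (hE 1).2, h⟩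

/-- **Theorem Q for finite fields.** -/
theorem exists_top_finite (h2 : (2 : k) ≠ 0) (h3 : Nat.card k ≠ 3) (hX : ¬ X ∣ f) (m₁ : k[X]) (hm₁ : m₁ ≠ 0) (c : k) :
    ∃ h ∈ Gam k, ev (X * (f * m₁)) h = ev (X * (f * m₁)) (x (C c * (X * m₁))) := by
  classical
  have hf0 : f ≠ 0 := hf.out.ne_zero
  have hfi := hf.out
  -- split off the powers of `f`
  obtain ⟨j, m', hfm', hm'⟩ := WfDvdMonoid.max_power_factor hm₁ hfi
  subst hm'
  have hXf : IsCoprime f X := (Irreducible.coprime_iff_not_dvd hfi).2 (fun h => hX (by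
    have := (hfi.associated_of_dvd irreducible_X h)
    exact this.symm.dvd))
  have hm'f : IsCoprime f m' := (Irreducible.coprime_iff_not_dvd hfi).2 hfm'
  have hg : IsCoprime f (X * m') := hXf.mul_right hm'f
  set g := X * m' with hgdef
  have hcop : IsCoprime (g) (f ^ (j + 1)) := (hg.symm).pow_right
  -- reduction to the statement on `g`, `f ^ (j + 1)`
  have hfinal : ∀ h : SL(2, k[X]), h ∈ NN g →
      (∀ a b, f ^ (j + 1) ∣ h.1 a b - (x (C c * (X * (f ^ j * m'))) : SL(2, k[X])).1 a b) →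
      ev (X * (f * (f ^ j * m'))) h = ev (X * (f * (f ^ j * m'))) (x (C c * (X * (f ^ j * m')))) := by
    intro h hh hdiv
    have e1 := ev_eq_one_iff.1 (mem_NN.1 hh).1
    have hmod : X * (f * (f ^ j * m')) = g * f ^ (j + 1) := by rw [hgdef]; ring
    have hgx : g ∣ C c * (X * (f ^ j * m')) := ⟨C c * f ^ j, by rw [hgdef]; ring⟩
    rw [hmod]
    apply ev_eq_of_dvd
    · refine hcop.mul_dvd ?_ (hdiv 0 0)
      simpa using e1.1
    · refine hcop.mul_dvd ?_ (hdiv 0 1)
      simpa using dvd_sub e1.2.1 hgx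
    · refine hcop.mul_dvd ?_ (hdiv 1 0)
      simpa using e1.2.2.1
    · refine hcop.mul_dvd ?_ (hdiv 1 1)
      simpa using e1.2.2.2
  rcases Nat.eq_zero_or_pos j with rfl | hj
  · -- no level
    obtain ⟨n', hn', h1, hm⟩ := sep h2 h3 hX g hg
    have htop := map_NN_eq_top h2 h3 hX g hn' h1 hm
    have hx1 : x (AdjoinRoot.mk f (C c * g)) ∈ (NN g).map (ev f) := by rw [htop]; trivial
    obtain ⟨h, hh, e⟩ := hx1
    refine ⟨h, (mem_NN.1 hh).2, hfinal h hh ?_⟩
    intro a b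
    have e2 := congrFun (congrFun (congrArg Subtype.val e) a) b
    have e3 : AdjoinRoot.mk f (h.1 a b) = AdjoinRoot.mk f ((x (C c * (X * (f ^ 0 * m'))) : SL(2, k[X])).1 a b) := by
      rw [← ev_entry, ← ev_entry, ev_x, pow_zero, one_mul]
      exact e2
    simpa using AdjoinRoot.mk_eq_mk.1 e3
  · -- at the top level
    obtain ⟨j', rfl⟩ : ∃ j', j = j' + 1 := ⟨j - 1, by omega⟩
    obtain ⟨b, hb, hne⟩ := Lam_ne h2 h3 hX hf0 hg j'
    obtain ⟨h, hh, β, he, hβ⟩ := (Lam_E12 h2 h3 hX hb hne (AdjoinRoot.mk f (C c * g))).1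
    refine ⟨h, (mem_NN.1 hh).2, hfinal h hh ?_⟩
    have hent : ∀ a b, (AdjoinRoot.mk f) (β a b) = (E12 (AdjoinRoot.mk f (C c * g))) a b := by
      intro a b
      rw [← hβ]
      rfl
    have hd : ∀ {a b : Fin 2} {w : k[X]}, AdjoinRoot.mk f (β a b) = AdjoinRoot.mk f w →
        f ^ (j' + 1 + 1) ∣ f ^ (j' + 1) * β a b - f ^ (j' + 1) * w := by
      intro a b w hw
      obtain ⟨q, hq⟩ := AdjoinRoot.mk_eq_mk.1 hw
      exact ⟨q, by rw [← mul_sub, hq]; ring⟩
    intro a b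
    have hv : h.1 a b = (1 : Matrix (Fin 2) (Fin 2) k[X]) a b + f ^ (j' + 1) * β a b := by
      rw [he]; rfl
    rw [hv]
    fin_cases a <;> fin_cases b
    · have := hd (a := 0) (b := 0) (w := 0) (by simpa [E12] using hent 0 0)
      simpa using this
    · have := hd (a := 0) (b := 1) (w := C c * g) (by simpa [E12] using hent 0 1)
      convert this using 1
      simp [hgdef]
      ring
    · have := hd (a := 1) (b := 0) (w := 0) (by simpa [E12] using hent 1 0)
      simpa using this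
    · have := hd (a := 1) (b := 1) (w := 0) (by simpa [E12] using hent 1 1)
      simpa using this

end Finite

end Lam

end Cfsg.Agent.Lib.Linalg.Quad.Level
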