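import Cfsg.Agent.Lib.Linalg.Quad.Pair
import Mathlib

/-!
# The non-unipotent type: special rank one groups
-/

set_option autoImplicit false

namespace Cfsg.Agent.Lib.Linalg.Quad.NType

open Polynomial
open Cfsg.Agent.Lib.Linalg.Quad.Dich Cfsg.Agent.Lib.Linalg.Quad.Psi Cfsg.Agent.Lib.Linalg.Quad.Root
  Cfsg.Agent.Lib.Linalg.Quad.Pair

variable {k : Type*} [Field k] {M : Type*} [AddCommGroup M] [Module k M]

section Weyl

variable {x y : M →ₗ[k] M} (h : Exact x y)

/-- The Weyl element. -/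
noncomputable def wU (h : Exact x y) : LinearMap.GeneralLinearGroup k M :=
  oa x h.xx 1 * (oa y h.yy 1)⁻¹ * oa x h.xx 1

include h

lemma wU_val : ((wU h : LinearMap.GeneralLinearGroup k M) : M →ₗ[k] M) = 1 - pi x y + x - y := by
  have hxx := h.xx
  have hxyx := h.xyx
  unfold wU
  rw [oa_inv]
  simp only [Units.val_mul, oa_val, one_smul, neg_smul]
  calc (1 + x) * (1 + -y) * (1 + x) = 1 + 2 • x - y - (x * y + y * x) + x * x - x * y * x := by noncomm_ring
    _ = _ := by rw [hxx, hxyx]; show _ = 1 - (x * y + y * x) + x - y; noncomm_ring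

lemma wU_mul_x : ((wU h : LinearMap.GeneralLinearGroup k M) : M →ₗ[k] M) * x = -y * (wU h : LinearMap.GeneralLinearGroup k M) := by
  rw [wU_val h]
  have e1 : (1 - pi x y + x - y) * x = x - pi x y * x + x * x - y * x := by noncomm_ring
  have e2 : -y * (1 - pi x y + x - y) = -y + y * pi x y - y * x + y * y := by noncomm_ring
  rw [e1, e2, pi_x h, y_pi h, h.xx, h.yy]
  abel

lemma wU_mul_y : ((wU h : LinearMap.GeneralLinearGroup k M) : M →ₗ[k] M) * y = -x * (wU h : LinearMap.GeneralLinearGroup k M) := by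
  rw [wU_val h]
  have e1 : (1 - pi x y + x - y) * y = y - pi x y * y + x * y - y * y := by noncomm_ring
  have e2 : -x * (1 - pi x y + x - y) = -x + x * pi x y - x * x + x * y := by noncomm_ring
  rw [e1, e2, pi_y h, x_pi h, h.xx, h.yy]
  abel

omit h in
lemma cj_eq_of_mul {g : LinearMap.GeneralLinearGroup k M} {z z' : M →ₗ[k] M} (e : (g : M →ₗ[k] M) * z = z' * g) :
    cj g z = z' := by
  have h1 : (g : M →ₗ[k] M) * ((g⁻¹ : LinearMap.GeneralLinearGroup k M) : M →ₗ[k] M) = 1 := by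
    rw [← Units.val_mul]; simp
  rw [cj, e, mul_assoc, h1, mul_one]

lemma cj_wU_x : cj (wU h) x = -y := cj_eq_of_mul (wU_mul_x h)

lemma cj_wU_y : cj (wU h) y = -x := cj_eq_of_mul (wU_mul_y h)

lemma pi_mul_self : (wU h * wU h : LinearMap.GeneralLinearGroup k M).val = 1 - (2 : k) • pi x y := by
  rw [Units.val_mul, wU_val h]
  have e : (1 - pi x y + x - y) * (1 - pi x y + x - y) =
      1 - (pi x y + pi x y) + (pi x y * pi x y) + x + x - y - y - (x * pi x y + pi x y * x) + (y * pi x y + pi x y * y)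
        + x * x + y * y - (x * y + y * x) := by noncomm_ring
  rw [e, pi_idem h, pi_x h, x_pi h, pi_y h, y_pi h, h.xx, h.yy, two_smul]
  have e3 : x * y + y * x = pi x y := rfl
  rw [e3]
  abel

end Weyl


variable [FiniteDimensional k M] {G : Subgroup (LinearMap.GeneralLinearGroup k M)}
  {σ τ : LinearMap.GeneralLinearGroup k M} {x y : M →ₗ[k] M}

omit [FiniteDimensional k M] in
lemma same_neg (z : M →ₗ[k] M) : Same z (-z) := ⟨LinearMap.ker_neg z, LinearMap.range_neg z⟩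

omit [FiniteDimensional k M] in
lemma minLog_neg {z : M →ₗ[k] M} (hz : MinLog G z) : MinLog G (-z) := by
  have := (minLog_smul hz (c := -1) (neg_ne_zero.2 one_ne_zero)).1
  simpa using this

lemma E_eq_of_class {ρ : LinearMap.GeneralLinearGroup k M} (hρ : ρ ∈ Cfsg.sameActionClass G τ) :
    Cfsg.sameActionSubgroup G ρ = Cfsg.sameActionSubgroup G τ := by
  have : Cfsg.sameActionClass G ρ = Cfsg.sameActionClass G τ := by
    ext g
    constructor
    · rintro ⟨h1, h2, h3⟩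
      exact ⟨h1, h2.trans hρ.2.1, h3.trans hρ.2.2⟩
    · rintro ⟨h1, h2, h3⟩
      exact ⟨h1, h2.trans hρ.2.1.symm, h3.trans hρ.2.2.symm⟩
  unfold Cfsg.sameActionSubgroup
  rw [this]

lemma class_of_mem (hσ : σ ∈ Cfsg.minimalQuadraticElements G) {a : LinearMap.GeneralLinearGroup k M}
    (ha : a ∈ Cfsg.sameActionSubgroup G σ) (ha1 : a ≠ 1) : a ∈ Cfsg.sameActionClass G σ := by
  rcases (mem_E_iff hσ).1 ha with h0 | ⟨h1, h2⟩
  · exact absurd (NN_eq_zero h0) ha1
  · exact (mem_class_iff hσ).2 ⟨h1, h2⟩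

lemma E_le_G : Cfsg.sameActionSubgroup G σ ≤ G := by
  unfold Cfsg.sameActionSubgroup
  rw [Subgroup.closure_le]
  intro g hg
  exact hg.1.1.1

/-- The one-sided rank one condition. -/
theorem cond (h2 : (2 : k) ≠ 0) (h3 : Nat.card k ≠ 3) (hσ : σ ∈ Cfsg.minimalQuadraticElements G)
    (hτ : τ ∈ Cfsg.minimalQuadraticElements G) (hN : NTy (NN σ) (NN τ)) :
    Cfsg.RankOneCondition (Cfsg.sameActionSubgroup G σ) (Cfsg.sameActionSubgroup G τ) := by
  intro a ha ha1
  have hc := class_of_mem hσ ha ha1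
  obtain ⟨hx₁, hs₁⟩ := (mem_class_iff hσ).1 hc
  have hy := minLog_of_mem hτ
  obtain ⟨y', hy', hs', hex⟩ := exists_exact h2 h3 hx₁ hy (hN.congr hs₁ (Same.refl _))
  let b := oa y' hex.yy 1
  have hb : b ∈ Cfsg.sameActionSubgroup G τ := oa_mem_E hτ (LL_mem_of_same hy hy' hs') hex.yy 1
  have hb1 : b ≠ 1 := by
    intro h0
    apply hy'.ne
    have := congrArg Units.val h0
    simpa [b] using this
  refine ⟨b, hb, hb1, (conj_iff ha).1 ?_⟩
  have haG : a ∈ G := E_le_G ha
  have hbG : b ∈ G := E_le_G hb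
  have hex' : Exact (NN a) y' := hex
  have ew : a * b⁻¹ * a = wU hex' := by
    have e : oa (NN a) hex'.xx 1 = a := (eq_oa a _).symm
    unfold wU
    rw [e]
  have hwG : wU hex' ∈ G := by
    rw [← ew]
    exact G.mul_mem (G.mul_mem haG (G.inv_mem hbG)) haG
  rw [ew, ← E_eq_of_class hc, conjBy_E hc.1 hwG]
  apply E_eq_of_class
  refine (mem_class_iff hτ).2 ?_
  have e := NN_conj (wU hex') a
  simp only [NN] at e ⊢
  rw [e]
  have e2 : cj (wU hex') (NN a) = - y' := cj_wU_x hex'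
  simp only [NN] at e2
  rw [e2]
  exact ⟨minLog_neg hy', hs'.trans (same_neg y')⟩

/-- The root groups are abelian. -/
lemma E_comm (hσ : σ ∈ Cfsg.minimalQuadraticElements G) {a b : LinearMap.GeneralLinearGroup k M}
    (ha : a ∈ Cfsg.sameActionSubgroup G σ) (hb : b ∈ Cfsg.sameActionSubgroup G σ) : a * b = b * a := by
  have ha' := (mem_E_iff hσ).1 ha
  have hb' := (mem_E_iff hσ).1 hb
  have e1 := LL_mul (minLog_of_mem hσ) ha' hb'
  have e2 := LL_mul (minLog_of_mem hσ) hb' ha'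
  apply Units.ext
  rw [Units.val_mul, Units.val_mul, val_eq_one_add a, val_eq_one_add b]
  have e3 : ∀ u v : M →ₗ[k] M, (1 + u) * (1 + v) = 1 + u + v + u * v := by intro u v; noncomm_ring
  rw [e3, e3]
  simp only [NN] at e1 e2 ⊢
  rw [e1, e2]
  abel

lemma E_nil (hσ : σ ∈ Cfsg.minimalQuadraticElements G) : Group.IsNilpotent (Cfsg.sameActionSubgroup G σ) := by
  letI : CommGroup (Cfsg.sameActionSubgroup G σ) :=
    { (inferInstance : Group (Cfsg.sameActionSubgroup G σ)) with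
      mul_comm := fun a b => Subtype.ext (E_comm hσ a.2 b.2) }
  infer_instance

lemma E_ne (hσ : σ ∈ Cfsg.minimalQuadraticElements G) (hτ : τ ∈ Cfsg.minimalQuadraticElements G)
    (hN : NTy (NN σ) (NN τ)) : Cfsg.sameActionSubgroup G σ ≠ Cfsg.sameActionSubgroup G τ := by
  intro he
  have hx := minLog_of_mem hσ
  have hy := minLog_of_mem hτ
  have h1 : σ ∈ Cfsg.sameActionSubgroup G σ := Subgroup.subset_closure ⟨hσ, rfl, rfl⟩
  rw [he] at h1
  have h3 := (mem_E_iff hτ).1 h1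
  have h4 := LL_range_le hy h3
  apply hx.ne
  ext v
  exact hN.inter hx.sq ⟨v, rfl⟩ (h4 ⟨v, rfl⟩)

omit [FiniteDimensional k M] in
lemma exact_of_range (hN : NTy x y) (hxx : x * x = 0) (hyy : y * y = 0)
    (h : ∀ v ∈ LinearMap.range x, ((1 + x) * (1 - y) * (1 + x)) v ∈ LinearMap.range y) : Exact x y := by
  have key : ∀ u : M, x (y (x u)) = x u := by
    intro u
    have hxu : x (x u) = 0 := congrArg (fun f : M →ₗ[k] M => f u) hxx
    have h1 := h (x u) ⟨u, rfl⟩
    have e : ((1 + x) * (1 - y) * (1 + x)) (x u) = x u - y (x u) - x (y (x u)) := by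
      simp only [Module.End.mul_apply, LinearMap.add_apply, LinearMap.sub_apply, Module.End.one_apply, hxu,
        add_zero, map_sub]
      abel
    rw [e] at h1
    have h2 : x u - x (y (x u)) ∈ LinearMap.range y := by
      have : x u - x (y (x u)) = (x u - y (x u) - x (y (x u))) + y (x u) := by abel
      rw [this]
      exact Submodule.add_mem _ h1 ⟨_, rfl⟩
    have h3 : x u - x (y (x u)) ∈ LinearMap.range x :=
      Submodule.sub_mem _ ⟨u, rfl⟩ ⟨_, rfl⟩
    exact (sub_eq_zero.1 (hN.inter hxx h3 h2)).symm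
  have hxyx : x * y * x = x := by
    ext u
    exact key u
  refine ⟨hxx, hyy, hxyx, ?_⟩
  ext u
  show y (x (y u)) = y u
  have h1 : y (x (y u)) - y u ∈ LinearMap.range y := Submodule.sub_mem _ ⟨_, rfl⟩ ⟨_, rfl⟩
  refine sub_eq_zero.1 (hN.inj_y _ h1 ?_)
  rw [map_sub, sub_eq_zero]
  exact key (y u)

omit [FiniteDimensional k M] in
lemma special_identity (h : Exact x y) {a b : LinearMap.GeneralLinearGroup k M} (ha : (a : M →ₗ[k] M) = 1 + x)
    (hb : (b : M →ₗ[k] M) = 1 + y) (hai : ((a⁻¹ : LinearMap.GeneralLinearGroup k M) : M →ₗ[k] M) = 1 - x)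
    (hbi : ((b⁻¹ : LinearMap.GeneralLinearGroup k M) : M →ₗ[k] M) = 1 - y) :
    b⁻¹ * a * b = a⁻¹ * b⁻¹ * a := by
  apply Units.ext
  rw [Units.val_mul, Units.val_mul, Units.val_mul, Units.val_mul, ha, hb, hai, hbi]
  have e1 : (1 - y) * (1 + x) * (1 + y) = 1 + x - y * x + x * y - y * y - y * x * y := by noncomm_ring
  have e2 : (1 - x) * (1 - y) * (1 + x) = 1 - y + x * y - y * x - x * x + x * y * x := by noncomm_ring
  rw [e1, e2, h.xx, h.yy, h.xyx, h.yxy]
  abel

omit [FiniteDimensional k M] in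
lemma cj_mul_self (g : LinearMap.GeneralLinearGroup k M) (z : M →ₗ[k] M) : cj g z * (g : M →ₗ[k] M) = g * z := by
  have h' : ((g⁻¹ : LinearMap.GeneralLinearGroup k M) : M →ₗ[k] M) * (g : M →ₗ[k] M) = 1 := by
    rw [← Units.val_mul]; simp
  rw [cj, mul_assoc, h', mul_one]

/-- The special identity. -/
theorem special (hσ : σ ∈ Cfsg.minimalQuadraticElements G) (hτ : τ ∈ Cfsg.minimalQuadraticElements G)
    (hN : NTy (NN σ) (NN τ)) {a b : LinearMap.GeneralLinearGroup k M}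
    (ha : a ∈ Cfsg.sameActionSubgroup G σ) (ha1 : a ≠ 1)
    (hb : b ∈ Cfsg.sameActionSubgroup G τ) (hb1 : b ≠ 1)
    (hc : Cfsg.conjBy (Cfsg.sameActionSubgroup G σ) b⁻¹ = Cfsg.conjBy (Cfsg.sameActionSubgroup G τ) a⁻¹) :
    b⁻¹ * a * b = a⁻¹ * b⁻¹ * a := by
  have hca := class_of_mem hσ ha ha1
  have hcb := class_of_mem hτ hb hb1
  obtain ⟨hx₁, hs₁⟩ := (mem_class_iff hσ).1 hca
  obtain ⟨hy₁, hs₂⟩ := (mem_class_iff hτ).1 hcb
  have hN₁ : NTy (NN a) (NN b) := hN.congr hs₁ hs₂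
  obtain ⟨x₁, hx₁d⟩ : ∃ x₁, x₁ = NN a := ⟨_, rfl⟩
  obtain ⟨y₁, hy₁d⟩ : ∃ y₁, y₁ = NN b := ⟨_, rfl⟩
  have hconj := (conj_iff ha).2 hc
  have hw : a * b⁻¹ * a ∈ G := G.mul_mem (G.mul_mem (E_le_G ha) (G.inv_mem (E_le_G hb))) (E_le_G ha)
  rw [← E_eq_of_class hca, conjBy_E hca.1 hw] at hconj
  -- conjugate of `a` lies in the other root group
  have hmin' := conj_mem_min hca.1 hw
  have haa : a * b⁻¹ * a * a * (a * b⁻¹ * a)⁻¹ ∈ Cfsg.sameActionSubgroup G (a * b⁻¹ * a * a * (a * b⁻¹ * a)⁻¹) :=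
    Subgroup.subset_closure ⟨hmin', rfl, rfl⟩
  rw [hconj] at haa
  have h5 := (mem_E_iff hτ).1 haa
  have hyy := minLog_of_mem hτ
  have h6 : LinearMap.range (cj (a * b⁻¹ * a) (NN a)) ≤ LinearMap.range (NN τ) := by
    have e := NN_conj (a * b⁻¹ * a) a
    simp only [NN] at e h5 ⊢
    rw [← e]
    exact LL_range_le hyy h5
  have h7 : LinearMap.range (NN τ) = LinearMap.range (NN b) := hs₂.2.symm
  rw [h7] at h6
  have hxx : NN a * NN a = 0 := hx₁.sq
  have hyy' : NN b * NN b = 0 := hy₁.sq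
  have hbi : ((b⁻¹ : LinearMap.GeneralLinearGroup k M) : M →ₗ[k] M) = 1 - NN b := by
    apply Units.inv_eq_of_mul_eq_one_right
    rw [val_eq_one_add b]
    have e3 : (1 + NN b) * (1 - NN b) = 1 - NN b * NN b := by noncomm_ring
    simp only [NN] at e3 hyy' ⊢
    rw [e3, hyy', sub_zero]
  have hai : ((a⁻¹ : LinearMap.GeneralLinearGroup k M) : M →ₗ[k] M) = 1 - NN a := by
    apply Units.inv_eq_of_mul_eq_one_right
    rw [val_eq_one_add a]
    have e3 : (1 + NN a) * (1 - NN a) = 1 - NN a * NN a := by noncomm_ring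
    simp only [NN] at e3 hxx ⊢
    rw [e3, hxx, sub_zero]
  have hvala : (a : M →ₗ[k] M) = 1 + NN a := val_eq_one_add a
  have hvalb : (b : M →ₗ[k] M) = 1 + NN b := val_eq_one_add b
  rw [← hx₁d] at hxx hai hvala hN₁
  rw [← hy₁d] at hyy' hbi h6 hvalb hN₁
  have hw' : ((a * b⁻¹ * a : LinearMap.GeneralLinearGroup k M) : M →ₗ[k] M) = (1 + x₁) * (1 - y₁) * (1 + x₁) := by
    rw [Units.val_mul, Units.val_mul, hbi, hvala]
  refine special_identity (exact_of_range hN₁ hxx hyy' ?_) hvala hvalb hai hbi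
  rintro v ⟨u, rfl⟩
  rw [← hw']
  have e := cj_mul_self (a * b⁻¹ * a) x₁
  have : ((a * b⁻¹ * a : LinearMap.GeneralLinearGroup k M) : M →ₗ[k] M) (x₁ u) =
      cj (a * b⁻¹ * a) x₁ (((a * b⁻¹ * a : LinearMap.GeneralLinearGroup k M) : M →ₗ[k] M) u) :=
    (congrArg (fun f : M →ₗ[k] M => f u) e).symm
  rw [this]
  apply h6
  rw [← hx₁d]
  exact ⟨_, rfl⟩

/-- The rank one pair. -/
theorem isSpecialRankOne (h2 : (2 : k) ≠ 0) (h3 : Nat.card k ≠ 3) (hσ : σ ∈ Cfsg.minimalQuadraticElements G)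
    (hτ : τ ∈ Cfsg.minimalQuadraticElements G) (hN : NTy (NN σ) (NN τ)) :
    Cfsg.IsSpecialRankOnePair (Cfsg.sameActionSubgroup G σ) (Cfsg.sameActionSubgroup G τ) :=
  ⟨⟨E_ne hσ hτ hN, E_nil hσ, E_nil hτ, cond h2 h3 hσ hτ hN, cond h2 h3 hτ hσ hN.symm⟩,
    fun _ ha ha1 _ hb hb1 hc => special hσ hτ hN ha ha1 hb hb1 hc⟩

/-! ### Fixed points and commutators -/

omit [FiniteDimensional k M] in
/-- Fixed points and subgroups. -/
lemma fixed_sup_le {E F : Subgroup (LinearMap.GeneralLinearGroup k M)} {W : Submodule k M}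
    (hE : ∀ g ∈ E, ∀ v ∈ W, NN g v = 0) (hF : ∀ g ∈ F, ∀ v ∈ W, NN g v = 0) :
    W ≤ Cfsg.fixedSubmodule (E ⊔ F) := by
  intro v hv
  let H : Subgroup (LinearMap.GeneralLinearGroup k M) :=
    { carrier := {g | (g : M →ₗ[k] M) v = v}
      mul_mem' := by
        intro a b ha hb
        simp only [Set.mem_setOf_eq, Units.val_mul, Module.End.mul_apply] at ha hb ⊢
        rw [hb, ha]
      one_mem' := by simp
      inv_mem' := by
        intro a ha
        simp only [Set.mem_setOf_eq] at ha ⊢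
        conv_lhs => rw [← ha]
        have h' : ((a⁻¹ : LinearMap.GeneralLinearGroup k M) : M →ₗ[k] M) * (a : M →ₗ[k] M) = 1 := by
          rw [← Units.val_mul]; simp
        exact congrArg (fun f : M →ₗ[k] M => f v) h' }
  have hle : E ⊔ F ≤ H := by
    refine sup_le (fun g hg => ?_) (fun g hg => ?_)
    · exact sub_eq_zero.1 (hE g hg v hv)
    · exact sub_eq_zero.1 (hF g hg v hv)
  simp only [Cfsg.fixedSubmodule, Submodule.mem_iInf, LinearMap.mem_ker]
  intro g hg
  have : (g : M →ₗ[k] M) v = v := hle hg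
  simp [this]

omit [FiniteDimensional k M] in
lemma comm_sup_le {E F : Subgroup (LinearMap.GeneralLinearGroup k M)} {W : Submodule k M}
    (hE : ∀ g ∈ E, ∀ v, NN g v ∈ W) (hF : ∀ g ∈ F, ∀ v, NN g v ∈ W) :
    Cfsg.commutatorSubmodule (E ⊔ F) ≤ W := by
  let H : Subgroup (LinearMap.GeneralLinearGroup k M) :=
    { carrier := {g | (∀ v, NN g v ∈ W) ∧ (∀ v, NN g⁻¹ v ∈ W)}
      mul_mem' := by
        have key : ∀ {a b : LinearMap.GeneralLinearGroup k M}, (∀ v, NN a v ∈ W) → (∀ v, NN b v ∈ W) →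
            ∀ v, NN (a * b) v ∈ W := by
          intro a b ha hb v
          have e : NN (a * b) v = NN a ((b : M →ₗ[k] M) v) + NN b v := by
            simp only [NN, Units.val_mul, LinearMap.sub_apply, Module.End.mul_apply, Module.End.one_apply]
            abel
          rw [e]
          exact W.add_mem (ha _) (hb _)
        rintro a b ⟨ha, ha'⟩ ⟨hb, hb'⟩
        refine ⟨key ha hb, ?_⟩
        rw [mul_inv_rev]
        exact key hb' ha'
      one_mem' := by simp [NN]
      inv_mem' := by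
        rintro a ⟨ha, ha'⟩
        refine ⟨ha', ?_⟩
        rwa [inv_inv] }
  have hle : E ⊔ F ≤ H := by
    refine sup_le (fun g hg => ⟨hE g hg, hE _ (E.inv_mem hg)⟩) (fun g hg => ⟨hF g hg, hF _ (F.inv_mem hg)⟩)
  unfold Cfsg.commutatorSubmodule
  refine iSup₂_le (fun g hg => ?_)
  rintro _ ⟨v, rfl⟩
  exact (hle hg).1 v

/-- The fixed space of a pair. -/
theorem fixed_eq (hσ : σ ∈ Cfsg.minimalQuadraticElements G) (hτ : τ ∈ Cfsg.minimalQuadraticElements G) :
    Cfsg.fixedSubmodule (Cfsg.sameActionSubgroup G σ ⊔ Cfsg.sameActionSubgroup G τ) =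
      LinearMap.ker (NN σ) ⊓ LinearMap.ker (NN τ) := by
  apply le_antisymm
  · intro v hv
    simp only [Cfsg.fixedSubmodule, Submodule.mem_iInf, LinearMap.mem_ker] at hv
    refine ⟨hv σ (Subgroup.mem_sup_left (Subgroup.subset_closure ⟨hσ, rfl, rfl⟩)),
      hv τ (Subgroup.mem_sup_right (Subgroup.subset_closure ⟨hτ, rfl, rfl⟩))⟩
  · apply fixed_sup_le
    · intro g hg v hv
      exact LL_ker_le (minLog_of_mem hσ) ((mem_E_iff hσ).1 hg) hv.1
    · intro g hg v hv
      exact LL_ker_le (minLog_of_mem hτ) ((mem_E_iff hτ).1 hg) hv.2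

/-- The commutator space of a pair. -/
theorem comm_eq (hσ : σ ∈ Cfsg.minimalQuadraticElements G) (hτ : τ ∈ Cfsg.minimalQuadraticElements G) :
    Cfsg.commutatorSubmodule (Cfsg.sameActionSubgroup G σ ⊔ Cfsg.sameActionSubgroup G τ) =
      LinearMap.range (NN σ) ⊔ LinearMap.range (NN τ) := by
  apply le_antisymm
  · apply comm_sup_le
    · intro g hg v
      exact Submodule.mem_sup_left (LL_range_le (minLog_of_mem hσ) ((mem_E_iff hσ).1 hg) ⟨v, rfl⟩)
    · intro g hg v
      exact Submodule.mem_sup_right (LL_range_le (minLog_of_mem hτ) ((mem_E_iff hτ).1 hg) ⟨v, rfl⟩)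
  · refine sup_le ?_ ?_
    · exact le_iSup₂_of_le σ (Subgroup.mem_sup_left (Subgroup.subset_closure ⟨hσ, rfl, rfl⟩)) le_rfl
    · exact le_iSup₂_of_le τ (Subgroup.mem_sup_right (Subgroup.subset_closure ⟨hτ, rfl, rfl⟩)) le_rfl


section Pi

variable {x y : M →ₗ[k] M} (h : Exact x y)
include h

lemma pi_LL (hx : MinLog G x) {z : M →ₗ[k] M} (hz : z ∈ LL hx) :
    pi x y * z = z ∧ z * pi x y = z := by
  constructor
  · ext v
    obtain ⟨u, hu⟩ := LL_range_le hx hz ⟨v, rfl⟩
    have := congrArg (fun f : M →ₗ[k] M => f u) (pi_x h)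
    simp only [Module.End.mul_apply] at this ⊢
    rw [← hu, this]
  · ext v
    have h1 : x ((pi x y) v - v) = 0 := by
      have := congrArg (fun f : M →ₗ[k] M => f v) (x_pi h)
      simp only [Module.End.mul_apply] at this
      rw [map_sub, this, sub_self]
    have h2 := LL_ker_le hx hz h1
    rw [LinearMap.mem_ker, map_sub, sub_eq_zero] at h2
    exact h2

lemma pi_LL' (hy : MinLog G y) {z : M →ₗ[k] M} (hz : z ∈ LL hy) :
    pi x y * z = z ∧ z * pi x y = z := by
  have := pi_LL (G := G) h.symm hy hz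
  rwa [pi, TT_comm] at this

omit [FiniteDimensional k M] in
lemma range_pi : LinearMap.range (pi x y) = LinearMap.range x ⊔ LinearMap.range y := by
  apply le_antisymm
  · rintro _ ⟨v, rfl⟩
    exact Submodule.add_mem _ (Submodule.mem_sup_left ⟨_, rfl⟩) (Submodule.mem_sup_right ⟨_, rfl⟩)
  · refine sup_le ?_ ?_
    · rintro _ ⟨v, rfl⟩
      have := congrArg (fun f : M →ₗ[k] M => f v) (pi_x h)
      exact ⟨x v, this⟩
    · rintro _ ⟨v, rfl⟩
      have := congrArg (fun f : M →ₗ[k] M => f v) (pi_y h)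
      exact ⟨y v, this⟩

omit [FiniteDimensional k M] in
lemma ker_pi : LinearMap.ker (pi x y) = LinearMap.ker x ⊓ LinearMap.ker y := by
  apply le_antisymm
  · intro v hv
    have h1 := congrArg (fun f : M →ₗ[k] M => f v) (x_pi h)
    have h2 := congrArg (fun f : M →ₗ[k] M => f v) (y_pi h)
    simp only [Module.End.mul_apply] at h1 h2
    rw [LinearMap.mem_ker] at hv
    rw [hv, map_zero] at h1 h2
    exact ⟨h1.symm, h2.symm⟩
  · intro v hv
    have h1 : x v = 0 := hv.1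
    have h2 : y v = 0 := hv.2
    show x (y v) + y (x v) = 0
    rw [h1, h2, map_zero, map_zero, add_zero]

omit [FiniteDimensional k M] in
lemma isCompl_pi : IsCompl (LinearMap.ker x ⊓ LinearMap.ker y) (LinearMap.range x ⊔ LinearMap.range y) := by
  have h1 : IsIdempotentElem (pi x y) := pi_idem h
  have h3 := LinearMap.IsIdempotentElem.isCompl h1
  rw [range_pi h, ker_pi h] at h3
  exact h3.symm

end Pi

omit [FiniteDimensional k M] in
lemma sq_one_sub_two (P : M →ₗ[k] M) (hP : P * P = P) : (1 - (2 : k) • P) * (1 - (2 : k) • P) = 1 := by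
  rw [two_smul]
  have e1 : (1 - (P + P)) * (1 - (P + P)) = 1 - (P + P) - (P + P) + (P * P + P * P + P * P + P * P) := by
    noncomm_ring
  rw [e1, hP]
  abel

omit [FiniteDimensional k M] in
lemma comm_one_sub_two (P z : M →ₗ[k] M) (hz1 : P * z = z) (hz2 : z * P = z) :
    (1 - (2 : k) • P) * (1 + z) = (1 + z) * (1 - (2 : k) • P) := by
  rw [two_smul]
  have e1 : (1 - (P + P)) * (1 + z) = 1 + z - (P + P) - (P * z + P * z) := by noncomm_ring
  have e2 : (1 + z) * (1 - (P + P)) = 1 + z - (P + P) - (z * P + z * P) := by noncomm_ring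
  rw [e1, e2, hz1, hz2]

/-- The central involution. -/
theorem central_involution (h2 : (2 : k) ≠ 0) (h3 : Nat.card k ≠ 3) (hσ : σ ∈ Cfsg.minimalQuadraticElements G)
    (hτ : τ ∈ Cfsg.minimalQuadraticElements G) (hN : NTy (NN σ) (NN τ)) :
    (∃! i : LinearMap.GeneralLinearGroup k M,
      i ∈ Cfsg.sameActionSubgroup G σ ⊔ Cfsg.sameActionSubgroup G τ ∧ i ≠ 1 ∧ i * i = 1 ∧
        (∀ x ∈ Cfsg.sameActionSubgroup G σ ⊔ Cfsg.sameActionSubgroup G τ, i * x = x * i) ∧
        (∀ m ∈ Cfsg.commutatorSubmodule (Cfsg.sameActionSubgroup G σ ⊔ Cfsg.sameActionSubgroup G τ), (i : M →ₗ[k] M) m = -m) ∧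
        (∀ m ∈ Cfsg.fixedSubmodule (Cfsg.sameActionSubgroup G σ ⊔ Cfsg.sameActionSubgroup G τ), (i : M →ₗ[k] M) m = m)) ∧
      IsCompl (Cfsg.fixedSubmodule (Cfsg.sameActionSubgroup G σ ⊔ Cfsg.sameActionSubgroup G τ))
        (Cfsg.commutatorSubmodule (Cfsg.sameActionSubgroup G σ ⊔ Cfsg.sameActionSubgroup G τ)) := by
  have hx := minLog_of_mem hσ
  have hy := minLog_of_mem hτ
  obtain ⟨y', hy', hs', hex⟩ := exists_exact h2 h3 hx hy hN
  have hF : Cfsg.fixedSubmodule (Cfsg.sameActionSubgroup G σ ⊔ Cfsg.sameActionSubgroup G τ) =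
      LinearMap.ker (NN σ) ⊓ LinearMap.ker y' := by
    rw [fixed_eq hσ hτ, hs'.1]
  have hC : Cfsg.commutatorSubmodule (Cfsg.sameActionSubgroup G σ ⊔ Cfsg.sameActionSubgroup G τ) =
      LinearMap.range (NN σ) ⊔ LinearMap.range y' := by
    rw [comm_eq hσ hτ, hs'.2]
  rw [hF, hC]
  have hcompl := isCompl_pi hex
  refine ⟨?_, hcompl⟩
  have hLLy : LL hy' = LL hy := LL_eq_of_mem hy hy' hs'
  have hval := pi_mul_self hex
  have hi1 : ∀ m, (((wU hex * wU hex : LinearMap.GeneralLinearGroup k M)) : M →ₗ[k] M) m = m - (2 : k) • pi (NN σ) y' m := by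
    intro m
    rw [hval]
    simp
  refine ⟨wU hex * wU hex, ⟨?_, ?_, ?_, ?_, ?_, ?_⟩, ?_⟩
  · have h5 : oa (NN σ) hex.xx 1 ∈ Cfsg.sameActionSubgroup G σ ⊔ Cfsg.sameActionSubgroup G τ :=
      Subgroup.mem_sup_left (oa_mem_E hσ (self_mem_LL hx) _ 1)
    have h6 : oa y' hex.yy 1 ∈ Cfsg.sameActionSubgroup G σ ⊔ Cfsg.sameActionSubgroup G τ :=
      Subgroup.mem_sup_right (oa_mem_E hτ (LL_mem_of_same hy hy' hs') _ 1)
    have h7 : wU hex ∈ Cfsg.sameActionSubgroup G σ ⊔ Cfsg.sameActionSubgroup G τ :=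
      Subgroup.mul_mem _ (Subgroup.mul_mem _ h5 (Subgroup.inv_mem _ h6)) h5
    exact Subgroup.mul_mem _ h7 h7
  · intro h0
    have h8 := congrArg Units.val h0
    rw [hval] at h8
    simp only [Units.val_one, sub_eq_self] at h8
    have h9 := (smul_eq_zero.1 h8).resolve_left h2
    apply hx.ne
    rw [← pi_x hex, h9, zero_mul]
  · apply Units.ext
    rw [Units.val_mul, hval]
    exact sq_one_sub_two _ (pi_idem hex)
  · intro g hg
    have hcent : ∀ z : M →ₗ[k] M, pi (NN σ) y' * z = z → z * pi (NN σ) y' = z →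
        (1 - (2 : k) • pi (NN σ) y') * (1 + z) = (1 + z) * (1 - (2 : k) • pi (NN σ) y') := by
      intro z hz1 hz2
      exact comm_one_sub_two _ z hz1 hz2
    have hle : Cfsg.sameActionSubgroup G σ ⊔ Cfsg.sameActionSubgroup G τ ≤
        Subgroup.centralizer ({wU hex * wU hex} : Set (LinearMap.GeneralLinearGroup k M)) := by
      refine sup_le (fun g hg => ?_) (fun g hg => ?_)
      · rw [Subgroup.mem_centralizer_iff]
        rintro _ rfl
        apply Units.ext
        have hz := (mem_E_iff hσ).1 hg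
        obtain ⟨h5, h6⟩ := pi_LL hex hx hz
        rw [Units.val_mul (wU hex * wU hex) g, Units.val_mul g (wU hex * wU hex), hval, val_eq_one_add g]
        exact hcent _ h5 h6
      · rw [Subgroup.mem_centralizer_iff]
        rintro _ rfl
        apply Units.ext
        have hz := (mem_E_iff hτ).1 hg
        rw [← hLLy] at hz
        obtain ⟨h5, h6⟩ := pi_LL' hex hy' hz
        rw [Units.val_mul (wU hex * wU hex) g, Units.val_mul g (wU hex * wU hex), hval, val_eq_one_add g]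
        exact hcent _ h5 h6
    exact (Subgroup.mem_centralizer_iff.1 (hle hg)) _ rfl
  · intro m hm
    rw [← range_pi hex] at hm
    have h10 : pi (NN σ) y' m = m := (LinearMap.IsIdempotentElem.mem_range_iff (pi_idem hex)).1 hm
    rw [hi1, h10, two_smul]
    abel
  · intro m hm
    rw [← ker_pi hex] at hm
    rw [hi1, LinearMap.mem_ker.1 hm, smul_zero, sub_zero]
  · rintro i' ⟨-, -, -, -, h11, h12⟩
    apply Units.ext
    ext m
    have htop : m ∈ (LinearMap.ker (NN σ) ⊓ LinearMap.ker y') ⊔ (LinearMap.range (NN σ) ⊔ LinearMap.range y') := by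
      rw [hcompl.sup_eq_top]; trivial
    obtain ⟨c, hc, d, hd, rfl⟩ := Submodule.mem_sup.1 htop
    have h10 : pi (NN σ) y' d = d :=
      (LinearMap.IsIdempotentElem.mem_range_iff (pi_idem hex)).1 (by rw [range_pi hex]; exact hd)
    have h13 : pi (NN σ) y' c = 0 := by
      have : c ∈ LinearMap.ker (pi (NN σ) y') := by rw [ker_pi hex]; exact hc
      exact this
    rw [map_add, h11 d hd, h12 c hc, hi1, map_add, h10, h13, zero_add, two_smul]
    abel

end Cfsg.Agent.Lib.Linalg.Quad.NType
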