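import Cfsg.Agent.Lib.Linalg.Quad.Root
import Mathlib

/-!
# Pairs of root subgroups of a quadratic pair: the non-unipotent type
-/

set_option autoImplicit false

namespace Cfsg.Agent.Lib.Linalg.Quad.Pair

open Polynomial
open Cfsg.Agent.Lib.Linalg.Quad.Dich Cfsg.Agent.Lib.Linalg.Quad.Psi Cfsg.Agent.Lib.Linalg.Quad.Root
  Cfsg.Agent.Lib.Linalg.Quad.Elems Cfsg.Agent.Lib.Linalg.Quad.Chain

section GroupLemmas

variable {Γ : Type*} [Group Γ]

lemma conjBy_mul (A : Subgroup Γ) (g h : Γ) : Cfsg.conjBy A (g * h) = Cfsg.conjBy (Cfsg.conjBy A h) g := by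
  ext u
  simp only [Cfsg.conjBy, Subgroup.mem_map, MulEquiv.coe_toMonoidHom, MulAut.conj_apply, exists_exists_and_eq_and]
  constructor
  · rintro ⟨v, hv, rfl⟩
    exact ⟨v, hv, by group⟩
  · rintro ⟨v, hv, rfl⟩
    exact ⟨v, hv, by group⟩

lemma conjBy_of_mem {A : Subgroup Γ} {a : Γ} (ha : a ∈ A) : Cfsg.conjBy A a = A := by
  ext u
  simp only [Cfsg.conjBy, Subgroup.mem_map, MulEquiv.coe_toMonoidHom, MulAut.conj_apply]
  constructor
  · rintro ⟨v, hv, rfl⟩
    exact A.mul_mem (A.mul_mem ha hv) (A.inv_mem ha)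
  · intro hu
    exact ⟨a⁻¹ * u * a, A.mul_mem (A.mul_mem (A.inv_mem ha) hu) ha, by group⟩

lemma conjBy_one' (A : Subgroup Γ) : Cfsg.conjBy A 1 = A := conjBy_of_mem A.one_mem

/-- The rank one relation through the Weyl element. -/
lemma conj_iff {A B : Subgroup Γ} {a b : Γ} (ha : a ∈ A) :
    Cfsg.conjBy A (a * b⁻¹ * a) = B ↔ Cfsg.conjBy A b⁻¹ = Cfsg.conjBy B a⁻¹ := by
  have e : Cfsg.conjBy A (a * b⁻¹ * a) = Cfsg.conjBy (Cfsg.conjBy A b⁻¹) a := by
    rw [conjBy_mul, conjBy_of_mem ha, conjBy_mul]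
  constructor
  · intro h
    rw [← h, e, ← conjBy_mul, inv_mul_cancel, conjBy_one']
  · intro h
    rw [e, h, ← conjBy_mul, mul_inv_cancel, conjBy_one']

end GroupLemmas

variable {k : Type*} [Field k] {M : Type*} [AddCommGroup M] [Module k M]

/-- The non-unipotent type of a pair. -/
structure NTy (x y : M →ₗ[k] M) : Prop where
  inj_x : ∀ v ∈ LinearMap.range x, y v = 0 → v = 0
  inj_y : ∀ v ∈ LinearMap.range y, x v = 0 → v = 0

lemma NTy.symm {x y : M →ₗ[k] M} (h : NTy x y) : NTy y x := ⟨h.inj_y, h.inj_x⟩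

lemma NTy.congr {x y x' y' : M →ₗ[k] M} (h : NTy x y) (hx : Same x x') (hy : Same y y') : NTy x' y' := by
  constructor
  · intro v hv hy'
    rw [hx.2] at hv
    have : v ∈ LinearMap.ker y' := hy'
    rw [hy.1] at this
    exact h.inj_x v hv this
  · intro v hv hy'
    rw [hy.2] at hv
    have : v ∈ LinearMap.ker x' := hy'
    rw [hx.1] at this
    exact h.inj_y v hv this

lemma NTy.not_zero {x y : M →ₗ[k] M} (h : NTy x y) (hx : x ≠ 0) : x * y * x ≠ 0 := by
  intro h0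
  apply hx
  ext v
  refine h.inj_x _ ⟨v, rfl⟩ (h.inj_y _ ⟨_, rfl⟩ ?_)
  exact congrArg (fun f : M →ₗ[k] M => f v) h0

/-- Any vector in the image of `x` and in the image of `y` vanishes. -/
lemma NTy.inter {x y : M →ₗ[k] M} (h : NTy x y) (hxx : x * x = 0) {v : M} (h1 : v ∈ LinearMap.range x)
    (h2 : v ∈ LinearMap.range y) : v = 0 := by
  refine h.inj_y v h2 ?_
  obtain ⟨u, rfl⟩ := h1
  exact congrArg (fun f : M →ₗ[k] M => f u) hxx

variable [FiniteDimensional k M] {G : Subgroup (LinearMap.GeneralLinearGroup k M)} {x y : M →ₗ[k] M}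

omit [FiniteDimensional k M] in
lemma NTy_of_poly (hxx : x * x = 0) (hyy : y * y = 0) {f : k[X]} (hf : Irreducible f) (hXf : ¬ X ∣ f)
    (hfx : aeval (TT x y) f * x = 0) (hfy : aeval (TT x y) f * y = 0) : NTy x y := by
  have hcop : IsCoprime f X := (hf.coprime_iff_not_dvd).2 (fun hd =>
    hXf ((hf.associated_of_dvd irreducible_X hd).symm.dvd))
  obtain ⟨A, B, hAB⟩ := hcop
  have key : ∀ v : M, aeval (TT x y) f v = 0 → (TT x y) v = 0 → v = 0 := by
    intro v h1 h2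
    have := congrArg (fun P => aeval (TT x y) P v) hAB
    simp only [map_add, map_mul, map_one, aeval_X, LinearMap.add_apply, Module.End.mul_apply,
      Module.End.one_apply, h1, h2, map_zero, add_zero] at this
    exact this.symm
  constructor
  · rintro _ ⟨u, rfl⟩ hv
    refine key _ (congrArg (fun F : M →ₗ[k] M => F u) hfx) ?_
    have : x (x u) = 0 := congrArg (fun F : M →ₗ[k] M => F u) hxx
    simp [TT, hv, this]
  · rintro _ ⟨u, rfl⟩ hv
    refine key _ (congrArg (fun F : M →ₗ[k] M => F u) hfy) ?_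
    have : y (y u) = 0 := congrArg (fun F : M →ₗ[k] M => F u) hyy
    simp [TT, hv, this]

/-- The type dichotomy. -/
theorem pair_dich (h2 : (2 : k) ≠ 0) (h3 : Nat.card k ≠ 3) (hx : MinLog G x) (hy : MinLog G y) :
    NTy x y ∨ (x * y * x = 0 ∧ y * x * y = 0) := by
  rcases dichotomy h2 h3 hx hy with ⟨h1, h1'⟩ | ⟨f, hf, hXf, hfx, hfy⟩
  · right
    rw [TT_mul_x hx.sq hy.sq] at h1
    rw [TT_mul_y hx.sq hy.sq] at h1'
    exact ⟨h1, h1'⟩
  · left
    exact NTy_of_poly hx.sq hy.sq hf hXf hfx hfy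

/-- The exact pairs. -/
structure Exact (x y : M →ₗ[k] M) : Prop where
  xx : x * x = 0
  yy : y * y = 0
  xyx : x * y * x = x
  yxy : y * x * y = y

omit [FiniteDimensional k M] in
lemma Exact.symm {x y : M →ₗ[k] M} (h : Exact x y) : Exact y x := ⟨h.yy, h.xx, h.yxy, h.xyx⟩

/-- The scalars over the residue field act. -/
lemma mem_of_poly (h2 : (2 : k) ≠ 0) (h3 : Nat.card k ≠ 3) (hx : LogQ G x) (hy : LogQ G y) {f : k[X]}
    (hf : Irreducible f) (hXf : ¬ X ∣ f) (hfx : aeval (TT x y) f * x = 0) {r s : k[X]} (hr : r * X + s * f = 1)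
    (c : k) (u : LinearMap.GeneralLinearGroup k M) (hu : (u : M →ₗ[k] M) = 1 + c • (aeval (TT x y) r * x)) :
    u ∈ G := by
  have hxx := hx.sq
  have hyy := hy.sq
  have hr0 : r ≠ 0 := by
    rintro rfl
    have : s * f = 1 := by simpa using hr
    exact hf.not_isUnit (IsUnit.of_mul_eq_one _ (by rwa [mul_comm] at this))
  have hm₁ : X * r ^ 3 ≠ 0 := mul_ne_zero X_ne_zero (pow_ne_zero _ hr0)
  obtain ⟨h, hh, he⟩ := exists_top h2 h3 hf hXf (X * r ^ 3) hm₁ c
  obtain ⟨v, hv, hv'⟩ := exists_unit_of_gam hx hy hh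
  have hent := gam_entries hh
  have hS : aeval (TT x y) (X * f) = 0 := by
    rw [mul_comm, map_mul, aeval_X]
    show _ * (x * y + y * x) = 0
    have hc : Commute (aeval (TT x y) f) y := SS_comm_y k hxx hyy f
    rw [mul_add, ← mul_assoc, hfx, zero_mul, zero_add, ← mul_assoc, hc.eq, mul_assoc, hfx, mul_zero]
  have hm : aeval (TT x y) (f * (X * r ^ 3)) = 0 := by
    rw [show f * (X * r ^ 3) = X * f * r ^ 3 by ring, map_mul, hS, zero_mul]
  have hcongr := psiV_congr hm he hent.1 (by simp) hent.2.1 (by simp)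
  have huv : u = v := by
    apply Units.ext
    rw [hu, hv', hcongr, psiV_x, map_mul (aeval (TT x y)) (C c), aeval_C, Algebra.algebraMap_eq_smul_one,
      smul_mul_assoc, smul_mul_assoc, one_mul]
    have e : X * (X * r ^ 3) = r + (- (r * s * (r * X + 1))) * f := by
      linear_combination (r * (r * X + 1)) * hr
    rw [e, map_add, map_mul, add_mul, mul_assoc, hfx, mul_zero, add_zero]
  rw [huv]
  exact hv

/-- Existence of exact partners in the non-unipotent type, with the polynomial data. -/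
theorem exists_exact_data (h2 : (2 : k) ≠ 0) (h3 : Nat.card k ≠ 3) (hx : MinLog G x) (hy : MinLog G y) (h : NTy x y) :
    ∃ (f r s : k[X]) (y' : M →ₗ[k] M), Irreducible f ∧ ¬ X ∣ f ∧ aeval (TT x y) f * x = 0 ∧
      aeval (TT x y) f * y = 0 ∧ r * X + s * f = 1 ∧ y' = aeval (TT x y) r * y ∧
      MinLog G y' ∧ Same y y' ∧ Exact x y' := by
  have hxx := hx.sq
  have hyy := hy.sq
  rcases dichotomy h2 h3 hx hy with ⟨h1, _⟩ | ⟨f, hf, hXf, hfx, hfy⟩
  · rw [TT_mul_x hxx hyy] at h1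
    exact absurd h1 (h.not_zero hx.ne)
  have hcop : IsCoprime X f := ((hf.coprime_iff_not_dvd).2 (fun hd =>
    hXf ((hf.associated_of_dvd irreducible_X hd).symm.dvd))).symm
  obtain ⟨r, s, hr⟩ := hcop
  have hSx : aeval (TT x y) (r * X) * x = x := by
    have e : r * X = 1 - s * f := by linear_combination hr
    rw [e, map_sub, map_one, sub_mul, one_mul, map_mul, mul_assoc, hfx, mul_zero, sub_zero]
  have hSy : aeval (TT x y) (r * X) * y = y := by
    have e : r * X = 1 - s * f := by linear_combination hr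
    rw [e, map_sub, map_one, sub_mul, one_mul, map_mul, mul_assoc, hfy, mul_zero, sub_zero]
  have hcrx : Commute (aeval (TT x y) r) x := SS_comm_x k hxx hyy r
  have hcry : Commute (aeval (TT x y) r) y := SS_comm_y k hxx hyy r
  have hTr : aeval (TT x y) r * TT x y = aeval (TT x y) (r * X) := by
    rw [map_mul, aeval_X]
  obtain ⟨y', hy'⟩ : ∃ y' : M →ₗ[k] M, y' = aeval (TT x y) r * y := ⟨_, rfl⟩
  have hy'2 : y' * y' = 0 := by
    rw [hy', mul_assoc, ← mul_assoc y, ← hcry.eq, mul_assoc, hyy, mul_zero, mul_zero]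
  have hcT : Commute (aeval (TT x y) r) (TT x y) := by
    have h : Commute (aeval (TT x y) r) (aeval (TT x y) X) := (Commute.all r X).map (aeval (TT x y))
    simpa using h
  -- `y = T * y' = y' * T`
  have hyT : TT x y * y' = y := by
    rw [hy', ← mul_assoc, ← hcT.eq, hTr, hSy]
  have hyT' : y' * TT x y = y := by
    rw [hy', mul_assoc, ← (comm_y hxx hyy).eq, ← mul_assoc, hTr, hSy]
  have hsame : Same y y' := by
    constructor
    · ext v
      simp only [LinearMap.mem_ker]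
      constructor
      · intro h0
        rw [← hyT]
        simp only [Module.End.mul_apply]
        rw [h0, map_zero]
      · intro h0
        rw [hy']
        simp only [Module.End.mul_apply]
        rw [h0, map_zero]
    · apply le_antisymm
      · rintro _ ⟨v, rfl⟩
        rw [hy', hcry.eq]
        exact ⟨_, rfl⟩
      · rintro _ ⟨v, rfl⟩
        rw [← hyT']
        exact ⟨_, rfl⟩
  have hy'ne : y' ≠ 0 := by
    intro h0
    apply hy.ne
    rw [← hyT, h0, mul_zero]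
  have hmem : ∀ (c : k) (u : LinearMap.GeneralLinearGroup k M), (u : M →ₗ[k] M) = 1 + c • y' → u ∈ G := by
    intro c u hu
    have hfy' : aeval (TT y x) f * y = 0 := by rw [TT_comm]; exact hfy
    refine mem_of_poly h2 h3 hy.toLogQ hx.toLogQ hf hXf hfy' hr c u ?_
    rw [hu, hy', TT_comm]
  have hmin : MinLog G y' := by
    refine ⟨⟨hy'2, hy'ne, hmem⟩, fun w hw => ?_⟩
    rw [hsame.rk_eq]
    exact hy.min w hw
  refine ⟨f, r, s, y', hf, hXf, hfx, hfy, hr, hy', hmin, hsame, hxx, hy'2, ?_, ?_⟩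
  · calc x * y' * x = (x * aeval (TT x y) r) * y * x := by rw [hy']; noncomm_ring
      _ = aeval (TT x y) r * (x * y * x) := by rw [← hcrx.eq]; noncomm_ring
      _ = (aeval (TT x y) r * TT x y) * x := by rw [← TT_mul_x hxx hyy, mul_assoc]
      _ = x := by rw [hTr, hSx]
  · calc y' * x * y' = aeval (TT x y) r * ((y * x) * aeval (TT x y) r) * y := by rw [hy']; noncomm_ring
      _ = aeval (TT x y) r * (aeval (TT x y) r * (y * x)) * y := by
          rw [(hcry.mul_right hcrx).eq]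
      _ = aeval (TT x y) r * ((aeval (TT x y) r * TT x y) * y) := by
          rw [mul_assoc (aeval (TT x y) r), mul_assoc (aeval (TT x y) r), mul_assoc (aeval (TT x y) r),
            TT_mul_y hxx hyy, mul_assoc]
      _ = y' := by rw [hTr, hSy, hy']

/-- Existence of exact partners in the non-unipotent type. -/
theorem exists_exact (h2 : (2 : k) ≠ 0) (h3 : Nat.card k ≠ 3) (hx : MinLog G x) (hy : MinLog G y) (h : NTy x y) :
    ∃ y', MinLog G y' ∧ Same y y' ∧ Exact x y' := by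
  obtain ⟨_, _, _, y', _, _, _, _, _, _, h1, h4, h5⟩ := exists_exact_data h2 h3 hx hy h
  exact ⟨y', h1, h4, h5⟩

section Exact

variable {x y : M →ₗ[k] M} (h : Exact x y)

/-- The central idempotent. -/
noncomputable abbrev pi (x y : M →ₗ[k] M) : M →ₗ[k] M := TT x y

include h

omit [FiniteDimensional k M] in
lemma pi_x : pi x y * x = x := by
  rw [pi, TT_mul_x h.xx h.yy, h.xyx]

omit [FiniteDimensional k M] in
lemma x_pi : x * pi x y = x := by
  rw [pi, x_mul_TT h.xx h.yy, h.xyx]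

omit [FiniteDimensional k M] in
lemma pi_y : pi x y * y = y := by
  rw [pi, TT_mul_y h.xx h.yy, h.yxy]

omit [FiniteDimensional k M] in
lemma y_pi : y * pi x y = y := by
  rw [pi, y_mul_TT h.xx h.yy, h.yxy]

omit [FiniteDimensional k M] in
lemma pi_idem : pi x y * pi x y = pi x y := by
  show pi x y * (x * y + y * x) = _
  rw [mul_add, ← mul_assoc, ← mul_assoc, pi_x h, pi_y h]
  rfl

end Exact


/-! ### Flags -/

/-- The subgroup preserving a flag. -/
def flagGroup (A₁ A₂ : Submodule k M) (h : A₂ ≤ A₁) : Subgroup (LinearMap.GeneralLinearGroup k M) where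
  carrier := {g | ((∀ m, NN g m ∈ A₁) ∧ (∀ m ∈ A₁, NN g m ∈ A₂) ∧ (∀ m ∈ A₂, NN g m = 0)) ∧
    ((∀ m, NN g⁻¹ m ∈ A₁) ∧ (∀ m ∈ A₁, NN g⁻¹ m ∈ A₂) ∧ (∀ m ∈ A₂, NN g⁻¹ m = 0))}
  mul_mem' := by
    have key : ∀ {g g' : LinearMap.GeneralLinearGroup k M},
        ((∀ m, NN g m ∈ A₁) ∧ (∀ m ∈ A₁, NN g m ∈ A₂) ∧ (∀ m ∈ A₂, NN g m = 0)) →
        ((∀ m, NN g' m ∈ A₁) ∧ (∀ m ∈ A₁, NN g' m ∈ A₂) ∧ (∀ m ∈ A₂, NN g' m = 0)) →
        ((∀ m, NN (g * g') m ∈ A₁) ∧ (∀ m ∈ A₁, NN (g * g') m ∈ A₂) ∧ (∀ m ∈ A₂, NN (g * g') m = 0)) := by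
      rintro g g' ⟨h1, h2, h3⟩ ⟨h1', h2', h3'⟩
      have e : ∀ m, NN (g * g') m = NN g m + NN g' m + NN g (NN g' m) := by
        intro m
        simp only [NN, Units.val_mul, LinearMap.sub_apply, Module.End.mul_apply, Module.End.one_apply,
          map_sub]
        abel
      refine ⟨fun m => ?_, fun m hm => ?_, fun m hm => ?_⟩
      · rw [e]
        exact A₁.add_mem (A₁.add_mem (h1 m) (h1' m)) (h1 _)
      · rw [e]
        exact A₂.add_mem (A₂.add_mem (h2 m hm) (h2' m hm)) (h2 _ (h (h2' m hm)))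
      · rw [e, h3 m hm, h3' m hm, add_zero, map_zero, add_zero]
    rintro g g' ⟨h1, h2⟩ ⟨h1', h2'⟩
    refine ⟨key h1 h1', ?_⟩
    rw [mul_inv_rev]
    exact key h2' h2
  one_mem' := by
    simp [NN]
  inv_mem' := by
    rintro g ⟨h1, h2⟩
    refine ⟨h2, ?_⟩
    rwa [inv_inv]

lemma unipotent_of_le_flag {A₁ A₂ : Submodule k M} {h : A₂ ≤ A₁} {H : Subgroup (LinearMap.GeneralLinearGroup k M)}
    (hH : H ≤ flagGroup A₁ A₂ h) : Cfsg.IsUnipotentOn H := by
  refine ⟨3, fun l hl hlen => ?_⟩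
  obtain ⟨a, b, c, rfl⟩ := List.length_eq_three.1 hlen
  have ha := (hH (hl a (by simp))).1
  have hb := (hH (hl b (by simp))).1
  have hc := (hH (hl c (by simp))).1
  show NN a * (NN b * (NN c * 1)) = 0
  ext v
  show NN a (NN b (NN c v)) = 0
  exact ha.2.2 _ (hb.2.1 _ (hc.1 v))

/-! ### The unipotent type -/

/-- The relations of the unipotent type. -/
lemma U_rel (h2 : (2 : k) ≠ 0) (h3 : Nat.card k ≠ 3) (hx : MinLog G x) (hy : MinLog G y) (hN : ¬ NTy x y)
    {y' : M →ₗ[k] M} (hy' : y' ∈ LL hy) : x * y' * x = 0 := by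
  rcases hy' with rfl | ⟨h1, h4⟩
  · simp
  · rcases pair_dich h2 h3 hx h1 with h5 | h5
    · exact absurd (h5.congr (Same.refl x) h4.symm) hN
    · exact h5.1

lemma U_apply (h2 : (2 : k) ≠ 0) (h3 : Nat.card k ≠ 3) (hx : MinLog G x) (hy : MinLog G y) (hN : ¬ NTy x y)
    {y' : M →ₗ[k] M} (hy' : y' ∈ LL hy) {v : M} (hv : v ∈ LinearMap.range x) : x (y' v) = 0 := by
  obtain ⟨u, rfl⟩ := hv
  exact congrArg (fun f : M →ₗ[k] M => f u) (U_rel h2 h3 hx hy hN hy')

/-- In the unipotent type the pair acts unipotently. -/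
theorem unipotent_aux (h2 : (2 : k) ≠ 0) (h3 : Nat.card k ≠ 3) (hx : MinLog G x) (hy : MinLog G y) (hN : ¬ NTy x y)
    {E F : Subgroup (LinearMap.GeneralLinearGroup k M)} (hE : ∀ g ∈ E, NN g ∈ LL hx) (hF : ∀ g ∈ F, NN g ∈ LL hy) :
    Cfsg.IsUnipotentOn (E ⊔ F) := by
  have hN' : ¬ NTy y x := fun h => hN h.symm
  let A₁ : Submodule k M := LinearMap.range x ⊔ LinearMap.range y
  let A₂ : Submodule k M := A₁ ⊓ (LinearMap.ker x ⊓ LinearMap.ker y)
  have hA : A₂ ≤ A₁ := inf_le_left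
  have hxx := hx.sq
  have hyy := hy.sq
  have hIx : ∀ v ∈ LinearMap.range x, v ∈ LinearMap.ker x := by
    rintro _ ⟨u, rfl⟩
    exact congrArg (fun f : M →ₗ[k] M => f u) hxx
  have hJy : ∀ v ∈ LinearMap.range y, v ∈ LinearMap.ker y := by
    rintro _ ⟨u, rfl⟩
    exact congrArg (fun f : M →ₗ[k] M => f u) hyy
  have hI : LinearMap.range x ≤ A₁ := le_sup_left
  have hJ : LinearMap.range y ≤ A₁ := le_sup_right
  have key1 : ∀ z ∈ LL hx, (∀ m, z m ∈ A₁) ∧ (∀ m ∈ A₁, z m ∈ A₂) ∧ (∀ m ∈ A₂, z m = 0) := by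
    intro z hz
    have hrz := LL_range_le hx hz
    have hkz := LL_ker_le hx hz
    refine ⟨fun m => hI (hrz ⟨m, rfl⟩), fun m hm => ?_, fun m hm => ?_⟩
    · obtain ⟨i, hi, j, hj, rfl⟩ := Submodule.mem_sup.1 hm
      have e0 : z i = 0 := hkz (hIx i hi)
      rw [map_add, e0, zero_add]
      have hzj : z j ∈ LinearMap.range x := hrz ⟨j, rfl⟩
      exact ⟨hI hzj, hIx _ hzj, U_apply h2 h3 hy hx hN' hz hj⟩
    · exact hkz hm.2.1
  have key2 : ∀ z ∈ LL hy, (∀ m, z m ∈ A₁) ∧ (∀ m ∈ A₁, z m ∈ A₂) ∧ (∀ m ∈ A₂, z m = 0) := by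
    intro z hz
    have hrz := LL_range_le hy hz
    have hkz := LL_ker_le hy hz
    refine ⟨fun m => hJ (hrz ⟨m, rfl⟩), fun m hm => ?_, fun m hm => ?_⟩
    · obtain ⟨i, hi, j, hj, rfl⟩ := Submodule.mem_sup.1 hm
      have e0 : z j = 0 := hkz (hJy j hj)
      rw [map_add, e0, add_zero]
      have hzi : z i ∈ LinearMap.range y := hrz ⟨i, rfl⟩
      exact ⟨hJ hzi, U_apply h2 h3 hx hy hN hz hi, hJy _ hzi⟩
    · exact hkz hm.2.2
  apply unipotent_of_le_flag (A₁ := A₁) (A₂ := A₂) (h := hA)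
  refine sup_le (fun g hg => ?_) (fun g hg => ?_)
  · exact ⟨key1 _ (hE g hg), key1 _ (hE _ (E.inv_mem hg))⟩
  · exact ⟨key2 _ (hF g hg), key2 _ (hF _ (F.inv_mem hg))⟩

/-- In the unipotent type the pair acts unipotently. -/
theorem unipotent_of_not_NTy (h2 : (2 : k) ≠ 0) (h3 : Nat.card k ≠ 3) {σ τ : LinearMap.GeneralLinearGroup k M}
    (hσ : σ ∈ Cfsg.minimalQuadraticElements G) (hτ : τ ∈ Cfsg.minimalQuadraticElements G)
    (hN : ¬ NTy (NN σ) (NN τ)) :
    Cfsg.IsUnipotentOn (Cfsg.sameActionSubgroup G σ ⊔ Cfsg.sameActionSubgroup G τ) :=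
  unipotent_aux h2 h3 (minLog_of_mem hσ) (minLog_of_mem hτ) hN (fun _ hg => (mem_E_iff hσ).1 hg)
    (fun _ hg => (mem_E_iff hτ).1 hg)

end Cfsg.Agent.Lib.Linalg.Quad.Pair
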