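import Cfsg.Agent.Lib.Linalg.Quad.Chain
import Mathlib

/-!
# The universal representation of `Gam k` attached to a pair of square-zero elements

Given `x, y` in a `k`-algebra with `x² = y² = 0`, the map `x(c) ↦ 1 + c x`, `y(cX) ↦ 1 + c y`
extends to a homomorphism from the universal group `Gam k`.
-/

set_option autoImplicit false

namespace Cfsg.Agent.Lib.Linalg.Quad.Psi

open Polynomial Matrix Matrix.SpecialLinearGroup
open scoped MatrixGroups
open Cfsg.Agent.Lib.PSL2.Basic Cfsg.Agent.Lib.Linalg.Quad.Chain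

variable {k : Type*} [Field k] {A : Type*} [Ring A] [Algebra k A]

/-- The central element `T = xy + yx`. -/
def TT (x y : A) : A := x * y + y * x

lemma TT_comm (x y : A) : TT x y = TT y x := add_comm _ _

section Rel

variable {x y : A} (hx : x * x = 0) (hy : y * y = 0)
include hx hy

lemma TT_mul_x : TT x y * x = x * y * x := by
  simp [TT, add_mul, mul_assoc, hx]

lemma x_mul_TT : x * TT x y = x * y * x := by
  simp [TT, mul_add, ← mul_assoc, hx]

lemma TT_mul_y : TT x y * y = y * x * y := by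
  simp [TT, add_mul, mul_assoc, hy]

lemma y_mul_TT : y * TT x y = y * x * y := by
  simp [TT, mul_add, ← mul_assoc, hy]

lemma comm_x : Commute (TT x y) x := by
  show _ = _
  rw [TT_mul_x hx hy, x_mul_TT hx hy]

lemma comm_y : Commute (TT x y) y := by
  show _ = _
  rw [TT_mul_y hx hy, y_mul_TT hx hy]

variable (k)

/-- Polynomials in `T`. -/
noncomputable abbrev SS (x y : A) : k[X] →ₐ[k] A := aeval (TT x y)

lemma SS_comm_x (p : k[X]) : Commute (SS k x y p) x := by
  show Commute (aeval (TT x y) p) x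
  rw [aeval_def, eval₂_eq_sum_range]
  apply Commute.sum_left
  intro i _
  apply Commute.mul_left
  · exact Algebra.commutes _ _
  · exact (comm_x hx hy).pow_left i

lemma SS_comm_y (p : k[X]) : Commute (SS k x y p) y := by
  show Commute (aeval (TT x y) p) y
  rw [aeval_def, eval₂_eq_sum_range]
  apply Commute.sum_left
  intro i _
  apply Commute.mul_left
  · exact Algebra.commutes _ _
  · exact (comm_y hx hy).pow_left i

end Rel

/-- The four-parameter family. -/
noncomputable def Psi4 (x y : A) (a b c e : k[X]) : A :=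
  aeval (TT x y) a + aeval (TT x y) b * x + aeval (TT x y) c * y + aeval (TT x y) e * (y * x)

/-- The multiplication law of the family. -/
theorem Psi4_mul {x y : A} (hx : x * x = 0) (hy : y * y = 0) (a b c e a' b' c' e' : k[X]) :
    Psi4 x y a b c e * Psi4 x y a' b' c' e' =
      Psi4 x y (a * a' + X * b * c') (a * b' + b * a' + X * b * e') (c * a' + a * c' + X * e * c')
        (c * b' + a * e' + e * a' + X * e * e' - b * c') := by
  have cx := SS_comm_x k hx hy
  have cy := SS_comm_y k hx hy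
  set S := SS k x y with hS
  have hT : x * y = S X - y * x := by
    simp [hS, TT]
  -- products of scalars
  have h1 : ∀ (p q : k[X]) (v w : A), Commute (S q) v → S p * v * (S q * w) = S (p * q) * (v * w) := by
    intro p q v w hc
    rw [map_mul, mul_assoc, ← mul_assoc v, hc.symm.eq, mul_assoc (S q), ← mul_assoc]
  have hxyx : x * (y * x) = S X * x := by
    rw [← mul_assoc, hT, sub_mul, mul_assoc y, hx, mul_zero, sub_zero]
  have hyxy : (y * x) * y = S X * y := by
    rw [mul_assoc, hT, mul_sub, ← mul_assoc y y, hy, zero_mul, sub_zero, (cy X).symm.eq]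
  have hyxx : (y * x) * x = 0 := by rw [mul_assoc, hx, mul_zero]
  have hyyx : y * (y * x) = 0 := by rw [← mul_assoc, hy, zero_mul]
  have hyxyx : (y * x) * (y * x) = S X * (y * x) := by
    rw [mul_assoc, hxyx, ← mul_assoc, (cy X).symm.eq, mul_assoc]
  show (S a + S b * x + S c * y + S e * (y * x)) * (S a' + S b' * x + S c' * y + S e' * (y * x)) =
    S _ + S _ * x + S _ * y + S _ * (y * x)
  have ce' : ∀ q : k[X], Commute (S q) (y * x) := fun q => (cy q).mul_right (cx q)
  have e1 : ∀ (p q : k[X]), S p * (S q) = S (p * q) := fun p q => (map_mul S p q).symm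
  have e2 : ∀ (p q : k[X]) (w : A), S p * (S q * w) = S (p * q) * w := fun p q w => by
    rw [map_mul, mul_assoc]
  simp only [add_mul, mul_add]
  rw [h1 b b' x x (cx _), h1 b c' x y (cx _).symm.symm, h1 b e' x (y * x) (cx _), 
    h1 c b' y x (cy _), h1 c c' y y (cy _), h1 c e' y (y * x) (cy _),
    h1 e b' (y * x) x (ce' _), h1 e c' (y * x) y (ce' _), h1 e e' (y * x) (y * x) (ce' _),
    hx, hy, hT, hxyx, hyxy, hyxx, hyyx, hyxyx]
  have r1 : S b * x * S a' = S (b * a') * x := by
    rw [mul_assoc, (cx a').symm.eq, e2]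
  have r2 : S c * y * S a' = S (c * a') * y := by
    rw [mul_assoc, (cy a').symm.eq, e2]
  have r3 : S e * (y * x) * S a' = S (e * a') * (y * x) := by
    rw [mul_assoc, (ce' a').symm.eq, e2]
  rw [r1, r2, r3, e1 a a', e2 a b', e2 a c', e2 a e', mul_sub, e1 (b * c') X, e2 (e * c') X,
    e2 (b * e') X, e2 (e * e') X]
  simp only [map_add, map_sub, add_mul, sub_mul, mul_zero]
  rw [show X * b * c' = b * c' * X by ring, show X * b * e' = b * e' * X by ring,
    show X * e * c' = e * c' * X by ring, show X * e * e' = e * e' * X by ring]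
  abel

section Gam

/-- Entries of elements in the universal group. -/
lemma gam_entries {h : SL(2, k[X])} (hh : h ∈ Gam k) :
    X ∣ h.1 1 0 ∧ X ∣ h.1 1 1 - h.1 0 0 ∧ X ∣ h.1 0 0 - 1 := by
  induction hh using Subgroup.closure_induction with
  | mem g hg =>
    rcases hg with ⟨c, rfl⟩ | ⟨c, rfl⟩
    · simp
    · simp
  | one => simp
  | mul a b _ _ ha hb =>
    obtain ⟨⟨a1, ha1⟩, ⟨a2, ha2⟩, ⟨a3, ha3⟩⟩ := ha
    obtain ⟨⟨b1, hb1⟩, ⟨b2, hb2⟩, ⟨b3, hb3⟩⟩ := hb
    have ea : a.1 0 0 = 1 + X * a3 := by linear_combination ha3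
    have ea' : a.1 1 1 = a.1 0 0 + X * a2 := by linear_combination ha2
    have eb : b.1 0 0 = 1 + X * b3 := by linear_combination hb3
    have eb' : b.1 1 1 = b.1 0 0 + X * b2 := by linear_combination hb2
    simp only [mul_10, mul_11, mul_00]
    refine ⟨⟨a1 * b.1 0 0 + a.1 1 1 * b1, ?_⟩, ⟨a1 * b.1 0 1 + a.1 1 1 * b2 + a2 * b.1 0 0 - a.1 0 1 * b1, ?_⟩, ⟨a3 * b.1 0 0 + a.1 0 1 * b1 + b3, ?_⟩⟩
    · rw [ha1, hb1]; ring
    · rw [ha1, hb1, ea', eb']; ring
    · rw [ea, hb1, eb]; ring
  | inv a _ ha =>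
    obtain ⟨⟨a1, ha1⟩, ⟨a2, ha2⟩, ⟨a3, ha3⟩⟩ := ha
    have ea : a.1 0 0 = 1 + X * a3 := by linear_combination ha3
    have ea' : a.1 1 1 = a.1 0 0 + X * a2 := by linear_combination ha2
    simp only [inv_00, inv_10, inv_11]
    refine ⟨⟨-a1, ?_⟩, ⟨-a2, ?_⟩, ⟨a3 + a2, ?_⟩⟩
    · rw [ha1]; ring
    · rw [ea']; ring
    · rw [ea', ea]; ring

/-- `(X c).divX = c`. -/
lemma divX_X_mul' (c : k[X]) : (X * c).divX = c := by
  ext n
  simp [coeff_divX, coeff_X_mul]

/-- The value of the representation on an element with the right shape. -/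
noncomputable def psiV (x y : A) (h : SL(2, k[X])) : A :=
  Psi4 x y (h.1 0 0) (h.1 0 1) (h.1 1 0).divX (h.1 1 1 - h.1 0 0).divX

lemma psiV_eq (x y : A) {h : SL(2, k[X])} {c e : k[X]} (h1 : h.1 1 0 = X * c)
    (h2 : h.1 1 1 - h.1 0 0 = X * e) : psiV x y h = Psi4 x y (h.1 0 0) (h.1 0 1) c e := by
  simp only [psiV, h1, h2, divX_X_mul']

lemma psiV_mul {x y : A} (hx : x * x = 0) (hy : y * y = 0) {h h' : SL(2, k[X])} (hh : h ∈ Gam k)
    (hh' : h' ∈ Gam k) : psiV x y (h * h') = psiV x y h * psiV x y h' := by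
  obtain ⟨⟨c, hc⟩, ⟨e, he⟩, -⟩ := gam_entries hh
  obtain ⟨⟨c', hc'⟩, ⟨e', he'⟩, -⟩ := gam_entries hh'
  rw [psiV_eq x y hc he, psiV_eq x y hc' he', Psi4_mul hx hy]
  have h11 : h.1 1 1 = h.1 0 0 + X * e := by linear_combination he
  have h11' : h'.1 1 1 = h'.1 0 0 + X * e' := by linear_combination he'
  have e00 : (h * h').1 0 0 = h.1 0 0 * h'.1 0 0 + X * h.1 0 1 * c' := by
    rw [mul_00, hc']; ring
  have e01 : (h * h').1 0 1 = h.1 0 0 * h'.1 0 1 + h.1 0 1 * h'.1 0 0 + X * h.1 0 1 * e' := by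
    rw [mul_01, h11']; ring
  rw [← e00, ← e01]
  apply psiV_eq
  · rw [mul_10, hc, h11, hc']; ring
  · rw [mul_00, mul_11, hc, hc', h11, h11']; ring

lemma psiV_one (x y : A) : psiV x y (1 : SL(2, k[X])) = 1 := by
  simp [psiV, Psi4]

lemma psiV_x (x y : A) (a : k[X]) : psiV x y (Cfsg.Agent.Lib.PSL2.Basic.x a) = 1 + aeval (TT x y) a * x := by
  simp [psiV, Psi4]

lemma psiV_y (x y : A) (a : k[X]) : psiV x y (Cfsg.Agent.Lib.PSL2.Basic.y (X * a)) = 1 + aeval (TT x y) a * y := by
  simp [psiV, Psi4, divX_X_mul']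

/-- The representation as a monoid homomorphism. -/
noncomputable def psiMon {x y : A} (hx : x * x = 0) (hy : y * y = 0) : Gam k →* A where
  toFun h := psiV x y h.1
  map_one' := psiV_one x y
  map_mul' h h' := psiV_mul hx hy h.2 h'.2

/-- The representation as a group homomorphism. -/
noncomputable def psiU {x y : A} (hx : x * x = 0) (hy : y * y = 0) : Gam k →* Aˣ :=
  (psiMon hx hy).toHomUnits

@[simp] lemma psiU_val {x y : A} (hx : x * x = 0) (hy : y * y = 0) (h : Gam k) :
    ((psiU hx hy h : Aˣ) : A) = psiV x y h.1 := rfl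

/-- Congruence: `psiV` only depends on the class modulo `X m`, `m(T) = 0`. -/
lemma psiV_congr {x y : A} {m : k[X]} (hm : aeval (TT x y) m = 0) {h h' : SL(2, k[X])}
    (e : ev (X * m) h = ev (X * m) h') (h1 : X ∣ h.1 1 0) (h1' : X ∣ h'.1 1 0)
    (h2 : X ∣ h.1 1 1 - h.1 0 0) (h2' : X ∣ h'.1 1 1 - h'.1 0 0) :
    psiV x y h = psiV x y h' := by
  have hent : ∀ i j, X * m ∣ h.1 i j - h'.1 i j := by
    intro i j
    have := congrArg (fun A : SL(2, AdjoinRoot (X * m)) => A.1 i j) e
    simp only [ev_entry] at this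
    exact AdjoinRoot.mk_eq_mk.1 this
  have hdvd : ∀ {a b : k[X]}, X * m ∣ a - b → aeval (TT x y) a = aeval (TT x y) b := by
    intro a b hab
    obtain ⟨w, hw⟩ := hab
    have : a = b + m * (X * w) := by linear_combination hw
    rw [this, map_add, map_mul, hm, zero_mul, add_zero]
  have hdiv : ∀ {a b : k[X]}, X * m ∣ a - b → X ∣ a → X ∣ b →
      aeval (TT x y) a.divX = aeval (TT x y) b.divX := by
    intro a b hab ha hb
    obtain ⟨w, hw⟩ := hab
    obtain ⟨a', rfl⟩ := ha
    obtain ⟨b', rfl⟩ := hb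
    rw [divX_X_mul', divX_X_mul']
    have h3 : X * (a' - (b' + m * w)) = 0 := by linear_combination hw
    have h4 : a' = b' + m * w := by
      have := (mul_eq_zero.1 h3).resolve_left X_ne_zero
      linear_combination this
    rw [h4, map_add, map_mul, hm, zero_mul, add_zero]
  simp only [psiV, Psi4]
  rw [hdvd (hent 0 0), hdvd (hent 0 1), hdiv (hent 1 0) h1 h1',
    hdiv (a := h.1 1 1 - h.1 0 0) (b := h'.1 1 1 - h'.1 0 0) ?_ h2 h2']
  have := dvd_sub (hent 1 1) (hent 0 0)
  convert this using 1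
  ring

/-- The image of the universal group lies in any group containing the generators. -/
lemma psiU_mem {x y : A} (hx : x * x = 0) (hy : y * y = 0) (H : Subgroup Aˣ)
    (h1 : ∀ (c : k) (u : Aˣ), (u : A) = 1 + c • x → u ∈ H)
    (h2 : ∀ (c : k) (u : Aˣ), (u : A) = 1 + c • y → u ∈ H) (h : Gam k) : psiU hx hy h ∈ H := by
  have hle : (⊤ : Subgroup (Gam k)) ≤ H.comap (psiU hx hy) := by
    have hc : (⊤ : Subgroup (Gam k)) = Subgroup.closure ((Subgroup.subtype (Gam k)) ⁻¹'
        (({g | ∃ c : k, g = Cfsg.Agent.Lib.PSL2.Basic.x (C c)} ∪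
          {g | ∃ c : k, g = Cfsg.Agent.Lib.PSL2.Basic.y (C c * X)}))) := by
      exact (Subgroup.closure_preimage_eq_top _).symm
    rw [hc, Subgroup.closure_le]
    rintro ⟨g, hg⟩ (⟨c, hc⟩ | ⟨c, hc⟩)
    · apply h1 c
      simp only [Subgroup.subtype_apply] at hc
      subst hc
      rw [psiU_val, psiV_x, aeval_C, Algebra.smul_def]
    · apply h2 c
      simp only [Subgroup.subtype_apply] at hc
      subst hc
      rw [psiU_val]
      show psiV x y (Cfsg.Agent.Lib.PSL2.Basic.y (C c * X)) = _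
      rw [mul_comm (C c), psiV_y, aeval_C, Algebra.smul_def]
  exact hle (Subgroup.mem_top h)

end Gam

end Cfsg.Agent.Lib.Linalg.Quad.Psi
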