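import Cfsg.Agent.Lib.PSL2.AutPSL
import Mathlib

/-!
# Rigidity of homomorphisms `SL₂(F) → PSL₂(F')` respecting root elements
-/

set_option autoImplicit false

namespace Cfsg.Agent.Lib.Linalg.Quad.Rigid

open Matrix Matrix.SpecialLinearGroup
open scoped MatrixGroups
open Cfsg.Agent.Lib.PSL2.Basic Cfsg.Agent.Lib.PSL2.AutPSL

section Centralizer

variable {F : Type*} [Field F]

/-- An element commuting with `x 1` in `PSL₂` is the image of some `x t`. -/
lemma exists_of_commute_xb (h2 : (2 : F) ≠ 0) {s : F} (hs : s ≠ 0) (z : PSL(2, F))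
    (hz : z * xb s = xb s * z) : ∃ t : F, z = xb t := by
  obtain ⟨Z, rfl⟩ := mkP_surjective z
  have h1 : mkP (Z * x s) = mkP (x s * Z) := by rw [map_mul, map_mul]; exact hz
  have hdet := det_entries Z
  have hkey : Z * x s = x s * Z := by
    rcases mkP_eq_iff.1 h1 with h3 | h3
    · exact h3.symm
    · exfalso
      -- `x s Z = - Z x s` forces a trace contradiction
      have e00 := congrArg (fun A : SL(2, F) => A.1 0 0) h3
      have e01 := congrArg (fun A : SL(2, F) => A.1 0 1) h3
      have e10 := congrArg (fun A : SL(2, F) => A.1 1 0) h3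
      have e11 := congrArg (fun A : SL(2, F) => A.1 1 1) h3
      simp only [mul_00, mul_01, mul_10, mul_11, neg_00, neg_01, neg_10, neg_11, x_00, x_01, x_10,
        x_11] at e00 e01 e10 e11
      have hc : Z.1 1 0 = 0 := by
        have : (2 : F) * Z.1 1 0 = 0 := by linear_combination e10
        exact (mul_eq_zero.1 this).resolve_left h2
      rw [hc] at e00 e11 hdet
      have ha : Z.1 0 0 = 0 := by
        have : (2 : F) * Z.1 0 0 = 0 := by linear_combination e00
        exact (mul_eq_zero.1 this).resolve_left h2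
      rw [ha] at hdet
      simp at hdet
  have e00 := congrArg (fun A : SL(2, F) => A.1 0 0) hkey
  have e01 := congrArg (fun A : SL(2, F) => A.1 0 1) hkey
  simp only [mul_00, mul_01, x_00, x_01, x_10, x_11] at e00 e01
  have hc : Z.1 1 0 = 0 := by
    have : s * Z.1 1 0 = 0 := by linear_combination -e00
    exact (mul_eq_zero.1 this).resolve_left hs
  have had : Z.1 0 0 = Z.1 1 1 := by
    have : s * (Z.1 0 0 - Z.1 1 1) = 0 := by linear_combination e01
    have h3 := (mul_eq_zero.1 this).resolve_left hs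
    exact sub_eq_zero.1 h3
  rw [hc, ← had] at hdet
  have hsq : (Z.1 0 0 - 1) * (Z.1 0 0 + 1) = 0 := by linear_combination hdet
  rcases mul_eq_zero.1 hsq with h3 | h3
  · have h4 : Z.1 0 0 = 1 := sub_eq_zero.1 h3
    refine ⟨Z.1 0 1, ?_⟩
    congr 1
    apply ext2
    · simpa using h4
    · simp
    · simpa using hc
    · simpa [← had] using h4
  · have h4 : Z.1 0 0 = -1 := eq_neg_of_add_eq_zero_left h3
    refine ⟨-Z.1 0 1, ?_⟩
    rw [← mkP_neg]
    congr 1
    apply ext2
    · simp [h4]
    · simp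
    · simpa using hc
    · simp [← had, h4]

/-- An element commuting with `y s` in `PSL₂` is the image of some `y t`. -/
lemma exists_of_commute_yb (h2 : (2 : F) ≠ 0) {s : F} (hs : s ≠ 0) (z : PSL(2, F))
    (hz : z * yb s = yb s * z) : ∃ t : F, z = yb t := by
  -- conjugate by `w`
  have hw : ∀ t : F, (mkP w : PSL(2, F)) * yb t * (mkP w)⁻¹ = xb (-t) := by
    intro t
    rw [← map_inv, ← map_mul, ← map_mul, w_y_w_inv]
  have hw' : ∀ t : F, (mkP w : PSL(2, F)) * xb t * (mkP w)⁻¹ = yb (-t) := by
    intro t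
    rw [← map_inv, ← map_mul, ← map_mul, w_x_w_inv]
  have h1 : ((mkP w : PSL(2, F)) * z * (mkP w)⁻¹) * xb (-s) = xb (-s) * ((mkP w : PSL(2, F)) * z * (mkP w)⁻¹) := by
    rw [← hw s]
    calc _ = (mkP w : PSL(2, F)) * (z * yb s) * (mkP w)⁻¹ := by group
      _ = (mkP w : PSL(2, F)) * (yb s * z) * (mkP w)⁻¹ := by rw [hz]
      _ = _ := by group
  obtain ⟨t, ht⟩ := exists_of_commute_xb h2 (neg_ne_zero.2 hs) _ h1
  refine ⟨-t, ?_⟩
  have h3 : z = (mkP w : PSL(2, F))⁻¹ * ((mkP w : PSL(2, F)) * z * (mkP w)⁻¹) * (mkP w) := by group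
  rw [h3, ht]
  have h4 := hw (-t)
  rw [neg_neg] at h4
  rw [← h4]
  group

end Centralizer

section Hua

variable {F F' : Type*} [Field F] [Field F']

/-- An additive map with trivial kernel preserving `1` and inverses is multiplicative, away from
characteristic two. -/
theorem mul_of_inv' (h2F : (2 : F') ≠ 0) {σ : F → F'} (hadd : ∀ s t, σ (s + t) = σ s + σ t) (h1 : σ 1 = 1)
    (hinj : Function.Injective σ) (hinv : ∀ t, σ t⁻¹ = (σ t)⁻¹) (a b : F) :
    σ (a * b) = σ a * σ b := by
  have h0 : σ 0 = 0 := by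
    have := hadd 0 0
    rw [add_zero] at this
    exact left_eq_add.1 this
  have hne : ∀ {t : F}, t ≠ 0 → σ t ≠ 0 := fun {t} ht h => ht (hinj (h.trans h0.symm))
  have hsub : ∀ s t, σ (s - t) = σ s - σ t := by
    intro s t
    have := hadd (s - t) t
    rw [sub_add_cancel] at this
    rw [this, add_sub_cancel_right]
  have hH : ∀ a b, σ (a * a * b) = σ a * σ a * σ b := by
    intro a b
    by_cases ha : a = 0
    · simp [ha, h0]
    by_cases hb : b = 0
    · simp [hb, h0]
    by_cases hab : a * b = 1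
    · have hb' : b = a⁻¹ := eq_inv_of_mul_eq_one_right hab
      rw [mul_assoc, hab, mul_one, hb', hinv]
      field_simp [hne ha]
    · have hab' : σ a * σ b ≠ 1 := by
        intro h
        apply hab
        have h2 : σ b = σ a⁻¹ := by
          rw [hinv]
          exact eq_inv_of_mul_eq_one_right h
        rw [hinj h2]
        field_simp
      rw [← hua ha hb hab, ← hua (hne ha) (hne hb) hab', hsub, hinv, hadd, hinv, hinv, hsub, hinv]
  have hsq : ∀ a, σ (a * a) = σ a * σ a := by
    intro a
    have := hH a 1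
    rwa [mul_one, h1, mul_one] at this
  have h3 := hsq (a + b)
  rw [hadd] at h3
  have h4 : (a + b) * (a + b) = a * a + (a * b + a * b) + b * b := by ring
  rw [h4, hadd, hadd, hadd, hsq, hsq] at h3
  have h6 : (2 : F') * (σ (a * b) - σ a * σ b) = 0 := by linear_combination h3
  have h7 := (mul_eq_zero.1 h6).resolve_left h2F
  exact sub_eq_zero.1 h7

end Hua

section Main

variable {F F' : Type*} [Field F] [Field F']

/-- **Rigidity**: a homomorphism `SL₂(F) → PSL₂(F')` sending `x 1` to `x 1` and a root element `y λ`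
to a root element `y λ'` comes from a ring homomorphism, away from characteristic `2`. -/
theorem exists_ringHom (h2F' : (2 : F') ≠ 0) (φ : SL(2, F) →* PSL(2, F')) {lam : F} {lam' : F'}
    (hlam' : lam' ≠ 0)
    (hx1 : φ (x 1) = xb 1) (hyl : φ (y lam) = yb lam') :
    ∃ σ : F →+* F', (∀ t, φ (x t) = xb (σ t)) ∧ (∀ t, φ (y t) = yb (σ t)) := by
  classical
  -- the values
  have hxb : ∀ t : F, ∃ s : F', φ (x t) = xb s := by
    intro t
    apply exists_of_commute_xb h2F' (one_ne_zero) 
    rw [← hx1, ← map_mul, ← map_mul, ← x_add, ← x_add, add_comm]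
  have hyb : ∀ t : F, ∃ s : F', φ (y t) = yb s := by
    intro t
    apply exists_of_commute_yb h2F' hlam'
    rw [← hyl, ← map_mul, ← map_mul, ← y_add, ← y_add, add_comm]
  choose σ hσ using hxb
  choose τ hτ using hyb
  have h1 : σ 1 = 1 := by
    apply xb_injective
    rw [← hσ, hx1]
  have σadd : ∀ s t, σ (s + t) = σ s + σ t := by
    intro s t
    apply xb_injective
    rw [xb_add, ← hσ, ← hσ, ← hσ, x_add, map_mul]
  have τadd : ∀ s t, τ (s + t) = τ s + τ t := by
    intro s t
    apply yb_injective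
    rw [yb_add, ← hτ, ← hτ, ← hτ, y_add, map_mul]
  have σ0 : σ 0 = 0 := by
    have := σadd 0 0
    rw [add_zero] at this
    exact left_eq_add.1 this
  have τ0 : τ 0 = 0 := by
    have := τadd 0 0
    rw [add_zero] at this
    exact left_eq_add.1 this
  have σneg : ∀ t, σ (-t) = - σ t := by
    intro t
    have := σadd t (-t)
    rw [add_neg_cancel, σ0] at this
    linear_combination -this
  have τneg : ∀ t, τ (-t) = - τ t := by
    intro t
    have := τadd t (-t)
    rw [add_neg_cancel, τ0] at this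
    linear_combination -this
  -- the Weyl elements
  have hW : ∀ t : F, t ≠ 0 → (x t * y (-t⁻¹) * x t).1 0 0 = 0 := by
    intro t ht
    simp
    field_simp
    ring
  have hW1 : ∀ t : F, t ≠ 0 → (x t * y (-t⁻¹) * x t).1 1 0 = - t⁻¹ := by
    intro t ht
    simp
  have key : ∀ t : F, t ≠ 0 → 1 + σ t * τ (-t⁻¹) = 0 := by
    intro t ht
    -- conjugate `x 1` by the Weyl element
    have h2 : (x t * y (-t⁻¹) * x t) * x 1 * (x t * y (-t⁻¹) * x t)⁻¹ =
        y (-(t⁻¹ * t⁻¹)) := by
      rw [conj_x_of_00 (hW t ht), hW1 t ht]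
      congr 1
      ring
    have h3 := congrArg φ h2
    rw [map_mul, map_mul, map_inv, hx1, hτ] at h3
    have h4 : φ (x t * y (-t⁻¹) * x t) = mkP (x (σ t) * y (τ (-t⁻¹)) * x (σ t)) := by
      rw [map_mul, map_mul, hσ, hτ]
      simp only [map_mul]
    rw [h4, ← map_inv, ← map_mul, ← map_mul] at h3
    set M := x (σ t) * y (τ (-t⁻¹)) * x (σ t) with hM
    have hM00 : M.1 0 0 = 1 + σ t * τ (-t⁻¹) := by
      simp [hM]
    rcases mkP_eq_iff.1 h3 with h5 | h5
    · have h6 := congrArg (fun A : SL(2, F') => A.1 0 1) h5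
      simp only [y_01] at h6
      rw [conj_x_01] at h6
      rw [← hM00]
      have : M.1 0 0 * M.1 0 0 = 0 := by linear_combination -h6
      exact mul_self_eq_zero.1 this
    · have h6 := congrArg (fun A : SL(2, F') => A.1 0 1) h5
      simp only [y_01, neg_01] at h6
      rw [conj_x_01] at h6
      rw [← hM00]
      have : M.1 0 0 * M.1 0 0 = 0 := by linear_combination h6
      exact mul_self_eq_zero.1 this
  have hτ1 : τ (-1) = -1 := by
    have := key 1 one_ne_zero
    rw [inv_one, h1, one_mul] at this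
    linear_combination this
  -- `φ` fixes the Weyl element
  have hγW : φ (x 1 * y (-1) * x 1) = mkP (x 1 * y (-1) * x 1) := by
    rw [map_mul, map_mul, hx1, hτ, hτ1]
    simp only [map_mul]
  have hW00 : (x (1 : F) * y (-1) * x 1).1 0 0 = 0 := by
    have := hW 1 one_ne_zero
    simpa using this
  have hW10 : (x (1 : F) * y (-1) * x 1).1 1 0 = -1 := by
    have := hW1 1 one_ne_zero
    simpa using this
  have hW00' : (x (1 : F') * y (-1) * x 1).1 0 0 = 0 := by
    simp
  have hW10' : (x (1 : F') * y (-1) * x 1).1 1 0 = -1 := by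
    simp
  have hτσ : ∀ s, τ (-s) = - σ s := by
    intro s
    apply yb_injective
    have h2 : (x (1 : F) * y (-1) * x 1) * x s * (x (1 : F) * y (-1) * x 1)⁻¹ = y (-s) := by
      rw [conj_x_of_00 hW00, hW10]
      congr 1
      ring
    have h3 := congrArg φ h2
    rw [map_mul, map_mul, map_inv, hγW, hσ, hτ, ← map_inv, ← map_mul, ← map_mul,
      conj_x_of_00 hW00', hW10'] at h3
    have h4 : -((-1 : F') * (-1) * σ s) = - σ s := by ring
    rw [h4] at h3
    exact h3.symm
  have hτeq : ∀ s, τ s = σ s := by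
    intro s
    have := hτσ (-s)
    rw [neg_neg, σneg] at this
    rw [this, neg_neg]
  have hinv : ∀ t, σ t⁻¹ = (σ t)⁻¹ := by
    intro t
    by_cases ht : t = 0
    · simp [ht, σ0]
    · have h2 := key t ht
      rw [hτσ] at h2
      have h3 : σ t * σ t⁻¹ = 1 := by linear_combination -h2
      exact eq_inv_of_mul_eq_one_right h3
  have σinj : Function.Injective σ := by
    intro s t h
    by_contra hst
    have hne : s - t ≠ 0 := sub_ne_zero.2 hst
    have h2 := key _ hne
    rw [hτσ] at h2
    have h3 : σ (s - t) = 0 := by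
      rw [sub_eq_add_neg, σadd, σneg, h, add_neg_cancel]
    rw [h3, zero_mul] at h2
    simp at h2
  have hmul := mul_of_inv' h2F' σadd h1 σinj hinv
  let f : F →+* F' :=
    { toFun := σ
      map_one' := h1
      map_mul' := hmul
      map_zero' := σ0
      map_add' := σadd }
  refine ⟨f, fun t => hσ t, fun t => ?_⟩
  rw [hτ, hτeq]
  rfl

end Main

end Cfsg.Agent.Lib.Linalg.Quad.Rigid
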