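import Cfsg.Agent.Lib.Linalg.Quad.Dich
import Mathlib

/-!
# The logarithm spaces of the root subgroups of a quadratic pair
-/

set_option autoImplicit false

namespace Cfsg.Agent.Lib.Linalg.Quad.Root

open Polynomial
open Cfsg.Agent.Lib.Linalg.Quad.Dich

variable {k : Type*} [Field k] {M : Type*} [AddCommGroup M] [Module k M]

/-- The logarithm of an element. -/
abbrev NN (g : LinearMap.GeneralLinearGroup k M) : M →ₗ[k] M := (g : M →ₗ[k] M) - 1

lemma val_eq_one_add (g : LinearMap.GeneralLinearGroup k M) : (g : M →ₗ[k] M) = 1 + NN g := by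
  simp [NN]

lemma NN_oa {z : M →ₗ[k] M} (hz : z * z = 0) : NN (oa z hz 1) = z := by
  simp [NN]

lemma NN_eq_zero {g : LinearMap.GeneralLinearGroup k M} (h : NN g = 0) : g = 1 :=
  Units.ext (sub_eq_zero.1 h)

variable [FiniteDimensional k M] {G : Subgroup (LinearMap.GeneralLinearGroup k M)}

lemma mul_eq_zero_of_same {x z z' : M →ₗ[k] M} (hx : x * x = 0) (h1 : LinearMap.ker z = LinearMap.ker x)
    (h2 : LinearMap.range z' = LinearMap.range x) : z * z' = 0 := by
  ext v
  have h3 : z' v ∈ LinearMap.range x := by rw [← h2]; exact ⟨v, rfl⟩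
  obtain ⟨w, hw⟩ := h3
  have h4 : z' v ∈ LinearMap.ker z := by
    rw [h1, LinearMap.mem_ker, ← hw]
    exact congrArg (fun f : M →ₗ[k] M => f w) hx
  simpa using h4

omit [FiniteDimensional k M] in
lemma rk_smul {c : k} (hc : c ≠ 0) (z : M →ₗ[k] M) : LinearMap.range (c • z) = LinearMap.range z :=
  LinearMap.range_smul _ _ hc

omit [FiniteDimensional k M] in
lemma ker_smul' {c : k} (hc : c ≠ 0) (z : M →ₗ[k] M) : LinearMap.ker (c • z) = LinearMap.ker z :=
  LinearMap.ker_smul _ _ hc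

/-- Same kernel and image. -/
structure Same (x z : M →ₗ[k] M) : Prop where
  ker_eq : LinearMap.ker z = LinearMap.ker x
  range_eq : LinearMap.range z = LinearMap.range x

omit [FiniteDimensional k M] in
lemma Same.symm {x z : M →ₗ[k] M} (h : Same x z) : Same z x := ⟨h.1.symm, h.2.symm⟩

omit [FiniteDimensional k M] in
lemma Same.trans {x z w : M →ₗ[k] M} (h : Same x z) (h' : Same z w) : Same x w :=
  ⟨h'.1.trans h.1, h'.2.trans h.2⟩

omit [FiniteDimensional k M] in
lemma Same.refl (x : M →ₗ[k] M) : Same x x := ⟨rfl, rfl⟩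

omit [FiniteDimensional k M] in
lemma Same.rk_eq {x z : M →ₗ[k] M} (h : Same x z) : rk z = rk x := by
  unfold rk; rw [h.2]

/-- The sum of two minimal logarithms with the same action. -/
lemma minLog_add {x z z' : M →ₗ[k] M} (hx : MinLog G x) (hz : MinLog G z) (hz' : MinLog G z') (h1 : Same x z)
    (h2 : Same x z') (h0 : z + z' ≠ 0) : MinLog G (z + z') ∧ Same x (z + z') := by
  have hxx := hx.sq
  have e1 : z * z' = 0 := mul_eq_zero_of_same hxx h1.1 h2.2
  have e2 : z' * z = 0 := mul_eq_zero_of_same hxx h2.1 h1.2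
  have e3 := hz.sq
  have e4 := hz'.sq
  have hsq : (z + z') * (z + z') = 0 := by
    rw [mul_add, add_mul, add_mul, e1, e2, e3, e4]; simp
  have hmem : ∀ (c : k) (u : LinearMap.GeneralLinearGroup k M), (u : M →ₗ[k] M) = 1 + c • (z + z') → u ∈ G := by
    intro c u hu
    have : u = oa z e3 c * oa z' e4 c := by
      apply Units.ext
      rw [hu, Units.val_mul, oa_val, oa_val, smul_add, add_mul, mul_add, mul_add, one_mul, one_mul, mul_one,
        smul_mul_assoc, mul_smul_comm, e1, smul_zero, smul_zero, add_zero, add_assoc, add_comm (c • z')]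
    rw [this]
    exact G.mul_mem (hz.oa_mem c) (hz'.oa_mem c)
  have hlog : LogQ G (z + z') := ⟨hsq, h0, hmem⟩
  have hrle : LinearMap.range (z + z') ≤ LinearMap.range x := by
    rintro _ ⟨v, rfl⟩
    rw [LinearMap.add_apply]
    apply Submodule.add_mem
    · rw [← h1.2]; exact ⟨v, rfl⟩
    · rw [← h2.2]; exact ⟨v, rfl⟩
  have hmin := hx.min _ hlog
  have hr : LinearMap.range (z + z') = LinearMap.range x :=
    Submodule.eq_of_le_of_finrank_le hrle hmin
  have hkle : LinearMap.ker x ≤ LinearMap.ker (z + z') := by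
    intro v hv
    have h6 : z v = 0 := by
      have : v ∈ LinearMap.ker z := by rw [h1.1]; exact hv
      exact this
    have h7 : z' v = 0 := by
      have : v ∈ LinearMap.ker z' := by rw [h2.1]; exact hv
      exact this
    rw [LinearMap.mem_ker, LinearMap.add_apply, h6, h7, add_zero]
  have hk : LinearMap.ker (z + z') = LinearMap.ker x := by
    symm
    apply Submodule.eq_of_le_of_finrank_le hkle
    have h8 := LinearMap.finrank_range_add_finrank_ker (z + z')
    have h9 := LinearMap.finrank_range_add_finrank_ker x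
    rw [hr] at h8
    omega
  refine ⟨⟨hlog, fun w hw => ?_⟩, hk, hr⟩
  have : rk (z + z') = rk x := by unfold rk; rw [hr]
  rw [this]
  exact hx.min w hw

omit [FiniteDimensional k M] in
lemma minLog_smul {z : M →ₗ[k] M} (hz : MinLog G z) {c : k} (hc : c ≠ 0) : MinLog G (c • z) ∧ Same z (c • z) := by
  have hs : Same z (c • z) := ⟨ker_smul' hc z, rk_smul hc z⟩
  refine ⟨⟨⟨?_, smul_ne_zero hc hz.ne, ?_⟩, fun w hw => ?_⟩, hs⟩
  · rw [smul_mul_assoc, mul_smul_comm, hz.sq, smul_zero, smul_zero]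
  · intro c' u hu
    apply hz.mem (c' * c) u
    rw [hu, mul_smul]
  · rw [hs.rk_eq]
    exact hz.min w hw

/-- The logarithm space of a root subgroup. -/
def LL {x : M →ₗ[k] M} (hx : MinLog G x) : Submodule k (M →ₗ[k] M) where
  carrier := {z | z = 0 ∨ (MinLog G z ∧ Same x z)}
  add_mem' := by
    rintro a b (rfl | ⟨ha, ha'⟩) (rfl | ⟨hb, hb'⟩)
    · left; simp
    · right; simpa using And.intro hb hb'
    · right; simpa using And.intro ha ha'
    · by_cases h0 : a + b = 0
      · exact Or.inl h0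
      · exact Or.inr (minLog_add hx ha hb ha' hb' h0)
  zero_mem' := Or.inl rfl
  smul_mem' := by
    rintro c a (rfl | ⟨ha, ha'⟩)
    · left; simp
    · by_cases hc : c = 0
      · left; simp [hc]
      · obtain ⟨h1, h2⟩ := minLog_smul ha hc
        exact Or.inr ⟨h1, ha'.trans h2⟩

section LL

variable {x : M →ₗ[k] M} (hx : MinLog G x)
include hx

lemma mem_LL_iff {z : M →ₗ[k] M} : z ∈ LL hx ↔ z = 0 ∨ (MinLog G z ∧ Same x z) := Iff.rfl

lemma self_mem_LL : x ∈ LL hx := Or.inr ⟨hx, Same.refl x⟩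

lemma minLog_of_mem_LL {z : M →ₗ[k] M} (hz : z ∈ LL hx) (h0 : z ≠ 0) : MinLog G z :=
  (hz.resolve_left h0).1

lemma same_of_mem_LL {z : M →ₗ[k] M} (hz : z ∈ LL hx) (h0 : z ≠ 0) : Same x z :=
  (hz.resolve_left h0).2

lemma LL_mul {z z' : M →ₗ[k] M} (hz : z ∈ LL hx) (hz' : z' ∈ LL hx) : z * z' = 0 := by
  rcases hz with rfl | ⟨_, h⟩
  · simp
  rcases hz' with rfl | ⟨_, h'⟩
  · simp
  exact mul_eq_zero_of_same hx.sq h.1 h'.2

lemma LL_sq {z : M →ₗ[k] M} (hz : z ∈ LL hx) : z * z = 0 := LL_mul hx hz hz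

lemma LL_range_le {z : M →ₗ[k] M} (hz : z ∈ LL hx) : LinearMap.range z ≤ LinearMap.range x := by
  rcases hz with rfl | ⟨_, h⟩
  · simp
  · exact h.2.le

lemma LL_ker_le {z : M →ₗ[k] M} (hz : z ∈ LL hx) : LinearMap.ker x ≤ LinearMap.ker z := by
  rcases hz with rfl | ⟨_, h⟩
  · simp
  · exact h.1.ge

lemma LL_mem_of_same {z : M →ₗ[k] M} (hz : MinLog G z) (h : Same x z) : z ∈ LL hx := Or.inr ⟨hz, h⟩

lemma LL_eq_of_mem {z : M →ₗ[k] M} (hz : MinLog G z) (h : Same x z) : LL hz = LL hx := by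
  ext w
  constructor
  · rintro (rfl | ⟨h1, h2⟩)
    · exact Or.inl rfl
    · exact Or.inr ⟨h1, h.trans h2⟩
  · rintro (rfl | ⟨h1, h2⟩)
    · exact Or.inl rfl
    · exact Or.inr ⟨h1, h.symm.trans h2⟩

end LL

omit [FiniteDimensional k M] in
lemma eq_oa (g : LinearMap.GeneralLinearGroup k M) (h : NN g * NN g = 0) : g = oa (NN g) h 1 := by
  apply Units.ext
  simp

variable {σ : LinearMap.GeneralLinearGroup k M}

lemma mem_quadratic_of_log {g : LinearMap.GeneralLinearGroup k M} (h : MinLog G (NN g)) :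
    g ∈ Cfsg.minimalQuadraticElements G := by
  have := mem_of_minLog h
  rwa [← eq_oa g h.sq] at this

lemma mem_class_iff (hσ : σ ∈ Cfsg.minimalQuadraticElements G) {g : LinearMap.GeneralLinearGroup k M} :
    g ∈ Cfsg.sameActionClass G σ ↔ MinLog G (NN g) ∧ Same (NN σ) (NN g) := by
  constructor
  · rintro ⟨h1, h2, h3⟩
    exact ⟨minLog_of_mem h1, h2, h3⟩
  · rintro ⟨h1, h2⟩
    exact ⟨mem_quadratic_of_log h1, h2.1, h2.2⟩

/-- The elements of a root subgroup. -/
theorem mem_E_iff (hσ : σ ∈ Cfsg.minimalQuadraticElements G) {g : LinearMap.GeneralLinearGroup k M} :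
    g ∈ Cfsg.sameActionSubgroup G σ ↔ NN g ∈ LL (minLog_of_mem hσ) := by
  have hx := minLog_of_mem hσ
  constructor
  · intro hg
    induction hg using Subgroup.closure_induction with
    | mem g hg =>
      obtain ⟨h1, h2⟩ := (mem_class_iff hσ).1 hg
      exact Or.inr ⟨h1, h2⟩
    | one => exact Or.inl (by simp [NN])
    | mul a b _ _ ha hb =>
      have e : NN (a * b) = NN a + NN b + NN a * NN b := by
        simp only [NN, Units.val_mul, sub_mul, mul_sub, one_mul, mul_one]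
        abel
      rw [e, LL_mul hx ha hb, add_zero]
      exact Submodule.add_mem _ ha hb
    | inv a _ ha =>
      have e : NN a⁻¹ = - NN a := by
        have h1 := LL_sq hx ha
        have h2 : a⁻¹ = oa (NN a) h1 (-1) := by
          have h3 := oa_inv (NN a) h1 1
          rwa [← eq_oa a h1] at h3
        rw [h2]
        simp [NN]
      rw [e]
      exact Submodule.neg_mem _ ha
  · rintro (h | ⟨h1, h2⟩)
    · rw [NN_eq_zero h]
      exact one_mem _
    · exact Subgroup.subset_closure ((mem_class_iff hσ).2 ⟨h1, h2⟩)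

lemma oa_mem_E (hσ : σ ∈ Cfsg.minimalQuadraticElements G) {z : M →ₗ[k] M} (hz : z ∈ LL (minLog_of_mem hσ))
    (hzz : z * z = 0) (c : k) : oa z hzz c ∈ Cfsg.sameActionSubgroup G σ := by
  rw [mem_E_iff hσ]
  simpa [NN] using Submodule.smul_mem _ c hz

/-! ### Conjugation -/

omit [FiniteDimensional k M] in
lemma conj_mul_conj (g : LinearMap.GeneralLinearGroup k M) (z w : M →ₗ[k] M) :
    ((g : M →ₗ[k] M) * z * (g⁻¹ : LinearMap.GeneralLinearGroup k M)) *
      ((g : M →ₗ[k] M) * w * (g⁻¹ : LinearMap.GeneralLinearGroup k M)) =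
    (g : M →ₗ[k] M) * (z * w) * (g⁻¹ : LinearMap.GeneralLinearGroup k M) := by
  have h : ((g⁻¹ : LinearMap.GeneralLinearGroup k M) : M →ₗ[k] M) * (g : M →ₗ[k] M) = 1 := by
    rw [← Units.val_mul]; simp
  calc _ = (g : M →ₗ[k] M) * z * (((g⁻¹ : LinearMap.GeneralLinearGroup k M) : M →ₗ[k] M) * (g : M →ₗ[k] M)) * w *
        (g⁻¹ : LinearMap.GeneralLinearGroup k M) := by noncomm_ring
    _ = _ := by rw [h]; noncomm_ring

/-- The conjugate of an endomorphism. -/
noncomputable abbrev cj (g : LinearMap.GeneralLinearGroup k M) (z : M →ₗ[k] M) : M →ₗ[k] M :=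
  (g : M →ₗ[k] M) * z * (g⁻¹ : LinearMap.GeneralLinearGroup k M)

omit [FiniteDimensional k M] in
lemma cj_mul (g : LinearMap.GeneralLinearGroup k M) (z w : M →ₗ[k] M) : cj g z * cj g w = cj g (z * w) :=
  conj_mul_conj g z w

omit [FiniteDimensional k M] in
lemma cj_inv_cj (g : LinearMap.GeneralLinearGroup k M) (z : M →ₗ[k] M) : cj g⁻¹ (cj g z) = z := by
  have h : ((g⁻¹ : LinearMap.GeneralLinearGroup k M) : M →ₗ[k] M) * (g : M →ₗ[k] M) = 1 := by
    rw [← Units.val_mul]; simp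
  simp only [cj, inv_inv]
  calc _ = (((g⁻¹ : LinearMap.GeneralLinearGroup k M) : M →ₗ[k] M) * (g : M →ₗ[k] M)) * z *
        (((g⁻¹ : LinearMap.GeneralLinearGroup k M) : M →ₗ[k] M) * (g : M →ₗ[k] M)) := by noncomm_ring
    _ = _ := by rw [h]; noncomm_ring

omit [FiniteDimensional k M] in
lemma cj_cj_inv (g : LinearMap.GeneralLinearGroup k M) (z : M →ₗ[k] M) : cj g (cj g⁻¹ z) = z := by
  have := cj_inv_cj g⁻¹ z
  rwa [inv_inv] at this

omit [FiniteDimensional k M] in
lemma cj_add (g : LinearMap.GeneralLinearGroup k M) (z w : M →ₗ[k] M) : cj g (z + w) = cj g z + cj g w := by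
  simp only [cj, mul_add, add_mul]

omit [FiniteDimensional k M] in
lemma cj_one (g : LinearMap.GeneralLinearGroup k M) : cj g (1 : M →ₗ[k] M) = 1 := by
  have h1 : (g : M →ₗ[k] M) * ((g⁻¹ : LinearMap.GeneralLinearGroup k M) : M →ₗ[k] M) = 1 := by
    rw [← Units.val_mul]; simp
  simp only [cj, mul_one, h1]

omit [FiniteDimensional k M] in
lemma cj_smul (g : LinearMap.GeneralLinearGroup k M) (c : k) (z : M →ₗ[k] M) : cj g (c • z) = c • cj g z := by
  simp only [cj, mul_smul_comm, smul_mul_assoc]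

omit [FiniteDimensional k M] in
lemma NN_conj (g h : LinearMap.GeneralLinearGroup k M) : NN (g * h * g⁻¹) = cj g (NN h) := by
  have h1 : (g : M →ₗ[k] M) * ((g⁻¹ : LinearMap.GeneralLinearGroup k M) : M →ₗ[k] M) = 1 := by
    rw [← Units.val_mul]; simp
  simp only [NN, cj, Units.val_mul, mul_sub, sub_mul, mul_one]
  rw [h1]

omit [FiniteDimensional k M] in
lemma mem_ker_cj (g : LinearMap.GeneralLinearGroup k M) (z : M →ₗ[k] M) (v : M) :
    v ∈ LinearMap.ker (cj g z) ↔ ((g⁻¹ : LinearMap.GeneralLinearGroup k M) : M →ₗ[k] M) v ∈ LinearMap.ker z := by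
  have h1 : ∀ w : M, ((g⁻¹ : LinearMap.GeneralLinearGroup k M) : M →ₗ[k] M) ((g : M →ₗ[k] M) w) = w := by
    intro w
    have h : ((g⁻¹ : LinearMap.GeneralLinearGroup k M) : M →ₗ[k] M) * (g : M →ₗ[k] M) = 1 := by
      rw [← Units.val_mul]; simp
    exact congrArg (fun f : M →ₗ[k] M => f w) h
  simp only [LinearMap.mem_ker, cj, Module.End.mul_apply]
  constructor
  · intro h
    have := congrArg ((g⁻¹ : LinearMap.GeneralLinearGroup k M) : M →ₗ[k] M) h
    rwa [h1, map_zero] at this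
  · intro h
    rw [h, map_zero]

omit [FiniteDimensional k M] in
lemma mem_range_cj (g : LinearMap.GeneralLinearGroup k M) (z : M →ₗ[k] M) (v : M) :
    v ∈ LinearMap.range (cj g z) ↔ ((g⁻¹ : LinearMap.GeneralLinearGroup k M) : M →ₗ[k] M) v ∈ LinearMap.range z := by
  have h1 : ∀ w : M, ((g⁻¹ : LinearMap.GeneralLinearGroup k M) : M →ₗ[k] M) ((g : M →ₗ[k] M) w) = w := by
    intro w
    have h : ((g⁻¹ : LinearMap.GeneralLinearGroup k M) : M →ₗ[k] M) * (g : M →ₗ[k] M) = 1 := by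
      rw [← Units.val_mul]; simp
    exact congrArg (fun f : M →ₗ[k] M => f w) h
  have h2 : ∀ w : M, (g : M →ₗ[k] M) (((g⁻¹ : LinearMap.GeneralLinearGroup k M) : M →ₗ[k] M) w) = w := by
    intro w
    have h : (g : M →ₗ[k] M) * ((g⁻¹ : LinearMap.GeneralLinearGroup k M) : M →ₗ[k] M) = 1 := by
      rw [← Units.val_mul]; simp
    exact congrArg (fun f : M →ₗ[k] M => f w) h
  constructor
  · rintro ⟨u, rfl⟩
    simp only [cj, Module.End.mul_apply]
    rw [h1]
    exact ⟨_, rfl⟩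
  · rintro ⟨u, hu⟩
    refine ⟨(g : M →ₗ[k] M) u, ?_⟩
    simp only [cj, Module.End.mul_apply]
    rw [h1, hu, h2]

omit [FiniteDimensional k M] in
lemma Same.cj {x z : M →ₗ[k] M} (h : Same x z) (g : LinearMap.GeneralLinearGroup k M) : Same (cj g x) (cj g z) := by
  constructor
  · ext v
    rw [mem_ker_cj, mem_ker_cj, h.1]
  · ext v
    rw [mem_range_cj, mem_range_cj, h.2]

omit [FiniteDimensional k M] in
lemma rk_cj (g : LinearMap.GeneralLinearGroup k M) (z : M →ₗ[k] M) : rk (cj g z) = rk z := by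
  unfold rk
  have : LinearMap.range (cj g z) = (LinearMap.range z).map ((g : M →ₗ[k] M)) := by
    ext v
    rw [mem_range_cj]
    constructor
    · intro h
      refine ⟨_, h, ?_⟩
      have h' : (g : M →ₗ[k] M) * ((g⁻¹ : LinearMap.GeneralLinearGroup k M) : M →ₗ[k] M) = 1 := by
        rw [← Units.val_mul]; simp
      exact congrArg (fun f : M →ₗ[k] M => f v) h'
    · rintro ⟨u, hu, rfl⟩
      have h' : ((g⁻¹ : LinearMap.GeneralLinearGroup k M) : M →ₗ[k] M) * (g : M →ₗ[k] M) = 1 := by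
        rw [← Units.val_mul]; simp
      have := congrArg (fun f : M →ₗ[k] M => f u) h'
      simp only [Module.End.mul_apply, Module.End.one_apply] at this
      rw [this]
      exact hu
  rw [this]
  have hinj : Function.Injective ((g : M →ₗ[k] M)) := by
    have h' : ((g⁻¹ : LinearMap.GeneralLinearGroup k M) : M →ₗ[k] M) * (g : M →ₗ[k] M) = 1 := by
      rw [← Units.val_mul]; simp
    intro a b hab
    have := congrArg ((g⁻¹ : LinearMap.GeneralLinearGroup k M) : M →ₗ[k] M) hab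
    have e : ∀ w, ((g⁻¹ : LinearMap.GeneralLinearGroup k M) : M →ₗ[k] M) ((g : M →ₗ[k] M) w) = w :=
      fun w => congrArg (fun f : M →ₗ[k] M => f w) h'
    rwa [e, e] at this
  exact (LinearEquiv.finrank_eq (Submodule.equivMapOfInjective _ hinj _)).symm

omit [FiniteDimensional k M] in
lemma minLog_cj {z : M →ₗ[k] M} (hz : MinLog G z) {g : LinearMap.GeneralLinearGroup k M} (hg : g ∈ G) :
    MinLog G (cj g z) := by
  refine ⟨⟨?_, ?_, ?_⟩, fun w hw => ?_⟩
  · rw [cj_mul, hz.sq]; simp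
  · intro h0
    apply hz.ne
    have := cj_inv_cj g z
    rw [h0] at this
    simpa [cj] using this.symm
  · intro c u hu
    have h1 : g⁻¹ * u * g ∈ G := by
      apply hz.mem c
      have e : ((g⁻¹ * u * g : LinearMap.GeneralLinearGroup k M) : M →ₗ[k] M) = cj g⁻¹ (u : M →ₗ[k] M) := by
        simp [cj]
      rw [e, hu, cj_add, cj_one, cj_smul, cj_inv_cj]
    have : u = g * (g⁻¹ * u * g) * g⁻¹ := by group
    rw [this]
    exact G.mul_mem (G.mul_mem hg h1) (G.inv_mem hg)
  · rw [rk_cj]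
    exact hz.min w hw


/-- Conjugates of the minimal elements. -/
lemma conj_mem_min (hσ : σ ∈ Cfsg.minimalQuadraticElements G) {g : LinearMap.GeneralLinearGroup k M} (hg : g ∈ G) :
    g * σ * g⁻¹ ∈ Cfsg.minimalQuadraticElements G := by
  apply mem_quadratic_of_log
  rw [NN_conj]
  exact minLog_cj (minLog_of_mem hσ) hg

lemma conj_mem_E_le (hσ : σ ∈ Cfsg.minimalQuadraticElements G) {g : LinearMap.GeneralLinearGroup k M} (hg : g ∈ G)
    {h : LinearMap.GeneralLinearGroup k M} (hh : h ∈ Cfsg.sameActionSubgroup G σ) :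
    g * h * g⁻¹ ∈ Cfsg.sameActionSubgroup G (g * σ * g⁻¹) := by
  rw [mem_E_iff (conj_mem_min hσ hg)]
  rw [mem_E_iff hσ] at hh
  rcases hh with h0 | ⟨h1, h2⟩
  · left
    rw [NN_eq_zero h0]
    simp [NN]
  · right
    have e1 := NN_conj g h
    have e2 := NN_conj g σ
    simp only [NN] at e1 e2 ⊢
    rw [e1, e2]
    exact ⟨minLog_cj h1 hg, h2.cj g⟩

/-- Conjugation of the root subgroups. -/
theorem conjBy_E (hσ : σ ∈ Cfsg.minimalQuadraticElements G) {g : LinearMap.GeneralLinearGroup k M} (hg : g ∈ G) :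
    Cfsg.conjBy (Cfsg.sameActionSubgroup G σ) g = Cfsg.sameActionSubgroup G (g * σ * g⁻¹) := by
  apply le_antisymm
  · rintro _ ⟨h, hh, rfl⟩
    exact conj_mem_E_le hσ hg hh
  · intro h hh
    refine ⟨g⁻¹ * h * g, ?_, by simp [mul_assoc]⟩
    have h1 := conj_mem_E_le (conj_mem_min hσ hg) (G.inv_mem hg) hh
    have e1 : g⁻¹ * (g * σ * g⁻¹) * g⁻¹⁻¹ = σ := by group
    have e2 : g⁻¹ * h * g⁻¹⁻¹ = g⁻¹ * h * g := by group
    rwa [e1, e2] at h1

end Cfsg.Agent.Lib.Linalg.Quad.Root
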