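import Cfsg.Agent.Lib.Linalg.Quad.NType
import Cfsg.Agent.Lib.Linalg.Quad.FieldGen
import Mathlib

/-!
# The representation of `SL₂(K)` attached to an exact pair
-/

set_option autoImplicit false

namespace Cfsg.Agent.Lib.Linalg.Quad.SL2Rep

open Polynomial Matrix Matrix.SpecialLinearGroup
open scoped MatrixGroups
open Cfsg.Agent.Lib.PSL2.Basic (sl2 mul_00 mul_01 mul_10 mul_11 one_00 one_01 one_10 one_11 ext2)
open Cfsg.Agent.Lib.Linalg.Quad.Dich Cfsg.Agent.Lib.Linalg.Quad.Psi Cfsg.Agent.Lib.Linalg.Quad.Root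
  Cfsg.Agent.Lib.Linalg.Quad.Pair

variable {k : Type*} [Field k] {M : Type*} [AddCommGroup M] [Module k M]

section Abstract

variable {A : Type*} [Ring A]

/-- The multiplication table of the matrix units. -/
lemma rho_mul {x y : A} (hxx : x * x = 0) (hyy : y * y = 0) (hxyx : x * y * x = x) (hyxy : y * x * y = y)
    {a b c d a' b' c' d' : A} (h1 : Commute a' x) (h2 : Commute a' y) (h3 : Commute b' x) (h4 : Commute b' y)
    (h5 : Commute c' x) (h6 : Commute c' y) (h7 : Commute d' x) (h8 : Commute d' y) :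
    (a * (x * y) + b * x + c * y + d * (y * x)) * (a' * (x * y) + b' * x + c' * y + d' * (y * x)) =
      (a * a' + b * c') * (x * y) + (a * b' + b * d') * x + (c * a' + d * c') * y + (c * b' + d * d') * (y * x) := by
  have hxx' : ∀ u, x * (x * u) = 0 := fun u => by rw [← mul_assoc, hxx, zero_mul]
  have hyy' : ∀ u, y * (y * u) = 0 := fun u => by rw [← mul_assoc, hyy, zero_mul]
  have r1 : x * (y * x) = x := by rw [← mul_assoc, hxyx]
  have r2 : y * (x * y) = y := by rw [← mul_assoc, hyxy]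
  have r3 : ∀ u, x * (y * (x * u)) = x * u := fun u => by
    calc x * (y * (x * u)) = (x * y * x) * u := by noncomm_ring
      _ = x * u := by rw [hxyx]
  have r4 : ∀ u, y * (x * (y * u)) = y * u := fun u => by
    calc y * (x * (y * u)) = (y * x * y) * u := by noncomm_ring
      _ = y * u := by rw [hyxy]
  have c1 : ∀ (p : A), Commute p x → ∀ u, x * (p * u) = p * (x * u) := fun p hp u => by
    rw [← mul_assoc, ← hp.eq, mul_assoc]
  have c2 : ∀ (p : A), Commute p y → ∀ u, y * (p * u) = p * (y * u) := fun p hp u => by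
    rw [← mul_assoc, ← hp.eq, mul_assoc]
  have c3 : ∀ (p : A), Commute p x → x * p = p * x := fun p hp => hp.eq.symm
  have c4 : ∀ (p : A), Commute p y → y * p = p * y := fun p hp => hp.eq.symm
  simp only [add_mul, mul_add, mul_assoc, c1 a' h1, c1 b' h3, c1 c' h5, c1 d' h7, c2 a' h2, c2 b' h4, c2 c' h6,
    c2 d' h8, c3 b' h3, c3 c' h5, c4 b' h4, c4 c' h6, hxx, hyy, hxx', hyy', r1, r2, r3, r4, mul_zero, add_zero,
    zero_add]
  abel

end Abstract

/-- The data of a representation of `K`. -/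
structure Kappa {K : Type*} [Field K] (x y : M →ₗ[k] M) (κ : K → M →ₗ[k] M) : Prop where
  add : ∀ a b, κ (a + b) = κ a + κ b
  mul : ∀ a b, κ (a * b) = κ a * κ b
  one : κ 1 = pi x y
  comm_x : ∀ a, Commute (κ a) x
  comm_y : ∀ a, Commute (κ a) y

section Rep

variable {K : Type*} [Field K] {x y : M →ₗ[k] M} {κ : K → M →ₗ[k] M}

lemma Kappa.zero (h : Kappa x y κ) : κ 0 = 0 := by
  have := h.add 0 0
  rw [add_zero] at this
  exact left_eq_add.1 this

lemma Kappa.pi_mul (h : Kappa x y κ) (a : K) : pi x y * κ a = κ a := by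
  rw [← h.one, ← h.mul, one_mul]

lemma Kappa.mul_pi (h : Kappa x y κ) (a : K) : κ a * pi x y = κ a := by
  rw [← h.one, ← h.mul, mul_one]

/-- The non-unital matrix representation. -/
noncomputable def rho (x y : M →ₗ[k] M) (κ : K → M →ₗ[k] M) (a b c d : K) : M →ₗ[k] M :=
  κ a * (x * y) + κ b * x + κ c * y + κ d * (y * x)

/-- The representation. -/
noncomputable def Th0 (x y : M →ₗ[k] M) (κ : K → M →ₗ[k] M) (g : SL(2, K)) : M →ₗ[k] M :=
  1 - pi x y + rho x y κ (g.1 0 0) (g.1 0 1) (g.1 1 0) (g.1 1 1)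

lemma rho_pi (hE : Exact x y) (hκ : Kappa x y κ) (a b c d : K) : pi x y * rho x y κ a b c d = rho x y κ a b c d := by
  have hA := pi_x hE
  have hB := pi_y hE
  have e1 : ∀ p : K, pi x y * (κ p) = κ p := hκ.pi_mul
  simp only [rho, mul_add, ← mul_assoc, e1]

lemma pi_rho (hE : Exact x y) (hκ : Kappa x y κ) (a b c d : K) : rho x y κ a b c d * pi x y = rho x y κ a b c d := by
  have hA := x_pi hE
  have hB := y_pi hE
  simp only [rho, add_mul, mul_assoc, hA, hB]

lemma rho_mul' (hE : Exact x y) (hκ : Kappa x y κ) (a b c d a' b' c' d' : K) :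
    rho x y κ a b c d * rho x y κ a' b' c' d' =
      rho x y κ (a * a' + b * c') (a * b' + b * d') (c * a' + d * c') (c * b' + d * d') := by
  unfold rho
  rw [rho_mul hE.xx hE.yy hE.xyx hE.yxy (hκ.comm_x _) (hκ.comm_y _) (hκ.comm_x _) (hκ.comm_y _) (hκ.comm_x _)
    (hκ.comm_y _) (hκ.comm_x _) (hκ.comm_y _)]
  simp only [hκ.add, hκ.mul]

lemma Th0_mul (hE : Exact x y) (hκ : Kappa x y κ) (g g' : SL(2, K)) :
    Th0 x y κ (g * g') = Th0 x y κ g * Th0 x y κ g' := by
  unfold Th0
  have e : ∀ P Q : M →ₗ[k] M, (1 - pi x y + P) * (1 - pi x y + Q) =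
      1 - pi x y - pi x y + pi x y * pi x y + P * Q + (Q - pi x y * Q) + (P - P * pi x y) := by
    intro P Q; noncomm_ring
  rw [e, pi_idem hE, rho_pi hE hκ, pi_rho hE hκ, rho_mul' hE hκ, sub_self, sub_self, add_zero, add_zero,
    mul_00, mul_01, mul_10, mul_11]
  simp only [sub_add_cancel]

lemma Th0_one (hE : Exact x y) (hκ : Kappa x y κ) : Th0 x y κ (1 : SL(2, K)) = 1 := by
  unfold Th0 rho
  rw [one_00, one_01, one_10, one_11, hκ.zero, hκ.one, zero_mul, zero_mul, add_zero, add_zero, ← mul_add]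
  show 1 - pi x y + pi x y * pi x y = 1
  rw [pi_idem hE, sub_add_cancel]

/-- The representation as a group homomorphism. -/
noncomputable def Theta (hE : Exact x y) (hκ : Kappa x y κ) : SL(2, K) →* LinearMap.GeneralLinearGroup k M :=
  ({ toFun := Th0 x y κ
     map_one' := Th0_one hE hκ
     map_mul' := Th0_mul hE hκ } : SL(2, K) →* (M →ₗ[k] M)).toHomUnits

@[simp] lemma Theta_val (hE : Exact x y) (hκ : Kappa x y κ) (g : SL(2, K)) :
    ((Theta hE hκ g : LinearMap.GeneralLinearGroup k M) : M →ₗ[k] M) = Th0 x y κ g := rfl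

lemma Theta_x (hE : Exact x y) (hκ : Kappa x y κ) (t : K) :
    ((Theta hE hκ (Cfsg.Agent.Lib.PSL2.Basic.x t) : LinearMap.GeneralLinearGroup k M) : M →ₗ[k] M) = 1 + κ t * x := by
  rw [Theta_val]
  unfold Th0 rho
  simp only [Cfsg.Agent.Lib.PSL2.Basic.x_00, Cfsg.Agent.Lib.PSL2.Basic.x_01, Cfsg.Agent.Lib.PSL2.Basic.x_10,
    Cfsg.Agent.Lib.PSL2.Basic.x_11, hκ.zero, hκ.one, zero_mul, add_zero]
  have e : pi x y * (x * y) + κ t * x + pi x y * (y * x) = pi x y * pi x y + κ t * x := by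
    show _ = pi x y * (x * y + y * x) + _
    rw [mul_add]
    abel
  rw [e, pi_idem hE]
  abel

lemma Theta_y (hE : Exact x y) (hκ : Kappa x y κ) (t : K) :
    ((Theta hE hκ (Cfsg.Agent.Lib.PSL2.Basic.y t) : LinearMap.GeneralLinearGroup k M) : M →ₗ[k] M) = 1 + κ t * y := by
  rw [Theta_val]
  unfold Th0 rho
  simp only [Cfsg.Agent.Lib.PSL2.Basic.y_00, Cfsg.Agent.Lib.PSL2.Basic.y_01, Cfsg.Agent.Lib.PSL2.Basic.y_10,
    Cfsg.Agent.Lib.PSL2.Basic.y_11, hκ.zero, hκ.one, zero_mul, add_zero]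
  have e : pi x y * (x * y) + κ t * y + pi x y * (y * x) = pi x y * pi x y + κ t * y := by
    show _ = pi x y * (x * y + y * x) + _
    rw [mul_add]
    abel
  rw [e, pi_idem hE]
  abel

/-- A scalar killing `x` vanishes. -/
lemma Kappa.eq_zero (hE : Exact x y) (hκ : Kappa x y κ) (hx : x ≠ 0) {a : K} (ha : κ a * x = 0) : a = 0 := by
  by_contra h0
  apply hx
  have h1 : κ (a⁻¹ * a) * x = κ a⁻¹ * (κ a * x) := by rw [hκ.mul, mul_assoc]
  rw [inv_mul_cancel₀ h0, hκ.one, pi_x hE, ha, mul_zero] at h1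
  exact h1

lemma rho_entries (hE : Exact x y) (hκ : Kappa x y κ) (hx : x ≠ 0) {a b c d : K}
    (h : rho x y κ a b c d = pi x y) : a = 1 ∧ b = 0 ∧ c = 0 ∧ d = 1 := by
  have hz := hκ.zero
  have key : ∀ p q r s t u v w : K,
      rho x y κ p q r s * rho x y κ a b c d * rho x y κ t u v w = rho x y κ p q r s * rho x y κ t u v w := by
    intro p q r s t u v w
    rw [h, pi_rho hE hκ]
  have hxyx := hE.xyx
  have sub1 : ∀ p : K, κ (p - 1) = κ p - pi x y := by
    intro p
    have := hκ.add (p - 1) 1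
    rw [sub_add_cancel, hκ.one] at this
    rw [this, add_sub_cancel_right]
  -- entries
  have e1 := key 1 0 0 0 0 0 0 1
  have e2 := key 0 0 0 1 1 0 0 0
  have e3 := key 1 0 0 0 1 0 0 0
  have e4 := key 0 0 0 1 0 0 0 1
  simp only [rho_mul' hE hκ, mul_zero, zero_mul, add_zero, zero_add, one_mul, mul_one] at e1 e2 e3 e4
  simp only [rho, hz, zero_mul, add_zero, zero_add] at e1 e2 e3 e4
  have hle : ∀ p : K, x * (κ p * (y * x)) = κ p * x := by
    intro p
    rw [← mul_assoc, ← (hκ.comm_x p).eq, mul_assoc, ← mul_assoc x, hxyx]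
  have hc0 : κ c * x = 0 := by
    have : x * (κ c * (y * x)) = 0 := by rw [← mul_assoc (κ c), e2, zero_mul, mul_zero]
    rwa [hle] at this
  have ha1 : κ (a - 1) * x = 0 := by
    have : κ a * (x * y) * x = κ 1 * (x * y) * x := by rw [e3]
    have r1 : x * (y * x) = x := by rw [← mul_assoc, hxyx]
    rw [mul_assoc, mul_assoc, r1, mul_assoc (κ 1), mul_assoc x, r1] at this
    rw [sub1, sub_mul, this, hκ.one, sub_self]
  have hd1 : κ (d - 1) * x = 0 := by
    have : x * (κ d * (y * x)) = x * (κ 1 * (y * x)) := by rw [e4]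
    rw [hle, hle] at this
    rw [sub1, sub_mul, this, hκ.one, sub_self]
  refine ⟨sub_eq_zero.1 (hκ.eq_zero hE hx ha1), hκ.eq_zero hE hx e1, hκ.eq_zero hE hx hc0,
    sub_eq_zero.1 (hκ.eq_zero hE hx hd1)⟩

lemma Theta_inj (hE : Exact x y) (hκ : Kappa x y κ) (hx : x ≠ 0) :
    Function.Injective (Theta hE hκ : SL(2, K) → LinearMap.GeneralLinearGroup k M) := by
  rw [injective_iff_map_eq_one]
  intro g hg
  have h1 : Th0 x y κ g = 1 := congrArg Units.val hg
  have h2 : rho x y κ (g.1 0 0) (g.1 0 1) (g.1 1 0) (g.1 1 1) = pi x y := by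
    unfold Th0 at h1
    have := h1
    rw [← sub_eq_zero] at this ⊢
    rw [← this]
    abel
  obtain ⟨h00, h01, h10, h11⟩ := rho_entries hE hκ hx h2
  apply ext2 <;> simp [h00, h01, h10, h11]


/-- The isomorphism from `κ`. -/
theorem iso_of_kappa [FiniteDimensional k M] [Algebra k K] {σ τ : LinearMap.GeneralLinearGroup k M} {α : K} (h2 : (2 : k) ≠ 0)
    (h3 : Nat.card k ≠ 3) (hα0 : α ≠ 0) (halg : IsAlgebraic k α)
    (hsurj : Function.Surjective (aeval α : k[X] →ₐ[k] K)) (hE : Exact (NN σ) y)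
    (hκ : Kappa (NN σ) y κ) (hx : NN σ ≠ 0) (h1 : ∀ c : k, κ (algebraMap k K c) * NN σ = c • NN σ)
    (h4 : ∀ c : k, κ (algebraMap k K c * α) * y = c • NN τ) :
    Nonempty (↥(Subgroup.closure (Cfsg.scalarFamily σ ∪ Cfsg.scalarFamily τ)) ≃* SL(2, K)) := by
  set Θ := Theta hE hκ with hΘ
  have hrange : Θ.range = Subgroup.closure (Cfsg.scalarFamily σ ∪ Cfsg.scalarFamily τ) := by
    apply le_antisymm
    · have htop : (Subgroup.closure (Cfsg.scalarFamily σ ∪ Cfsg.scalarFamily τ)).comap Θ = ⊤ := by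
        apply Cfsg.Agent.Lib.Linalg.Quad.FieldGen.eq_top_of_gen h2 h3 hα0 halg hsurj
        · intro c
          apply Subgroup.subset_closure
          left
          refine ⟨c, ?_⟩
          rw [hΘ, Theta_x, h1]
        · intro c
          apply Subgroup.subset_closure
          right
          refine ⟨c, ?_⟩
          rw [hΘ, Theta_y, h4]
      rintro _ ⟨g, rfl⟩
      have : g ∈ (Subgroup.closure (Cfsg.scalarFamily σ ∪ Cfsg.scalarFamily τ)).comap Θ := by
        rw [htop]; trivial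
      exact this
    · rw [Subgroup.closure_le]
      rintro u (⟨c, hc⟩ | ⟨c, hc⟩)
      · refine ⟨Cfsg.Agent.Lib.PSL2.Basic.x (algebraMap k K c), ?_⟩
        apply Units.ext
        rw [hΘ, Theta_x, h1, hc]
      · refine ⟨Cfsg.Agent.Lib.PSL2.Basic.y (algebraMap k K c * α), ?_⟩
        apply Units.ext
        rw [hΘ, Theta_y, h4, hc]
  have hinj : Function.Injective Θ := Theta_inj hE hκ hx
  exact ⟨((MonoidHom.ofInjective hinj).trans (MulEquiv.subgroupCongr hrange)).symm⟩

end Rep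

/-! ### The concrete scalar representation -/

section Concrete

variable {x y y' : M →ₗ[k] M} {f r s : k[X]}

/-- The scalar representation. -/
noncomputable def kap (x y : M →ₗ[k] M) (f r : k[X]) (a : AdjoinRoot f) : M →ₗ[k] M :=
  aeval (TT x y) (Classical.choose (AdjoinRoot.mk_surjective a) * (r * X))

lemma kap_mk (hxx : x * x = 0) (hyy : y * y = 0) (hfx : aeval (TT x y) f * x = 0) (p : k[X]) :
    kap x y f r (AdjoinRoot.mk f p) = aeval (TT x y) (p * (r * X)) := by
  unfold kap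
  have h1 := Classical.choose_spec (AdjoinRoot.mk_surjective (AdjoinRoot.mk f p))
  obtain ⟨g, hg⟩ := AdjoinRoot.mk_eq_mk.1 h1
  generalize Classical.choose (AdjoinRoot.mk_surjective (AdjoinRoot.mk f p)) = q at hg
  have hS : aeval (TT x y) (X * f) = 0 := by
    rw [mul_comm, map_mul, aeval_X]
    show _ * (x * y + y * x) = 0
    have hc : Commute (aeval (TT x y) f) y := SS_comm_y k hxx hyy f
    rw [mul_add, ← mul_assoc, hfx, zero_mul, zero_add, ← mul_assoc, hc.eq, mul_assoc, hfx, mul_zero]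
  have e : q * (r * X) = p * (r * X) + (g * r) * (X * f) := by
    linear_combination (r * X) * hg
  rw [e, map_add, map_mul _ (g * r), hS, mul_zero, add_zero]

lemma S_X_f (hxx : x * x = 0) (hyy : y * y = 0) (hfx : aeval (TT x y) f * x = 0) :
    aeval (TT x y) (X * f) = 0 := by
  rw [mul_comm, map_mul, aeval_X]
  show _ * (x * y + y * x) = 0
  have hc : Commute (aeval (TT x y) f) y := SS_comm_y k hxx hyy f
  rw [mul_add, ← mul_assoc, hfx, zero_mul, zero_add, ← mul_assoc, hc.eq, mul_assoc, hfx, mul_zero]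

lemma kappa_of_data [Fact (Irreducible f)] (hxx : x * x = 0) (hyy : y * y = 0) (hfx : aeval (TT x y) f * x = 0)
    (hr : r * X + s * f = 1) (hy' : y' = aeval (TT x y) r * y) :
    Kappa x y' (kap x y f r) := by
  have hS := S_X_f hxx hyy hfx
  have hcx : ∀ p : k[X], Commute (aeval (TT x y) p) x := fun p => SS_comm_x k hxx hyy p
  have hcy : ∀ p : k[X], Commute (aeval (TT x y) p) y := fun p => SS_comm_y k hxx hyy p
  refine ⟨?_, ?_, ?_, ?_, ?_⟩
  · intro a b
    obtain ⟨p, rfl⟩ := AdjoinRoot.mk_surjective a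
    obtain ⟨q, rfl⟩ := AdjoinRoot.mk_surjective b
    rw [← map_add, kap_mk hxx hyy hfx, kap_mk hxx hyy hfx, kap_mk hxx hyy hfx, add_mul, map_add]
  · intro a b
    obtain ⟨p, rfl⟩ := AdjoinRoot.mk_surjective a
    obtain ⟨q, rfl⟩ := AdjoinRoot.mk_surjective b
    rw [← map_mul, kap_mk hxx hyy hfx, kap_mk hxx hyy hfx, kap_mk hxx hyy hfx, ← map_mul]
    have e : p * (r * X) * (q * (r * X)) = p * q * (r * X) + (- (p * q * r * s)) * (X * f) := by
      linear_combination (p * q * r * X) * hr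
    rw [e, map_add, map_mul _ (- (p * q * r * s)), hS, mul_zero, add_zero]
  · rw [← map_one (AdjoinRoot.mk f), kap_mk hxx hyy hfx, one_mul, hy', map_mul, aeval_X]
    show _ = x * (aeval (TT x y) r * y) + aeval (TT x y) r * y * x
    rw [← mul_assoc, ← (hcx r).eq, mul_assoc, mul_assoc, ← mul_add]
    rfl
  · intro a
    exact hcx _
  · intro a
    rw [hy']
    have h1 : Commute (kap x y f r a) (aeval (TT x y) r) := by
      unfold kap
      exact (Commute.all _ _).map (aeval (TT x y))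
    exact h1.mul_right (hcy _)

lemma kap_algebraMap [Fact (Irreducible f)] (hxx : x * x = 0) (hyy : y * y = 0) (hfx : aeval (TT x y) f * x = 0)
    (hr : r * X + s * f = 1) (c : k) :
    kap x y f r (algebraMap k (AdjoinRoot f) c) * x = c • x := by
  have e : algebraMap k (AdjoinRoot f) c = AdjoinRoot.mk f (C c) := rfl
  rw [e, kap_mk hxx hyy hfx, map_mul, aeval_C, Algebra.algebraMap_eq_smul_one, smul_mul_assoc, one_mul,
    smul_mul_assoc]
  congr 1
  have e2 : r * X = 1 - s * f := by linear_combination hr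
  rw [e2, map_sub, map_one, sub_mul, one_mul, map_mul, mul_assoc, hfx, mul_zero, sub_zero]

lemma kap_root [Fact (Irreducible f)] (hxx : x * x = 0) (hyy : y * y = 0) (hfx : aeval (TT x y) f * x = 0)
    (hfy : aeval (TT x y) f * y = 0)
    (hr : r * X + s * f = 1) (hy' : y' = aeval (TT x y) r * y) (c : k) :
    kap x y f r (algebraMap k (AdjoinRoot f) c * AdjoinRoot.root f) * y' = c • y := by
  have e : algebraMap k (AdjoinRoot f) c * AdjoinRoot.root f = AdjoinRoot.mk f (C c * X) := by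
    rw [map_mul, AdjoinRoot.mk_X]
    rfl
  rw [e, kap_mk hxx hyy hfx, hy', ← mul_assoc, ← map_mul]
  have e2 : C c * X * (r * X) * r = C c * (1 + (- (s * (2 - s * f))) * f) := by
    linear_combination (C c * (r * X + 1 - s * f)) * hr
  rw [e2, map_mul, aeval_C, Algebra.algebraMap_eq_smul_one, smul_mul_assoc, one_mul, smul_mul_assoc, map_add,
    map_one, add_mul, one_mul, map_mul, mul_assoc, hfy, mul_zero, add_zero]

end Concrete

universe u

/-- The isomorphism in the non-unipotent type. -/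
theorem exists_SL2 {k : Type u} [Field k] {M : Type*} [AddCommGroup M] [Module k M] [FiniteDimensional k M]
    {G : Subgroup (LinearMap.GeneralLinearGroup k M)} (h2 : (2 : k) ≠ 0) (h3 : Nat.card k ≠ 3)
    {σ τ : LinearMap.GeneralLinearGroup k M} (hσ : σ ∈ Cfsg.minimalQuadraticElements G)
    (hτ : τ ∈ Cfsg.minimalQuadraticElements G) (hN : NTy (NN σ) (NN τ)) :
    ∃ (K : Type u) (_ : Field K) (_ : Algebra k K) (lam : K), IsAlgebraic k lam ∧
      IntermediateField.adjoin k ({lam} : Set K) = ⊤ ∧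
      Nonempty (↥(Subgroup.closure (Cfsg.scalarFamily σ ∪ Cfsg.scalarFamily τ)) ≃* SL(2, K)) := by
  have hx := minLog_of_mem hσ
  have hy := minLog_of_mem hτ
  obtain ⟨f, r, s, y', hf, hXf, hfx, hfy, hr, hy'd, _, _, hex⟩ := exists_exact_data h2 h3 hx hy hN
  haveI : Fact (Irreducible f) := ⟨hf⟩
  have hκ := kappa_of_data (r := r) (s := s) hx.sq hy.sq hfx hr hy'd
  have hS := S_X_f hx.sq hy.sq hfx
  have hroot : AdjoinRoot.root f ≠ 0 := by
    intro h0
    rw [← AdjoinRoot.mk_X, AdjoinRoot.mk_eq_zero] at h0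
    exact hXf ((hf.associated_of_dvd irreducible_X h0).symm.dvd)
  have halg : IsAlgebraic k (AdjoinRoot.root f) := ⟨f, hf.ne_zero, AdjoinRoot.aeval_eq _ |>.trans (AdjoinRoot.mk_self)⟩
  have hadj : IntermediateField.adjoin k ({AdjoinRoot.root f} : Set (AdjoinRoot f)) = ⊤ :=
    IntermediateField.adjoin_eq_top_of_algebra _ _ AdjoinRoot.adjoinRoot_eq_top
  have hsurj : Function.Surjective (aeval (AdjoinRoot.root f) : k[X] →ₐ[k] AdjoinRoot f) := by
    intro a
    obtain ⟨p, rfl⟩ := AdjoinRoot.mk_surjective a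
    exact ⟨p, AdjoinRoot.aeval_eq p⟩
  have key : Nonempty (↥(Subgroup.closure (Cfsg.scalarFamily σ ∪ Cfsg.scalarFamily τ)) ≃* SL(2, AdjoinRoot f)) := by
    refine iso_of_kappa (κ := kap (NN σ) (NN τ) f r) (y := y') (α := AdjoinRoot.root f) h2 h3 hroot halg hsurj hex hκ hx.ne ?_ ?_
    · intro c
      exact kap_algebraMap hx.sq hy.sq hfx hr c
    · intro c
      exact kap_root hx.sq hy.sq hfx hfy hr hy'd c
  exact ⟨AdjoinRoot f, inferInstance, inferInstance, AdjoinRoot.root f, halg, hadj, key⟩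

end Cfsg.Agent.Lib.Linalg.Quad.SL2Rep
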