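import Cfsg.Agent.Lib.Linalg.Quad.Class2
import Cfsg.Agent.Lib.Linalg.Quad.SL2Rep
import Mathlib

/-!
# The root subgroups of a quadratic pair form a set of abstract root subgroups
-/

set_option autoImplicit false

namespace Cfsg.Agent.Lib.Linalg.Quad.RootSet

open Polynomial Matrix Matrix.SpecialLinearGroup
open scoped MatrixGroups
open Cfsg.Agent.Lib.Linalg.Quad.Dich Cfsg.Agent.Lib.Linalg.Quad.Psi Cfsg.Agent.Lib.Linalg.Quad.Root
  Cfsg.Agent.Lib.Linalg.Quad.Pair Cfsg.Agent.Lib.Linalg.Quad.NType Cfsg.Agent.Lib.Linalg.Quad.UType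
  Cfsg.Agent.Lib.Linalg.Quad.Surj Cfsg.Agent.Lib.Linalg.Quad.Class2 Cfsg.Agent.Lib.Linalg.Quad.SL2Rep

section Translate

variable {Γ : Type*} [Group Γ] {G₀ A B : Subgroup Γ}

lemma mem_subgroupOf' {a : G₀} : a ∈ A.subgroupOf G₀ ↔ (a : Γ) ∈ A := Subgroup.mem_subgroupOf

lemma conjBy_subgroupOf (hA : A ≤ G₀) (g : G₀) :
    Cfsg.conjBy (A.subgroupOf G₀) g = (Cfsg.conjBy A (g : Γ)).subgroupOf G₀ := by
  ext u
  rw [Subgroup.mem_subgroupOf]
  simp only [Cfsg.conjBy, Subgroup.mem_map, MulEquiv.coe_toMonoidHom, MulAut.conj_apply]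
  constructor
  · rintro ⟨v, hv, rfl⟩
    exact ⟨v, hv, rfl⟩
  · rintro ⟨v, hv, hu⟩
    refine ⟨⟨v, hA hv⟩, hv, Subtype.ext hu⟩

lemma comm_subgroupOf (hA : A ≤ G₀) (hB : B ≤ G₀) :
    ⁅A.subgroupOf G₀, B.subgroupOf G₀⁆ = ⁅A, B⁆.subgroupOf G₀ := by
  apply Subgroup.map_injective G₀.subtype_injective
  have hle : ⁅A, B⁆ ≤ G₀ := by
    rw [Subgroup.commutator_le]
    intro a ha b hb
    exact G₀.mul_mem (G₀.mul_mem (G₀.mul_mem (hA ha) (hB hb)) (G₀.inv_mem (hA ha))) (G₀.inv_mem (hB hb))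
  rw [Subgroup.map_commutator, Subgroup.map_subgroupOf_eq_of_le hA, Subgroup.map_subgroupOf_eq_of_le hB,
    Subgroup.map_subgroupOf_eq_of_le hle]

lemma subgroupOf_inj (hA : A ≤ G₀) (hB : B ≤ G₀) (h : A.subgroupOf G₀ = B.subgroupOf G₀) : A = B := by
  rw [← Subgroup.map_subgroupOf_eq_of_le hA, ← Subgroup.map_subgroupOf_eq_of_le hB, h]

lemma cond_subgroupOf (hA : A ≤ G₀) (hB : B ≤ G₀) (h : Cfsg.RankOneCondition A B) :
    Cfsg.RankOneCondition (A.subgroupOf G₀) (B.subgroupOf G₀) := by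
  intro a ha ha1
  have ha' : (a : Γ) ∈ A := ha
  obtain ⟨b, hb, hb1, e⟩ := h a ha' (fun h0 => ha1 (Subtype.ext h0))
  refine ⟨⟨b, hB hb⟩, hb, fun h0 => hb1 (congrArg Subtype.val h0), ?_⟩
  rw [conjBy_subgroupOf hA, conjBy_subgroupOf hB]
  simp only [InvMemClass.coe_inv]
  rw [e]

lemma rankOne_subgroupOf (hA : A ≤ G₀) (hB : B ≤ G₀) (h : Cfsg.IsRankOnePair A B) :
    Cfsg.IsRankOnePair (A.subgroupOf G₀) (B.subgroupOf G₀) := by
  refine ⟨fun e => h.ne (subgroupOf_inj hA hB e), ?_, ?_, cond_subgroupOf hA hB h.cond_left,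
    cond_subgroupOf hB hA h.cond_right⟩
  · exact (Group.isNilpotent_congr (Subgroup.subgroupOfEquivOfLe hA)).2 h.nilpotent_left
  · exact (Group.isNilpotent_congr (Subgroup.subgroupOfEquivOfLe hB)).2 h.nilpotent_right

lemma closure_subgroupOf_left (hA : A ≤ G₀) (hB : B ≤ G₀) {a : G₀} (h : Subgroup.closure ((fun b : Γ => (a : Γ) * b * (a : Γ)⁻¹ * b⁻¹) '' (B : Set Γ)) = ⁅A, B⁆) :
    Subgroup.closure ((fun b : G₀ => a * b * a⁻¹ * b⁻¹) '' ((B.subgroupOf G₀ : Subgroup G₀) : Set G₀)) = ⁅A.subgroupOf G₀, B.subgroupOf G₀⁆ := by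
  apply Subgroup.map_injective G₀.subtype_injective
  rw [Subgroup.map_commutator, Subgroup.map_subgroupOf_eq_of_le hA, Subgroup.map_subgroupOf_eq_of_le hB,
    MonoidHom.map_closure, ← h]
  congr 1
  ext u
  simp only [Set.mem_image, SetLike.mem_coe, Subgroup.coe_subtype, exists_exists_and_eq_and]
  constructor
  · rintro ⟨b, hb, rfl⟩
    exact ⟨b, hb, rfl⟩
  · rintro ⟨b, hb, rfl⟩
    exact ⟨⟨b, hB hb⟩, hb, rfl⟩

lemma closure_subgroupOf_right (hA : A ≤ G₀) (hB : B ≤ G₀) {b : G₀} (h : Subgroup.closure ((fun a : Γ => a * (b : Γ) * a⁻¹ * (b : Γ)⁻¹) '' (A : Set Γ)) = ⁅A, B⁆) :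
    Subgroup.closure ((fun a : G₀ => a * b * a⁻¹ * b⁻¹) '' ((A.subgroupOf G₀ : Subgroup G₀) : Set G₀)) = ⁅A.subgroupOf G₀, B.subgroupOf G₀⁆ := by
  apply Subgroup.map_injective G₀.subtype_injective
  rw [Subgroup.map_commutator, Subgroup.map_subgroupOf_eq_of_le hA, Subgroup.map_subgroupOf_eq_of_le hB,
    MonoidHom.map_closure, ← h]
  congr 1
  ext u
  simp only [Set.mem_image, SetLike.mem_coe, Subgroup.coe_subtype, exists_exists_and_eq_and]
  constructor
  · rintro ⟨a, ha, rfl⟩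
    exact ⟨a, ha, rfl⟩
  · rintro ⟨a, ha, rfl⟩
    exact ⟨⟨a, hA ha⟩, ha, rfl⟩

/-- Translation of the commutator case. -/
lemma rcc_subgroupOf {S : Set (Subgroup Γ)} (hA : A ≤ G₀) (hB : B ≤ G₀) (h : Cfsg.RootCommutatorCase S A B) :
    Cfsg.RootCommutatorCase ((fun C : Subgroup Γ => C.subgroupOf G₀) '' S) (A.subgroupOf G₀) (B.subgroupOf G₀) := by
  obtain ⟨h1, h2, h3, h4⟩ := h
  refine ⟨?_, ?_, ?_, ?_⟩
  · rw [comm_subgroupOf hA hB]
    exact ⟨_, h1, rfl⟩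
  · intro c hc x hx
    apply Subtype.ext
    rw [comm_subgroupOf hA hB] at hc
    have hx' : (x : Γ) ∈ A ⊔ B := by
      have : (A.subgroupOf G₀ ⊔ B.subgroupOf G₀).map G₀.subtype = A ⊔ B := by
        rw [Subgroup.map_sup, Subgroup.map_subgroupOf_eq_of_le hA, Subgroup.map_subgroupOf_eq_of_le hB]
      rw [← this]
      exact ⟨x, hx, rfl⟩
    exact h2 c hc x hx'
  · intro a ha ha1
    exact closure_subgroupOf_left hA hB (h3 a ha (fun h0 => ha1 (Subtype.ext h0)))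
  · intro b hb hb1
    exact closure_subgroupOf_right hA hB (h4 b hb (fun h0 => hb1 (Subtype.ext h0)))

end Translate

variable {k : Type*} [Field k] {M : Type*} [AddCommGroup M] [Module k M] [FiniteDimensional k M]
  {G : Subgroup (LinearMap.GeneralLinearGroup k M)} {σ τ : LinearMap.GeneralLinearGroup k M}

/-- The pair trichotomy. -/
theorem pair_tri (hG : Cfsg.IsQuadraticPair G) (h2 : (2 : k) ≠ 0) (h3 : Nat.card k ≠ 3)
    (hσ : σ ∈ Cfsg.minimalQuadraticElements G) (hτ : τ ∈ Cfsg.minimalQuadraticElements G) :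
    ⁅Cfsg.sameActionSubgroup G σ, Cfsg.sameActionSubgroup G τ⁆ = ⊥ ∨
    Cfsg.IsRankOnePair (Cfsg.sameActionSubgroup G σ) (Cfsg.sameActionSubgroup G τ) ∨
    Cfsg.RootCommutatorCase (Cfsg.quadraticRootSubgroups G) (Cfsg.sameActionSubgroup G σ) (Cfsg.sameActionSubgroup G τ) := by
  by_cases hN : NTy (NN σ) (NN τ)
  · exact Or.inr (Or.inl (isSpecialRankOne h2 h3 hσ hτ hN).1)
  rcases unipotent_main hG h2 h3 hσ hτ hN with h0 | ⟨h4, h5, h6, -, h8, -⟩
  · exact Or.inl h0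
  · refine Or.inr (Or.inr ⟨h4, ?_, h5, h6⟩)
    intro c hc x hx
    have h9 : c ∈ ⁅Cfsg.sameActionSubgroup G σ ⊔ Cfsg.sameActionSubgroup G τ, Cfsg.sameActionSubgroup G σ ⊔ Cfsg.sameActionSubgroup G τ⁆ :=
      Subgroup.commutator_mono le_sup_left le_sup_right hc
    rw [Subgroup.commutator_eq_bot_iff_le_centralizer] at h8
    exact (Subgroup.mem_centralizer_iff.1 (h8 h9) x hx).symm

lemma conjBy_of_comm {Γ : Type*} [Group Γ] {A : Subgroup Γ} {g : Γ} (h : ∀ a ∈ A, g * a = a * g) :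
    Cfsg.conjBy A g = A := by
  ext u
  simp only [Cfsg.conjBy, Subgroup.mem_map, MulEquiv.coe_toMonoidHom, MulAut.conj_apply]
  constructor
  · rintro ⟨v, hv, rfl⟩
    rw [h v hv]
    simpa using hv
  · intro hu
    exact ⟨u, hu, by rw [h u hu]; simp⟩

/-- Rank one pairs have the non-unipotent type. -/
theorem NTy_of_rankOne (h2 : (2 : k) ≠ 0) (h3 : Nat.card k ≠ 3)
    (hσ : σ ∈ Cfsg.minimalQuadraticElements G) (hτ : τ ∈ Cfsg.minimalQuadraticElements G)
    (h : Cfsg.IsRankOnePair (Cfsg.sameActionSubgroup G σ) (Cfsg.sameActionSubgroup G τ)) :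
    NTy (NN σ) (NN τ) := by
  by_contra hN
  have hx := minLog_of_mem hσ
  have hσE : σ ∈ Cfsg.sameActionSubgroup G σ := Subgroup.subset_closure ⟨hσ, rfl, rfl⟩
  have hσ1 : σ ≠ 1 := by
    rintro rfl
    exact hx.ne (by simp [NN])
  obtain ⟨b, hb, hb1, hc⟩ := h.cond_left σ hσE hσ1
  obtain ⟨hy₁, hsy₁⟩ := mem_E_log hτ hb hb1
  have P : UPair G (NN σ) (NN b) := upair_of_not h2 h3 hN hx hy₁ (Same.refl _) hsy₁
  by_cases hz : zz (NN σ) (NN b) = 0
  · have hcomm := comm_of_comm h2 h3 hσ hτ hσE hσ1 hb hb1 (mul_comm_of_zz hz)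
    rw [Subgroup.commutator_eq_bot_iff_le_centralizer] at hcomm
    apply h.ne
    rw [← conjBy_of_comm (A := Cfsg.sameActionSubgroup G σ) (g := b⁻¹) ?_, hc]
    · apply conjBy_of_comm
      intro a ha
      have := Subgroup.mem_centralizer_iff.1 (hcomm hσE) a ha
      calc σ⁻¹ * a = σ⁻¹ * (a * σ) * σ⁻¹ := by group
        _ = σ⁻¹ * (σ * a) * σ⁻¹ := by rw [this]
        _ = a * σ⁻¹ := by group
    · intro a ha
      have := Subgroup.mem_centralizer_iff.1 (hcomm ha) b hb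
      calc b⁻¹ * a = b⁻¹ * (a * b) * b⁻¹ := by group
        _ = b⁻¹ * (b * a) * b⁻¹ := by rw [this]
        _ = a * b⁻¹ := by group
  -- the ranges
  have h5 : b⁻¹ * σ * b ∈ Cfsg.conjBy (Cfsg.sameActionSubgroup G σ) b⁻¹ := ⟨σ, hσE, by simp⟩
  rw [hc] at h5
  obtain ⟨f, hf, hfe⟩ := h5
  have hfe' : σ⁻¹ * f * σ = b⁻¹ * σ * b := by simpa using hfe
  have hf1 : f ≠ 1 := by
    rintro rfl
    apply hσ1
    have : b⁻¹ * σ * b = 1 := by rw [← hfe']; simp
    calc σ = b * (b⁻¹ * σ * b) * b⁻¹ := by group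
      _ = 1 := by rw [this]; simp
  obtain ⟨hy₂, hsy₂⟩ := mem_E_log hτ hf hf1
  have hJ : LinearMap.range (NN f) = LinearMap.range (NN b) := (hsy₂.2).trans hsy₁.2.symm
  have e1 : cj σ⁻¹ (NN f) = cj b⁻¹ (NN σ) := by
    have e2 := NN_conj σ⁻¹ f
    have e3 := NN_conj b⁻¹ σ
    simp only [inv_inv] at e2 e3
    rw [← e2, ← e3, hfe']
  have hyy := P.hy.sq
  have hbi : ((b⁻¹ : LinearMap.GeneralLinearGroup k M) : M →ₗ[k] M) = 1 - NN b := by
    apply Units.inv_eq_of_mul_eq_one_right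
    rw [val_eq_one_add b]
    have e3 : (1 + NN b) * (1 - NN b) = 1 - NN b * NN b := by noncomm_ring
    simp only [NN] at e3 hyy ⊢
    rw [e3, hyy, sub_zero]
  have key : ∀ v ∈ LinearMap.range (NN σ), v - NN σ (NN b v) = 0 := by
    intro v hv
    have hxv : NN σ v = 0 := by
      obtain ⟨u, rfl⟩ := hv
      exact congrArg (fun F : M →ₗ[k] M => F u) hx.sq
    have h6 : ((b⁻¹ : LinearMap.GeneralLinearGroup k M) : M →ₗ[k] M) v ∈ LinearMap.range (cj b⁻¹ (NN σ)) := by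
      rw [mem_range_cj]
      have e4 : (((b⁻¹)⁻¹ : LinearMap.GeneralLinearGroup k M) : M →ₗ[k] M) (((b⁻¹ : LinearMap.GeneralLinearGroup k M) : M →ₗ[k] M) v) = v := by
        rw [inv_inv]
        have h' : (b : M →ₗ[k] M) * ((b⁻¹ : LinearMap.GeneralLinearGroup k M) : M →ₗ[k] M) = 1 := by
          rw [← Units.val_mul]; simp
        exact congrArg (fun F : M →ₗ[k] M => F v) h'
      rw [e4]
      exact hv
    rw [← e1, mem_range_cj, inv_inv, hJ, hbi, val_eq_one_add σ] at h6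
    have e5 : (1 + NN σ) ((1 - NN b) v) = v - NN b v - NN σ (NN b v) := by
      simp only [LinearMap.add_apply, LinearMap.sub_apply, Module.End.one_apply, map_sub, hxv]
      abel
    rw [e5] at h6
    have h7 : v - NN σ (NN b v) ∈ LinearMap.range (NN b) := by
      have : v - NN σ (NN b v) = (v - NN b v - NN σ (NN b v)) + NN b v := by abel
      rw [this]
      exact Submodule.add_mem _ h6 ⟨v, rfl⟩
    have h8 : v - NN σ (NN b v) ∈ LinearMap.range (NN σ) := Submodule.sub_mem _ hv ⟨_, rfl⟩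
    have hmem : v - NN σ (NN b v) ∈ LinearMap.range (NN σ * NN b) ⊓ LinearMap.range (NN b * NN σ) := by
      rw [P.range_xy hz, P.range_yx hz]
      refine ⟨⟨h8, ?_⟩, ⟨h7, ?_⟩⟩
      · obtain ⟨u, hu⟩ := h7
        show NN b (v - NN σ (NN b v)) = 0
        rw [← hu]
        exact congrArg (fun F : M →ₗ[k] M => F u) hyy
      · obtain ⟨u, hu⟩ := h8
        show NN σ (v - NN σ (NN b v)) = 0
        rw [← hu]
        exact congrArg (fun F : M →ₗ[k] M => F u) hx.sq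
    rw [P.disj hz, Submodule.mem_bot] at hmem
    exact hmem
  apply hx.ne
  ext u
  have h9 := key _ ⟨u, rfl⟩
  have h10 : NN σ (NN b (NN σ u)) = 0 := congrArg (fun F : M →ₗ[k] M => F u) P.xyx
  rw [h10, sub_zero] at h9
  exact h9

/-- The generators of `SL₂`. -/
lemma upper_sup_lower {K : Type*} [Field K] (h2 : (2 : K) ≠ 0) (h3 : Nat.card K ≠ 3) :
    Cfsg.upperUnipotentSL2 K ⊔ Cfsg.lowerUnipotentSL2 K = ⊤ := by
  apply Cfsg.Agent.Lib.Linalg.Quad.FieldGen.eq_top_of_gen (k := K) (α := (1 : K)) h2 h3 one_ne_zero isAlgebraic_one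
  · intro a
    exact ⟨C a, by simp⟩
  · intro c
    apply Subgroup.mem_sup_left
    apply Subgroup.subset_closure
    simp [Cfsg.Agent.Lib.PSL2.Basic.x]
  · intro c
    apply Subgroup.mem_sup_right
    apply Subgroup.subset_closure
    simp [Cfsg.Agent.Lib.PSL2.Basic.y]

/-- Elements `κ(t) z` are logarithms. -/
lemma kap_mem {K : Type*} [Field K] [Algebra k K] {x y z : M →ₗ[k] M} {κ : K → M →ₗ[k] M} (hκ : Kappa x y κ)
    (hz : MinLog G z) (hpi : pi x y * z = z) (hc : ∀ a, Commute (κ a) z) (hcm : ∀ (c : k) (t : K), κ (algebraMap k K c * t) = c • κ t)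
    (hmem : ∀ (t : K) (u : LinearMap.GeneralLinearGroup k M), (u : M →ₗ[k] M) = 1 + κ t * z → u ∈ G) (t : K) :
    κ t * z ∈ LL hz := by
  by_cases ht : t = 0
  · rw [ht, hκ.zero, zero_mul]
    exact Submodule.zero_mem _
  have hinv : κ t⁻¹ * (κ t * z) = z := by
    rw [← mul_assoc, ← hκ.mul, inv_mul_cancel₀ ht, hκ.one, hpi]
  have hcz := hc t
  have hsq : (κ t * z) * (κ t * z) = 0 := by
    rw [mul_assoc, ← mul_assoc z, ← hcz.eq, mul_assoc (κ t), hz.sq, mul_zero, mul_zero]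
  have hne : κ t * z ≠ 0 := by
    intro h0
    apply hz.ne
    rw [← hinv, h0, mul_zero]
  have hs : Same z (κ t * z) := by
    constructor
    · apply le_antisymm
      · intro v hv
        have h5 : (κ t * z) v = 0 := hv
        have h6 := congrArg (fun F : M →ₗ[k] M => F v) hinv
        show z v = 0
        rw [← h6]
        simp only [Module.End.mul_apply] at h5 ⊢
        rw [h5, map_zero]
      · intro v hv
        have h5 : z v = 0 := hv
        show (κ t * z) v = 0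
        simp only [Module.End.mul_apply]
        rw [h5, map_zero]
    · apply le_antisymm
      · rintro _ ⟨v, rfl⟩
        rw [hcz.eq]
        exact ⟨_, rfl⟩
      · rintro _ ⟨v, rfl⟩
        have h6 : (κ t * z) * κ t⁻¹ = z := by
          rw [mul_assoc, ← (hc t⁻¹).eq, ← mul_assoc, ← hκ.mul, mul_inv_cancel₀ ht, hκ.one, hpi]
        exact ⟨κ t⁻¹ v, congrArg (fun F : M →ₗ[k] M => F v) h6⟩
  refine Or.inr ⟨⟨⟨hsq, hne, ?_⟩, fun w hw => ?_⟩, hs⟩
  · intro c u hu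
    refine hmem (algebraMap k K c * t) u ?_
    rw [hu, hcm, smul_mul_assoc]
  · rw [hs.rk_eq]
    exact hz.min w hw

lemma card_aux {k K : Type*} [Field k] [Field K] [Algebra k K] (h2 : (2 : k) ≠ 0) (h3 : Nat.card k ≠ 3) :
    3 < ENat.card K ∧ Nat.card K ≠ 3 := by
  by_cases hfin : Finite K
  · haveI : Finite k := Finite.of_injective (algebraMap k K) (algebraMap k K).injective
    have h4 := Cfsg.Agent.Lib.Linalg.Quad.Sep.four_le_card h2 h3
    have h5 : Nat.card k ≤ Nat.card K := Nat.card_le_card_of_injective _ (algebraMap k K).injective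
    have h6 : 4 ≤ Nat.card K := h4.trans h5
    refine ⟨?_, by omega⟩
    rw [ENat.card_eq_coe_natCard]
    exact_mod_cast (by omega : 3 < Nat.card K)
  · haveI : Infinite K := not_finite_iff_infinite.1 hfin
    rw [ENat.card_eq_top_of_infinite, Nat.card_eq_zero_of_infinite]
    exact ⟨ENat.coe_lt_top _, by omega⟩

universe u

/-- The `SL₂` subpairs. -/
theorem psl2_pair {k : Type u} [Field k] {M : Type*} [AddCommGroup M] [Module k M] [FiniteDimensional k M]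
    {G : Subgroup (LinearMap.GeneralLinearGroup k M)} {σ τ : LinearMap.GeneralLinearGroup k M}
    (h2 : (2 : k) ≠ 0) (h3 : Nat.card k ≠ 3)
    (hσ : σ ∈ Cfsg.minimalQuadraticElements G) (hτ : τ ∈ Cfsg.minimalQuadraticElements G) (hN : NTy (NN σ) (NN τ)) :
    ∃ A₀ B₀ : Subgroup (LinearMap.GeneralLinearGroup k M), A₀ ≤ Cfsg.sameActionSubgroup G σ ∧
      B₀ ≤ Cfsg.sameActionSubgroup G τ ∧
        ∃ (k₁ : Type u) (_ : Field k₁), 3 < ENat.card k₁ ∧ Cfsg.IsPSL2PairOver k₁ A₀ B₀ := by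
  have hx := minLog_of_mem hσ
  have hy := minLog_of_mem hτ
  obtain ⟨f, r, s, y', hf, hXf, hfx, hfy, hr, hy'd, hy', hs', hex⟩ := exists_exact_data h2 h3 hx hy hN
  haveI : Fact (Irreducible f) := ⟨hf⟩
  have hκ := kappa_of_data (r := r) (s := s) hx.sq hy.sq hfx hr hy'd
  obtain ⟨Θ, hΘ⟩ : ∃ Θ, Θ = Theta hex hκ := ⟨_, rfl⟩
  have hroot : AdjoinRoot.root f ≠ 0 := by
    intro h0
    rw [← AdjoinRoot.mk_X, AdjoinRoot.mk_eq_zero] at h0
    exact hXf ((hf.associated_of_dvd irreducible_X h0).symm.dvd)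
  have halg : IsAlgebraic k (AdjoinRoot.root f) := ⟨f, hf.ne_zero, AdjoinRoot.aeval_eq _ |>.trans (AdjoinRoot.mk_self)⟩
  have hsurj : Function.Surjective (aeval (AdjoinRoot.root f) : k[X] →ₐ[k] AdjoinRoot f) := by
    intro a
    obtain ⟨p, rfl⟩ := AdjoinRoot.mk_surjective a
    exact ⟨p, AdjoinRoot.aeval_eq p⟩
  -- the image lies in `G`
  have htop : G.comap Θ = ⊤ := by
    apply Cfsg.Agent.Lib.Linalg.Quad.FieldGen.eq_top_of_gen h2 h3 hroot halg hsurj
    · intro c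
      apply hx.mem c
      rw [hΘ, Theta_x, kap_algebraMap hx.sq hy.sq hfx hr c]
    · intro c
      apply hy.mem c
      rw [hΘ, Theta_y, kap_root hx.sq hy.sq hfx hfy hr hy'd c]
  have hrangeG : ∀ g, Θ g ∈ G := by
    intro g
    have : g ∈ G.comap Θ := by rw [htop]; trivial
    exact this
  have hcm : ∀ (c : k) (t : AdjoinRoot f), kap (NN σ) (NN τ) f r (algebraMap k (AdjoinRoot f) c * t) =
      c • kap (NN σ) (NN τ) f r t := by
    intro c t
    rw [hκ.mul]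
    have e : kap (NN σ) (NN τ) f r (algebraMap k (AdjoinRoot f) c) = c • kap (NN σ) (NN τ) f r 1 := by
      have e1 : algebraMap k (AdjoinRoot f) c = AdjoinRoot.mk f (C c) := rfl
      have e2 : (1 : AdjoinRoot f) = AdjoinRoot.mk f 1 := (map_one _).symm
      rw [e1, e2, kap_mk hx.sq hy.sq hfx, kap_mk hx.sq hy.sq hfx, one_mul, map_mul, aeval_C,
        Algebra.algebraMap_eq_smul_one, smul_mul_assoc, one_mul]
    rw [e, smul_mul_assoc, ← hκ.mul, one_mul]
  have hupper : Cfsg.upperUnipotentSL2 (AdjoinRoot f) ≤ (Cfsg.sameActionSubgroup G σ).comap Θ := by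
    rw [Cfsg.upperUnipotentSL2, Subgroup.closure_le]
    rintro g ⟨h10, h00, h11⟩
    have hg : g = Cfsg.Agent.Lib.PSL2.Basic.x (g.1 0 1) := by
      apply Cfsg.Agent.Lib.PSL2.Basic.ext2 <;> simp [h10, h00, h11]
    show Θ g ∈ Cfsg.sameActionSubgroup G σ
    rw [mem_E_iff hσ, hg]
    have e : NN (Θ (Cfsg.Agent.Lib.PSL2.Basic.x (g.1 0 1))) = kap (NN σ) (NN τ) f r (g.1 0 1) * NN σ := by
      simp only [NN]
      rw [hΘ, Theta_x, add_sub_cancel_left]
    rw [e]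
    apply kap_mem hκ hx (pi_x hex) (fun a => hκ.comm_x a) hcm
    intro t u hu
    have : u = Θ (Cfsg.Agent.Lib.PSL2.Basic.x t) := by
      apply Units.ext
      rw [hu, hΘ, Theta_x]
    rw [this]
    exact hrangeG _
  have hlower : Cfsg.lowerUnipotentSL2 (AdjoinRoot f) ≤ (Cfsg.sameActionSubgroup G τ).comap Θ := by
    rw [Cfsg.lowerUnipotentSL2, Subgroup.closure_le]
    rintro g ⟨h01, h00, h11⟩
    have hg : g = Cfsg.Agent.Lib.PSL2.Basic.y (g.1 1 0) := by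
      apply Cfsg.Agent.Lib.PSL2.Basic.ext2 <;> simp [h01, h00, h11]
    show Θ g ∈ Cfsg.sameActionSubgroup G τ
    rw [mem_E_iff hτ, ← LL_eq_of_mem hy hy' hs', hg]
    have e : NN (Θ (Cfsg.Agent.Lib.PSL2.Basic.y (g.1 1 0))) = kap (NN σ) (NN τ) f r (g.1 1 0) * y' := by
      simp only [NN]
      rw [hΘ, Theta_y, add_sub_cancel_left]
    rw [e]
    apply kap_mem hκ hy' (pi_y hex) (fun a => hκ.comm_y a) hcm
    intro t u hu
    have : u = Θ (Cfsg.Agent.Lib.PSL2.Basic.y t) := by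
      apply Units.ext
      rw [hu, hΘ, Theta_y]
    rw [this]
    exact hrangeG _
  obtain ⟨hc1, hc2⟩ := card_aux (k := k) (K := AdjoinRoot f) h2 h3
  have h2K : (2 : AdjoinRoot f) ≠ 0 := by
    intro h0
    apply h2
    apply (algebraMap k (AdjoinRoot f)).injective
    rw [map_ofNat, map_zero, h0]
  have hinj : Function.Injective Θ := by
    rw [hΘ]
    exact Theta_inj hex hκ hx.ne
  refine ⟨(Cfsg.upperUnipotentSL2 (AdjoinRoot f)).map Θ, (Cfsg.lowerUnipotentSL2 (AdjoinRoot f)).map Θ,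
    Subgroup.map_le_iff_le_comap.2 hupper, Subgroup.map_le_iff_le_comap.2 hlower, AdjoinRoot f, inferInstance, hc1,
    Θ, ?_, ?_, rfl, rfl⟩
  · rw [← Subgroup.map_sup, upper_sup_lower h2K hc2, MonoidHom.range_eq_map]
  · rw [(MonoidHom.ker_eq_bot_iff Θ).2 hinj]
    exact bot_le

section Main

variable {k : Type*} [Field k] {M : Type*} [AddCommGroup M] [Module k M] [FiniteDimensional k M]
  {G : Subgroup (LinearMap.GeneralLinearGroup k M)}

/-- The subgroup generated by the root subgroups. -/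
abbrev G0 (G : Subgroup (LinearMap.GeneralLinearGroup k M)) : Subgroup (LinearMap.GeneralLinearGroup k M) :=
  ⨆ B ∈ Cfsg.quadraticRootSubgroups G, B

lemma le_G0 {A : Subgroup (LinearMap.GeneralLinearGroup k M)} (hA : A ∈ Cfsg.quadraticRootSubgroups G) : A ≤ G0 G :=
  le_iSup₂_of_le A hA le_rfl

lemma G0_le : G0 G ≤ G := by
  refine iSup₂_le ?_
  rintro _ ⟨σ, _, rfl⟩
  exact E_le_G

/-- The set of root subgroups. -/
theorem rootset_main (hG : Cfsg.IsQuadraticPair G) (h2 : (2 : k) ≠ 0) (h3 : Nat.card k ≠ 3) :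
    Cfsg.IsRootSubgroupSet ((fun A : Subgroup (LinearMap.GeneralLinearGroup k M) => A.subgroupOf (G0 G)) ''
      Cfsg.quadraticRootSubgroups G) := by
  refine ⟨?_, ?_, ?_, ?_, ?_⟩
  · rintro _ ⟨_, ⟨σ, hσ, rfl⟩, rfl⟩
    refine IsMulCommutative.of_comm ?_
    rintro ⟨a, ha⟩ ⟨b, hb⟩
    apply Subtype.ext
    apply Subtype.ext
    exact E_comm hσ ha hb
  · rintro _ ⟨_, ⟨σ, hσ, rfl⟩, rfl⟩ h0
    have hσE : σ ∈ Cfsg.sameActionSubgroup G σ := Subgroup.subset_closure ⟨hσ, rfl, rfl⟩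
    have h5 : (⟨σ, le_G0 ⟨σ, hσ, rfl⟩ hσE⟩ : G0 G) ∈ (Cfsg.sameActionSubgroup G σ).subgroupOf (G0 G) := hσE
    have h0' : (Cfsg.sameActionSubgroup G σ).subgroupOf (G0 G) = ⊥ := h0
    rw [h0', Subgroup.mem_bot] at h5
    have h6 : σ = 1 := congrArg Subtype.val h5
    apply (minLog_of_mem hσ).ne
    rw [h6]
    simp
  · apply Subgroup.map_injective (G0 G).subtype_injective
    rw [iSup_image]
    have e : (⊤ : Subgroup (G0 G)).map (G0 G).subtype = G0 G := by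
      rw [← MonoidHom.range_eq_map, Subgroup.range_subtype]
    rw [e]
    simp only [Subgroup.map_iSup]
    exact iSup_congr fun A => iSup_congr fun hA => Subgroup.map_subgroupOf_eq_of_le (le_G0 hA)
  · rintro _ ⟨A, hA, rfl⟩ g
    refine ⟨Cfsg.conjBy A g, ?_, (conjBy_subgroupOf (le_G0 hA) g).symm⟩
    obtain ⟨σ, hσ, rfl⟩ := hA
    rw [conjBy_E hσ (G0_le g.2)]
    exact ⟨_, conj_mem_min hσ (G0_le g.2), rfl⟩
  · rintro _ ⟨A, hA, rfl⟩ _ ⟨B, hB, rfl⟩
    obtain ⟨σ, hσ, rfl⟩ := id hA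
    obtain ⟨τ, hτ, rfl⟩ := id hB
    rcases pair_tri hG h2 h3 hσ hτ with h0 | h0 | h0
    · left
      rw [comm_subgroupOf (le_G0 hA) (le_G0 hB), h0]
      exact Subgroup.bot_subgroupOf _
    · right; left
      exact rankOne_subgroupOf (le_G0 hA) (le_G0 hB) h0
    · right; right
      exact rcc_subgroupOf (le_G0 hA) (le_G0 hB) h0

/-- There are no isolated vertices. -/
theorem no_isolated (hG : Cfsg.IsQuadraticPair G) (h2 : (2 : k) ≠ 0) (h3 : Nat.card k ≠ 3)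
    {A : Subgroup (LinearMap.GeneralLinearGroup k M)} (hA : A ∈ Cfsg.quadraticRootSubgroups G) :
    ¬ Cfsg.IsIsolatedIn (Cfsg.FAdj (Cfsg.quadraticRootSubgroups G)) (Cfsg.quadraticRootSubgroups G) A := by
  rintro ⟨-, hiso⟩
  obtain ⟨σ, hσ, rfl⟩ := id hA
  obtain ⟨g, hg, hN⟩ := exists_conj_NTy hG h2 h3 hσ
  have hτ := conj_mem_min hσ hg
  have hN' : NTy (NN σ) (NN (g * σ * g⁻¹)) := by
    have e := NN_conj g σ
    simp only [NN] at e hN ⊢
    rw [e]
    exact hN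
  exact (hiso _).1 ⟨hA, ⟨_, hτ, rfl⟩, (isSpecialRankOne h2 h3 hσ hτ hN').1⟩

end Main

end Cfsg.Agent.Lib.Linalg.Quad.RootSet
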