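import Cfsg.Agent.Lib.Linalg.Quad.FieldGen
import Cfsg.Agent.Lib.Linalg.Quad.Rigid
import Cfsg.Agent.Lib.Linalg.Quad.Psi
import Mathlib

/-!
# Separation of the residue fields in the universal group (finite `k`)
-/

set_option autoImplicit false

namespace Cfsg.Agent.Lib.Linalg.Quad.Sep

open Polynomial Matrix Matrix.SpecialLinearGroup
open scoped MatrixGroups
open Cfsg.Agent.Lib.PSL2.Basic Cfsg.Agent.Lib.Linalg.Quad.Chain
open Cfsg.Agent.Lib.PSL2.AutPSL Cfsg.Agent.Lib.Linalg.Quad.Rigid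

section Normal

variable {F : Type*} [Field F]

/-- A non-central normal subgroup of `SL₂(F)`, `F` finite of odd order at least 5, is everything. -/
theorem eq_top_of_normal [Finite F] (h2 : (2 : F) ≠ 0) (h4 : 4 ≤ Nat.card F) (N : Subgroup SL(2, F))
    (hN : N.Normal) {A : SL(2, F)} (hA : A ∈ N) (h1 : A ≠ 1) (hm : A ≠ -1) : N = ⊤ := by
  classical
  haveI : Fintype F := Fintype.ofFinite F
  obtain ⟨p, hchar⟩ := CharP.exists F
  haveI := hchar
  have hpp : p.Prime := by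
    rcases CharP.char_is_prime_or_zero F p with h | h
    · exact h
    · subst h
      exact absurd (ringChar.eq F 0) (CharP.ringChar_ne_zero_of_finite F)
  haveI : Fact p.Prime := ⟨hpp⟩
  have hp2 : p ≠ 2 := by
    rintro rfl
    exact h2 (by exact_mod_cast CharP.cast_eq_zero F 2)
  have hs : IsSimpleGroup PSL(2, F) := Matrix.ProjectiveSpecialLinearGroup.rank_two_simple h4
  have hnorm : (N.map mkP).Normal := hN.map _ mkP_surjective
  have htop : N.map mkP = ⊤ := by
    rcases hs.eq_bot_or_eq_top_of_normal _ hnorm with h | h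
    · exfalso
      have h3 : mkP A ∈ N.map mkP := ⟨A, hA, rfl⟩
      rw [h, Subgroup.mem_bot, mkP_eq_one_iff] at h3
      rcases h3 with h3 | h3
      · exact h1 h3
      · exact hm h3
    · exact h
  refine eq_top_iff.2 fun Z _ => FieldGen.mem_of_x_y N (fun u => ?_) (fun u => ?_) Z
  · refine Cfsg.Agent.Lib.PSL2.DicksonSL.mem_of_mkP_mem hp2 N (p := p) ⟨1, ?_⟩ (by rw [htop]; trivial)
    rw [pow_one, x_pow]
    simp
  · refine Cfsg.Agent.Lib.PSL2.DicksonSL.mem_of_mkP_mem hp2 N (p := p) ⟨1, ?_⟩ (by rw [htop]; trivial)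
    rw [pow_one, y_pow]
    simp

end Normal

section Entries

variable {k : Type*} [Field k]

lemma mk_eq_one' {g p : k[X]} : AdjoinRoot.mk g p = 1 ↔ g ∣ p - 1 := by
  rw [← map_one (AdjoinRoot.mk g), AdjoinRoot.mk_eq_mk]

lemma ev_eq_one_iff {g : k[X]} {h : SL(2, k[X])} :
    ev g h = 1 ↔ g ∣ h.1 0 0 - 1 ∧ g ∣ h.1 0 1 ∧ g ∣ h.1 1 0 ∧ g ∣ h.1 1 1 - 1 := by
  constructor
  · intro e
    have hent : ∀ i j, AdjoinRoot.mk g (h.1 i j) = (1 : SL(2, AdjoinRoot g)).1 i j := by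
      intro i j
      rw [← ev_entry, e]
    refine ⟨?_, ?_, ?_, ?_⟩
    · have := hent 0 0
      simp only [one_00] at this
      exact mk_eq_one'.1 this
    · have := hent 0 1
      simp only [one_01] at this
      exact AdjoinRoot.mk_eq_zero.1 this
    · have := hent 1 0
      simp only [one_10] at this
      exact AdjoinRoot.mk_eq_zero.1 this
    · have := hent 1 1
      simp only [one_11] at this
      exact mk_eq_one'.1 this
  · rintro ⟨h1, h2, h3, h4⟩
    apply ext2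
    · rw [ev_entry, one_00]; exact mk_eq_one'.2 h1
    · rw [ev_entry, one_01]; exact AdjoinRoot.mk_eq_zero.2 h2
    · rw [ev_entry, one_10]; exact AdjoinRoot.mk_eq_zero.2 h3
    · rw [ev_entry, one_11]; exact mk_eq_one'.2 h4

lemma ev_one_of_dvd {g g' : k[X]} (hd : g ∣ g') {h : SL(2, k[X])} (he : ev g' h = 1) : ev g h = 1 := by
  rw [ev_eq_one_iff] at he ⊢
  exact ⟨hd.trans he.1, hd.trans he.2.1, hd.trans he.2.2.1, hd.trans he.2.2.2⟩

lemma ev_one_mul_of_coprime {g g' : k[X]} (hc : IsCoprime g g') {h : SL(2, k[X])} (he : ev g h = 1)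
    (he' : ev g' h = 1) : ev (g * g') h = 1 := by
  rw [ev_eq_one_iff] at he he' ⊢
  exact ⟨hc.mul_dvd he.1 he'.1, hc.mul_dvd he.2.1 he'.2.1, hc.mul_dvd he.2.2.1 he'.2.2.1,
    hc.mul_dvd he.2.2.2 he'.2.2.2⟩

lemma ev_x (g a : k[X]) : ev g (x a) = x (AdjoinRoot.mk g a) := by
  apply ext2 <;> simp [ev_entry]

lemma ev_y (g a : k[X]) : ev g (y a) = y (AdjoinRoot.mk g a) := by
  apply ext2 <;> simp [ev_entry]

/-- The subgroup of the universal group of elements congruent to `1` modulo `g`. -/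
noncomputable def NN (g : k[X]) : Subgroup SL(2, k[X]) := (ev g).ker ⊓ Gam k

lemma mem_NN {g : k[X]} {h : SL(2, k[X])} : h ∈ NN g ↔ ev g h = 1 ∧ h ∈ Gam k := by
  simp [NN, MonoidHom.mem_ker]

lemma NN_conj {g : k[X]} {h a : SL(2, k[X])} (hh : h ∈ NN g) (ha : a ∈ Gam k) : a * h * a⁻¹ ∈ NN g := by
  rw [mem_NN] at hh ⊢
  refine ⟨?_, (Gam k).mul_mem ((Gam k).mul_mem ha hh.2) ((Gam k).inv_mem ha)⟩
  rw [map_mul, map_mul, hh.1, mul_one, map_inv, mul_inv_cancel]

end Entries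

section Field

variable {k : Type*} [Field k] (f : k[X]) [hf : Fact (Irreducible f)]

lemma f_ne_zero : f ≠ 0 := hf.out.ne_zero

variable {f}

lemma root_ne_zero (hX : ¬ X ∣ f) : AdjoinRoot.root f ≠ 0 := by
  intro h
  have h1 : AdjoinRoot.mk f X = 0 := by rwa [AdjoinRoot.mk_X]
  rw [AdjoinRoot.mk_eq_zero] at h1
  have h2 := hf.out.associated_of_dvd irreducible_X h1
  exact hX h2.symm.dvd

lemma two_ne_zero' (h2 : (2 : k) ≠ 0) : (2 : AdjoinRoot f) ≠ 0 := by
  intro h
  apply h2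
  apply (algebraMap k (AdjoinRoot f)).injective
  rw [map_ofNat, map_zero]
  exact h

/-- Surjectivity of the universal group onto `SL₂(K_f)`. -/
theorem ev_surj (h2 : (2 : k) ≠ 0) (h3 : Nat.card k ≠ 3) (hX : ¬ X ∣ f) (A : SL(2, AdjoinRoot f)) :
    ∃ h ∈ Gam k, ev f h = A := by
  have hint : IsAlgebraic k (AdjoinRoot.root f) :=
    ⟨f, f_ne_zero f, by rw [AdjoinRoot.aeval_eq, AdjoinRoot.mk_self]⟩
  have htop := FieldGen.eq_top_of_gen (k := k) h2 h3 (root_ne_zero hX) hint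
    (fun u => by
      obtain ⟨P, rfl⟩ := AdjoinRoot.mk_surjective u
      exact ⟨P, by rw [AdjoinRoot.aeval_eq]⟩)
    ((Gam k).map (ev f))
    (fun c => ⟨x (C c), x_mem c, by rw [ev_x]; rfl⟩)
    (fun c => ⟨y (C c * X), y_mem c, by rw [ev_y, map_mul, AdjoinRoot.mk_X]; rfl⟩)
  have h4 : A ∈ (Gam k).map (ev f) := by rw [htop]; trivial
  obtain ⟨h, hh, e⟩ := h4
  exact ⟨h, hh, e⟩

end Field

section Finite

variable {k : Type*} [Field k] [Finite k]

lemma four_le_card (h2 : (2 : k) ≠ 0) (h3 : Nat.card k ≠ 3) : 4 ≤ Nat.card k := by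
  classical
  haveI : Fintype k := Fintype.ofFinite k
  have hne : (-1 : k) ≠ 1 := by
    intro h
    apply h2
    linear_combination -h
  have h1 : 3 ≤ Nat.card k := by
    rw [Nat.card_eq_fintype_card]
    have : ({0, 1, -1} : Finset k).card = 3 := by
      rw [Finset.card_insert_of_notMem, Finset.card_insert_of_notMem, Finset.card_singleton]
      · simpa using hne.symm
      · simp
    rw [← this]
    exact Finset.card_le_univ _
  omega

variable {f : k[X]} [hf : Fact (Irreducible f)]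

instance instFiniteRoot : Finite (AdjoinRoot f) := by
  haveI : Module.Finite k (AdjoinRoot f) := (AdjoinRoot.powerBasis hf.out.ne_zero).finite
  exact Module.finite_of_finite k

lemma four_le_card_root (h2 : (2 : k) ≠ 0) (h3 : Nat.card k ≠ 3) : 4 ≤ Nat.card (AdjoinRoot f) := by
  have h4 := four_le_card h2 h3
  exact h4.trans (Nat.card_le_card_of_injective _ (algebraMap k (AdjoinRoot f)).injective)

/-- A normal subgroup coming from the universal group. -/
theorem map_NN_eq_top (h2 : (2 : k) ≠ 0) (h3 : Nat.card k ≠ 3) (hX : ¬ X ∣ f) (g : k[X]) {h : SL(2, k[X])}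
    (hh : h ∈ NN g) (h1 : ev f h ≠ 1) (hm : ev f h ≠ -1) : (NN g).map (ev f) = ⊤ := by
  refine eq_top_of_normal (two_ne_zero' h2) (four_le_card_root h2 h3) _ ?_ ⟨h, hh, rfl⟩ h1 hm
  refine ⟨?_⟩
  rintro _ ⟨n, hn, rfl⟩ A
  obtain ⟨a, ha, rfl⟩ := ev_surj h2 h3 hX A
  exact ⟨a * n * a⁻¹, NN_conj hn ha, by simp⟩

omit [Finite k] in
/-- Elements of the universal group modulo `X`. -/
lemma ev_X_eq {h : SL(2, k[X])} (hh : h ∈ Gam k) : ev (X : k[X]) h = x (AdjoinRoot.mk X (h.1 0 1)) := by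
  obtain ⟨h1, h2, h3⟩ := Psi.gam_entries hh
  apply ext2
  · rw [ev_entry, x_00]; exact mk_eq_one'.2 h3
  · rw [ev_entry, x_01]
  · rw [ev_entry, x_10]; exact AdjoinRoot.mk_eq_zero.2 h1
  · rw [ev_entry, x_11]
    apply mk_eq_one'.2
    have := dvd_add h2 h3
    convert this using 1
    ring

omit [Finite k] in
/-- Commutators of the universal group are `1` modulo `X`. -/
lemma ev_X_comm {a b : SL(2, k[X])} (ha : a ∈ Gam k) (hb : b ∈ Gam k) :
    ev (X : k[X]) (a * b * a⁻¹ * b⁻¹) = 1 := by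
  simp only [map_mul, map_inv]
  rw [ev_X_eq ha, ev_X_eq hb, x_inv, x_inv, ← x_add, ← x_add, ← x_add]
  have : AdjoinRoot.mk (X : k[X]) (a.1 0 1) + AdjoinRoot.mk (X : k[X]) (b.1 0 1) + -AdjoinRoot.mk (X : k[X]) (a.1 0 1) + -AdjoinRoot.mk (X : k[X]) (b.1 0 1) = 0 := by
    ring
  rw [this, x_zero]

lemma comm_x_y_noncentral {F : Type*} [Field F] :
    x (1 : F) * y 1 * (x 1)⁻¹ * (y 1)⁻¹ ≠ 1 ∧ x (1 : F) * y 1 * (x 1)⁻¹ * (y 1)⁻¹ ≠ -1 := by
  have e : ∀ i j, (x (1 : F) * y 1 * (x 1)⁻¹ * (y 1)⁻¹).1 i j = (sl2 (3 : F) (-1) 1 0 (by ring)).1 i j := by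
    intro i j
    fin_cases i <;> fin_cases j <;> simp <;> ring
  constructor
  · intro h
    have h1 := e 1 0
    rw [h] at h1
    simp at h1
  · intro h
    have h1 := e 1 1
    rw [h] at h1
    simp at h1

/-- Separation for one prime. -/
theorem sep_prime (h2 : (2 : k) ≠ 0) (h3 : Nat.card k ≠ 3) (hX₁ : ¬ X ∣ f) {π : k[X]} (hπ : Irreducible π)
    (hc : IsCoprime f π) :
    ∃ h ∈ NN π, ev f h ≠ 1 ∧ ev f h ≠ -1 := by
  have h2' := two_ne_zero' (f := f) h2
  by_cases hXπ : X ∣ π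
  · -- the prime `X`
    obtain ⟨a, ha, ea⟩ := ev_surj h2 h3 hX₁ (x 1)
    obtain ⟨b, hb, eb⟩ := ev_surj h2 h3 hX₁ (y 1)
    refine ⟨a * b * a⁻¹ * b⁻¹, ?_, ?_⟩
    · rw [mem_NN]
      refine ⟨ev_one_of_dvd (irreducible_X.associated_of_dvd hπ hXπ).symm.dvd (ev_X_comm ha hb), ?_⟩
      · exact (Gam k).mul_mem ((Gam k).mul_mem ((Gam k).mul_mem ha hb) ((Gam k).inv_mem ha)) ((Gam k).inv_mem hb)
    · simp only [map_mul, map_inv, ea, eb]
      exact comm_x_y_noncentral
  · -- the other primes: rigidity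
    haveI : Fact (Irreducible π) := ⟨hπ⟩
    by_contra hcon
    push Not at hcon
    have hker : ∀ h ∈ Gam k, ev π h = 1 → mkP (ev f h) = 1 := by
      intro h hh he
      rw [mkP_eq_one_iff]
      by_cases h1 : ev f h = 1
      · exact Or.inl h1
      · exact Or.inr (hcon h (mem_NN.2 ⟨he, hh⟩) h1)
    let Φ : Gam k →* SL(2, AdjoinRoot π) := (ev π).comp (Gam k).subtype
    have hΦ : Function.Surjective Φ := by
      intro A
      obtain ⟨h, hh, e⟩ := ev_surj h2 h3 hXπ A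
      exact ⟨⟨h, hh⟩, e⟩
    let Ψ : Gam k →* PSL(2, AdjoinRoot f) := mkP.comp ((ev f).comp (Gam k).subtype)
    have hle : Φ.ker ≤ Ψ.ker := by
      intro a ha
      exact hker a.1 a.2 ha
    let φ : SL(2, AdjoinRoot π) →* PSL(2, AdjoinRoot f) := Φ.liftOfSurjective hΦ ⟨Ψ, hle⟩
    have hφ : ∀ a : Gam k, φ (Φ a) = Ψ a := fun a => by
      exact MonoidHom.liftOfRightInverse_comp_apply Φ _ _ ⟨Ψ, hle⟩ a
    have hφx : ∀ c : k, φ (x (algebraMap k _ c)) = xb (algebraMap k _ c) := by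
      intro c
      have := hφ ⟨x (C c), x_mem c⟩
      have e1 : Φ ⟨x (C c), x_mem c⟩ = x (algebraMap k _ c) := by
        show ev π (x (C c)) = _
        rw [ev_x]; rfl
      have e2 : Ψ ⟨x (C c), x_mem c⟩ = xb (algebraMap k _ c) := by
        show mkP (ev f (x (C c))) = _
        rw [ev_x]; rfl
      rwa [e1, e2] at this
    have hφy : φ (y (AdjoinRoot.root π)) = yb (AdjoinRoot.root f) := by
      have := hφ ⟨y (C 1 * X), y_mem 1⟩
      have e1 : Φ ⟨y (C 1 * X), y_mem 1⟩ = y (AdjoinRoot.root π) := by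
        show ev π (y (C 1 * X)) = _
        rw [ev_y]; simp
      have e2 : Ψ ⟨y (C 1 * X), y_mem 1⟩ = yb (AdjoinRoot.root f) := by
        show mkP (ev f (y (C 1 * X))) = _
        rw [ev_y]; simp
      rwa [e1, e2] at this
    have hx1 : φ (x 1) = xb 1 := by
      have := hφx 1
      simpa using this
    obtain ⟨σ, hσx, hσy⟩ := exists_ringHom h2' φ (root_ne_zero hX₁) hx1 hφy
    have hσc : ∀ c : k, σ (algebraMap k _ c) = algebraMap k _ c := by
      intro c
      apply xb_injective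
      rw [← hσx, hφx]
    have hσr : σ (AdjoinRoot.root π) = AdjoinRoot.root f := by
      apply yb_injective
      rw [← hσy, hφy]
    have hP : ∀ P : k[X], σ (aeval (AdjoinRoot.root π) P) = aeval (AdjoinRoot.root f) P := by
      intro P
      induction P using Polynomial.induction_on with
      | C a => simpa using hσc a
      | add p q hp hq => rw [map_add, map_add, map_add, hp, hq]
      | monomial n a h =>
        rw [pow_succ, ← mul_assoc, map_mul (aeval _) (C a * X ^ n) X, map_mul σ, h, aeval_X,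
          map_mul (aeval _) (C a * X ^ n) X, aeval_X, hσr]
    have h5 := hP π
    rw [AdjoinRoot.aeval_eq, AdjoinRoot.mk_self, map_zero, AdjoinRoot.aeval_eq] at h5
    have h6 : f ∣ π := AdjoinRoot.mk_eq_zero.1 h5.symm
    exact hf.out.not_isUnit (hc.isUnit_of_dvd' dvd_rfl h6)

omit [Finite k] in
/-- Congruences and powers of the characteristic. -/
lemma ev_pow_prime_pow {p : ℕ} [hp : Fact p.Prime] [CharP k p] {π : k[X]} {h : SL(2, k[X])}
    (he : ev π h = 1) (m : ℕ) : ev (π ^ (p ^ m)) (h ^ (p ^ m)) = 1 := by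
  rw [ev_eq_one_iff] at he
  obtain ⟨⟨a, ha⟩, ⟨b, hb⟩, ⟨c, hc⟩, ⟨d, hd⟩⟩ := he
  have hA : h.1 = 1 + π • !![a, b; c, d] := by
    refine Matrix.ext fun i j => ?_
    fin_cases i <;> fin_cases j
    · show h.1 0 0 = (1 : Matrix (Fin 2) (Fin 2) k[X]) 0 0 + π * a
      rw [Matrix.one_apply_eq]
      linear_combination ha
    · show h.1 0 1 = (1 : Matrix (Fin 2) (Fin 2) k[X]) 0 1 + π * b
      rw [Matrix.one_apply_ne (by simp : (0 : Fin 2) ≠ 1), hb, zero_add]
    · show h.1 1 0 = (1 : Matrix (Fin 2) (Fin 2) k[X]) 1 0 + π * c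
      rw [Matrix.one_apply_ne (by simp : (1 : Fin 2) ≠ 0), hc, zero_add]
    · show h.1 1 1 = (1 : Matrix (Fin 2) (Fin 2) k[X]) 1 1 + π * d
      rw [Matrix.one_apply_eq]
      linear_combination hd
  haveI : CharP (Matrix (Fin 2) (Fin 2) k[X]) p := Matrix.charP p
  have h1 : (h ^ (p ^ m)).1 = 1 + (π ^ (p ^ m)) • (!![a, b; c, d] ^ (p ^ m)) := by
    rw [Matrix.SpecialLinearGroup.coe_pow, hA, add_pow_char_pow_of_commute p m (Commute.one_left _),
      one_pow, _root_.smul_pow]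
  rw [ev_eq_one_iff, h1]
  set D := !![a, b; c, d] ^ (p ^ m) with hD
  refine ⟨⟨D 0 0, ?_⟩, ⟨D 0 1, ?_⟩, ⟨D 1 0, ?_⟩, ⟨D 1 1, ?_⟩⟩
  · simp only [Matrix.add_apply, Matrix.smul_apply, smul_eq_mul, Matrix.one_apply_eq]
    ring
  · simp only [Matrix.add_apply, Matrix.smul_apply, smul_eq_mul, Matrix.one_apply_ne (by simp : (0 : Fin 2) ≠ 1)]
    ring
  · simp only [Matrix.add_apply, Matrix.smul_apply, smul_eq_mul, Matrix.one_apply_ne (by simp : (1 : Fin 2) ≠ 0)]
    ring
  · simp only [Matrix.add_apply, Matrix.smul_apply, smul_eq_mul, Matrix.one_apply_eq]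
    ring

/-- From the prime to its powers. -/
theorem sep_pow (h2 : (2 : k) ≠ 0) (h3 : Nat.card k ≠ 3) (hX₁ : ¬ X ∣ f) {π : k[X]} (hπ : Irreducible π)
    (hc : IsCoprime f π) (i : ℕ) :
    ∃ h ∈ NN (π ^ i), ev f h ≠ 1 ∧ ev f h ≠ -1 := by
  classical
  haveI : Fintype k := Fintype.ofFinite k
  obtain ⟨p, hchar⟩ := CharP.exists k
  haveI := hchar
  have hpp : p.Prime := by
    rcases CharP.char_is_prime_or_zero k p with h | h
    · exact h
    · subst h
      exact absurd (ringChar.eq k 0) (CharP.ringChar_ne_zero_of_finite k)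
  haveI : Fact p.Prime := ⟨hpp⟩
  obtain ⟨n, -, hq⟩ := FiniteField.card k p
  have h2' := two_ne_zero' (f := f) h2
  -- an element `s` with `s² ≠ 1`
  have hs : ∃ s : k, s ≠ 0 ∧ s ≠ 1 ∧ s ≠ -1 := by
    by_contra hcon
    push Not at hcon
    have h4 := four_le_card h2 h3
    have h5 : (Finset.univ : Finset k) ⊆ {0, 1, -1} := by
      intro s _
      by_cases h0 : s = 0
      · simp [h0]
      by_cases h1 : s = 1
      · simp [h1]
      · simp [hcon s h0 h1]
    have h6 := Finset.card_le_card h5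
    rw [Finset.card_univ, ← Nat.card_eq_fintype_card] at h6
    have h7 : ({0, 1, -1} : Finset k).card ≤ 3 := Finset.card_le_three
    omega
  obtain ⟨s, hs0, hs1, hsm⟩ := hs
  have hs' : algebraMap k (AdjoinRoot f) s ≠ 0 := by
    simpa using hs0
  obtain ⟨h₀, hh₀, h₀1, h₀m⟩ := sep_prime h2 h3 hX₁ hπ hc
  have htop := map_NN_eq_top h2 h3 hX₁ π hh₀ h₀1 h₀m
  have hd : d _ hs' ∈ (NN π).map (ev f) := by rw [htop]; trivial
  obtain ⟨h, hh, he⟩ := hd
  obtain ⟨hπe, hG⟩ := mem_NN.1 hh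
  refine ⟨h ^ (p ^ ((n : ℕ) * i)), ?_, ?_⟩
  · rw [mem_NN]
    refine ⟨?_, (Gam k).pow_mem hG _⟩
    refine ev_one_of_dvd (pow_dvd_pow π ?_) (ev_pow_prime_pow hπe _)
    have : (n : ℕ) * i < p ^ ((n : ℕ) * i) := Nat.lt_pow_self hpp.one_lt
    have h8 : i ≤ (n : ℕ) * i := Nat.le_mul_of_pos_left i n.pos
    omega
  · have e : ev f (h ^ (p ^ ((n : ℕ) * i))) = d _ hs' := by
      rw [map_pow, he, d_pow]
      have : s ^ p ^ ((n : ℕ) * i) = s := by
        rw [pow_mul, ← hq]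
        exact FiniteField.pow_card_pow i s
      congr 1
      rw [← map_pow, this]
    rw [e]
    constructor
    · intro h9
      have := congrArg (fun A : SL(2, AdjoinRoot f) => A.1 0 0) h9
      simp only [d_00, one_00] at this
      exact hs1 ((algebraMap k (AdjoinRoot f)).injective (by rw [this, map_one]))
    · intro h9
      have := congrArg (fun A : SL(2, AdjoinRoot f) => A.1 0 0) h9
      simp only [d_00, neg_00, one_00] at this
      exact hsm ((algebraMap k (AdjoinRoot f)).injective (by rw [this, map_neg, map_one]))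

/-- **Separation**: for `g` prime to `f`, some element is `1` modulo `g` and non-central modulo `f`. -/
theorem sep (h2 : (2 : k) ≠ 0) (h3 : Nat.card k ≠ 3) (hX₁ : ¬ X ∣ f) (g : k[X]) (hg : IsCoprime f g) :
    ∃ h ∈ NN g, ev f h ≠ 1 ∧ ev f h ≠ -1 := by
  have h2' := two_ne_zero' (f := f) h2
  revert hg
  induction g using UniqueFactorizationMonoid.induction_on_coprime with
  | h0 =>
    intro hg
    exfalso
    rw [isCoprime_zero_right] at hg
    exact hf.out.not_isUnit hg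
  | h1 hu =>
    intro _
    -- a unit: everything is `1`
    rename_i u
    refine ⟨x 1, mem_NN.2 ⟨ev_eq_one_iff.2 ⟨hu.dvd, hu.dvd, hu.dvd, hu.dvd⟩, ?_⟩, ?_, ?_⟩
    · simpa using x_mem (1 : k)
    · rw [ev_x, map_one]
      intro h
      have := congrArg (fun A : SL(2, AdjoinRoot f) => A.1 0 1) h
      simp at this
    · rw [ev_x, map_one]
      intro h
      have := congrArg (fun A : SL(2, AdjoinRoot f) => A.1 0 1) h
      simp at this
  | hpr i hp =>
    intro hg
    rename_i π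
    by_cases hi : i = 0
    · subst hi
      refine ⟨x 1, mem_NN.2 ⟨ev_eq_one_iff.2 ?_, ?_⟩, ?_, ?_⟩
      · simp
      · simpa using x_mem (1 : k)
      · rw [ev_x, map_one]
        intro h
        have := congrArg (fun A : SL(2, AdjoinRoot f) => A.1 0 1) h
        simp at this
      · rw [ev_x, map_one]
        intro h
        have := congrArg (fun A : SL(2, AdjoinRoot f) => A.1 0 1) h
        simp at this
    · have hg' : IsCoprime f π := (IsCoprime.pow_right_iff (Nat.pos_of_ne_zero hi)).1 hg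
      exact sep_pow h2 h3 hX₁ hp.irreducible hg' i
  | hcp hxy hx hy =>
    intro hg
    rename_i u v
    have hgu : IsCoprime f u := hg.of_mul_right_left
    have hgv : IsCoprime f v := hg.of_mul_right_right
    obtain ⟨a₀, ha₀, a1, am⟩ := hx hgu
    obtain ⟨b₀, hb₀, b1, bm⟩ := hy hgv
    have htu := map_NN_eq_top h2 h3 hX₁ u ha₀ a1 am
    have htv := map_NN_eq_top h2 h3 hX₁ v hb₀ b1 bm
    have hau : x 1 ∈ (NN u).map (ev f) := by rw [htu]; trivial
    have hbv : y 1 ∈ (NN v).map (ev f) := by rw [htv]; trivial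
    obtain ⟨a, ha, ea⟩ := hau
    obtain ⟨b, hb, eb⟩ := hbv
    obtain ⟨ha1, haG⟩ := mem_NN.1 ha
    obtain ⟨hb1, hbG⟩ := mem_NN.1 hb
    have hcop : IsCoprime u v := hxy.isCoprime
    refine ⟨a * b * a⁻¹ * b⁻¹, mem_NN.2 ⟨ev_one_mul_of_coprime hcop ?_ ?_, ?_⟩, ?_⟩
    · simp only [map_mul, map_inv, ha1]
      simp
    · simp only [map_mul, map_inv, hb1]
      simp
    · exact (Gam k).mul_mem ((Gam k).mul_mem ((Gam k).mul_mem haG hbG) ((Gam k).inv_mem haG)) ((Gam k).inv_mem hbG)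
    · simp only [map_mul, map_inv, ea, eb]
      exact comm_x_y_noncentral

end Finite

end Cfsg.Agent.Lib.Linalg.Quad.Sep
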