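import Cfsg.Agent.Lib.Linalg.Quad.UType
import Cfsg.Agent.S5061
import Mathlib

/-!
# Existence of non-unipotent conjugates; surjectivity of the commutator maps
-/

set_option autoImplicit false

namespace Cfsg.Agent.Lib.Linalg.Quad.Surj

open Polynomial
open Cfsg.Agent.Lib.Linalg.Quad.Dich Cfsg.Agent.Lib.Linalg.Quad.Psi Cfsg.Agent.Lib.Linalg.Quad.Root
  Cfsg.Agent.Lib.Linalg.Quad.Pair Cfsg.Agent.Lib.Linalg.Quad.NType Cfsg.Agent.Lib.Linalg.Quad.UType

variable {k : Type*} [Field k] {M : Type*} [AddCommGroup M] [Module k M]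

lemma NTy_cj {x y : M →ₗ[k] M} (h : NTy x y) (g : LinearMap.GeneralLinearGroup k M) :
    NTy (cj g x) (cj g y) := by
  have e : ∀ z : M →ₗ[k] M, ∀ v, (cj g z) v = 0 →
      z (((g⁻¹ : LinearMap.GeneralLinearGroup k M) : M →ₗ[k] M) v) = 0 := by
    intro z v hv
    exact (mem_ker_cj g z v).1 hv
  have e2 : ∀ v : M, (g : M →ₗ[k] M) (((g⁻¹ : LinearMap.GeneralLinearGroup k M) : M →ₗ[k] M) v) = v := by
    intro v
    have h' : (g : M →ₗ[k] M) * ((g⁻¹ : LinearMap.GeneralLinearGroup k M) : M →ₗ[k] M) = 1 := by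
      rw [← Units.val_mul]; simp
    exact congrArg (fun f : M →ₗ[k] M => f v) h'
  constructor
  · intro v hv hy
    have h1 := (mem_range_cj g x v).1 hv
    have h4 := h.inj_x _ h1 (e y v hy)
    rw [← e2 v, h4, map_zero]
  · intro v hv hy
    have h1 := (mem_range_cj g y v).1 hv
    have h4 := h.inj_y _ h1 (e x v hy)
    rw [← e2 v, h4, map_zero]

/-- A unipotent subgroup has nonzero fixed vectors. -/
lemma exists_fixed {H : Subgroup (LinearMap.GeneralLinearGroup k M)} (hH : Cfsg.IsUnipotentOn H)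
    (hM : ∃ m : M, m ≠ 0) : ∃ w : M, w ≠ 0 ∧ w ∈ Cfsg.fixedSubmodule H := by
  obtain ⟨n, hn⟩ := hH
  induction n with
  | zero =>
    exfalso
    have := hn [] (by simp) rfl
    obtain ⟨m, hm⟩ := hM
    apply hm
    have h1 := congrArg (fun f : M →ₗ[k] M => f m) this
    simpa using h1
  | succ n ih =>
    by_cases h : ∀ l : List (LinearMap.GeneralLinearGroup k M), (∀ g ∈ l, g ∈ H) → l.length = n →
        (l.map fun g => (g : M →ₗ[k] M) - 1).prod = 0
    · exact ih h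
    · push Not at h
      obtain ⟨l, hl, hlen, hne⟩ := h
      obtain ⟨m, hm⟩ : ∃ m, (l.map fun g => (g : M →ₗ[k] M) - 1).prod m ≠ 0 := by
        by_contra hall
        push Not at hall
        exact hne (LinearMap.ext hall)
      refine ⟨_, hm, ?_⟩
      simp only [Cfsg.fixedSubmodule, Submodule.mem_iInf, LinearMap.mem_ker]
      intro g hg
      have h1 := hn (g :: l) (fun u hu => by
        rcases List.mem_cons.1 hu with rfl | hu
        · exact hg
        · exact hl u hu) (by simp [hlen])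
      have h1' : ((g : M →ₗ[k] M) - 1) * (l.map fun g => (g : M →ₗ[k] M) - 1).prod = 0 := h1
      exact congrArg (fun f : M →ₗ[k] M => f m) h1'

variable [FiniteDimensional k M] {G : Subgroup (LinearMap.GeneralLinearGroup k M)}
  {σ τ ρ : LinearMap.GeneralLinearGroup k M}

/-- There is a conjugate forming a non-unipotent pair. -/
theorem exists_conj_NTy (hG : Cfsg.IsQuadraticPair G) (h2 : (2 : k) ≠ 0) (h3 : Nat.card k ≠ 3)
    (hρ : ρ ∈ Cfsg.minimalQuadraticElements G) :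
    ∃ g ∈ G, NTy (NN ρ) (cj g (NN ρ)) := by
  by_contra hcon
  push Not at hcon
  set D := Cfsg.sameActionSubgroup G ρ with hD
  let W : Set (Subgroup (LinearMap.GeneralLinearGroup k M)) := {A | ∃ g ∈ G, A = Cfsg.conjBy D g}
  have hWE : ∀ g ∈ G, Cfsg.conjBy D g = Cfsg.sameActionSubgroup G (g * ρ * g⁻¹) := fun g hg => conjBy_E hρ hg
  have hWG : ∀ A ∈ W, A ≤ G := by
    rintro _ ⟨g, hg, rfl⟩
    rw [hWE g hg]
    exact E_le_G
  have hWW : ∀ A ∈ W, ∀ B ∈ W, Cfsg.IsUnipotentOn (A ⊔ B) := by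
    rintro _ ⟨g₁, hg₁, rfl⟩ _ ⟨g₂, hg₂, rfl⟩
    rw [hWE g₁ hg₁, hWE g₂ hg₂]
    apply unipotent_of_not_NTy h2 h3 (conj_mem_min hρ hg₁) (conj_mem_min hρ hg₂)
    intro hN
    have e1 := NN_conj g₁ ρ
    have e2 := NN_conj g₂ ρ
    simp only [NN] at e1 e2 hN
    rw [e1, e2] at hN
    have h4 := NTy_cj hN g₁⁻¹
    rw [cj_inv_cj] at h4
    apply hcon (g₁⁻¹ * g₂) (G.mul_mem (G.inv_mem hg₁) hg₂)
    have e3 : cj (g₁⁻¹ * g₂) (NN ρ) = cj g₁⁻¹ (cj g₂ (NN ρ)) := by
      simp only [cj, Units.val_mul, mul_inv_rev, mul_assoc]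
    rw [e3]
    exact h4
  have hWconj : ∀ A ∈ W, ∀ g ∈ G, Cfsg.conjBy A g ∈ W := by
    rintro _ ⟨g₁, hg₁, rfl⟩ g hg
    refine ⟨g * g₁, G.mul_mem hg hg₁, ?_⟩
    rw [conjBy_mul]
  obtain ⟨hU, hnorm⟩ := Cfsg.Agent.S5061.result hWG hWW hWconj
  obtain ⟨w, hw0, hw⟩ := exists_fixed hU hG.1.1
  have hinv : ∀ g ∈ G, ∀ v ∈ Cfsg.fixedSubmodule (⨆ A ∈ W, A), (g : M →ₗ[k] M) v ∈ Cfsg.fixedSubmodule (⨆ A ∈ W, A) := by
    intro g hg v hv
    simp only [Cfsg.fixedSubmodule, Submodule.mem_iInf, LinearMap.mem_ker] at hv ⊢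
    intro h hh
    have h4 : g⁻¹ * h * g ∈ (⨆ A ∈ W, A) := by
      have h5 : g⁻¹ * h * g⁻¹⁻¹ ∈ Cfsg.conjBy (⨆ A ∈ W, A) g⁻¹ := ⟨h, hh, rfl⟩
      rw [hnorm g⁻¹ (G.inv_mem hg)] at h5
      simpa using h5
    have h5 := hv _ h4
    have h6 : (g : M →ₗ[k] M) * (((g⁻¹ * h * g : LinearMap.GeneralLinearGroup k M) : M →ₗ[k] M) - 1) =
        ((h : M →ₗ[k] M) - 1) * (g : M →ₗ[k] M) := by
      have h7 : (g : M →ₗ[k] M) * ((g⁻¹ : LinearMap.GeneralLinearGroup k M) : M →ₗ[k] M) = 1 := by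
        rw [← Units.val_mul]; simp
      simp only [Units.val_mul, mul_sub, sub_mul, mul_one, one_mul]
      rw [← mul_assoc, ← mul_assoc, h7, one_mul]
    have h8 := congrArg (fun f : M →ₗ[k] M => f v) h6
    simp only [Module.End.mul_apply] at h8
    rw [← h8, h5, map_zero]
  rcases hG.1.2 _ hinv with h0 | htop
  · rw [h0, Submodule.mem_bot] at hw
    exact hw0 hw
  · -- everything acts trivially
    have hρN : ρ ∈ (⨆ A ∈ W, A) := by
      have h5 : D ≤ ⨆ A ∈ W, A := by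
        refine le_iSup₂_of_le D ⟨1, G.one_mem, ?_⟩ le_rfl
        exact (conjBy_one' D).symm
      exact h5 (Subgroup.subset_closure ⟨hρ, rfl, rfl⟩)
    apply (minLog_of_mem hρ).ne
    ext v
    have hv : v ∈ Cfsg.fixedSubmodule (⨆ A ∈ W, A) := by rw [htop]; trivial
    simp only [Cfsg.fixedSubmodule, Submodule.mem_iInf, LinearMap.mem_ker] at hv
    exact hv ρ hρN

/-- Conjugation between logarithm spaces. -/
lemma finrank_LL_le_of_cj {x₁ x₂ : M →ₗ[k] M} (h₁ : MinLog G x₁) (h₂ : MinLog G x₂)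
    {g : LinearMap.GeneralLinearGroup k M} (hg : g ∈ G) (hs : Same x₁ (cj g x₂)) :
    Module.finrank k (LL h₂) ≤ Module.finrank k (LL h₁) := by
  have hmem : ∀ z ∈ LL h₂, cj g z ∈ LL h₁ := by
    rintro z (rfl | ⟨h3, h4⟩)
    · left; simp [cj]
    · right
      exact ⟨minLog_cj h3 hg, hs.trans (h4.cj g)⟩
  let L : LL h₂ →ₗ[k] LL h₁ :=
    { toFun := fun z => ⟨cj g z.1, hmem z.1 z.2⟩
      map_add' := fun a b => Subtype.ext (cj_add g a.1 b.1)
      map_smul' := fun c a => Subtype.ext (cj_smul g c a.1) }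
  apply LinearMap.finrank_le_finrank_of_injective (f := L)
  intro a b hab
  have h4 : cj g a.1 = cj g b.1 := congrArg Subtype.val hab
  have h5 := congrArg (cj g⁻¹) h4
  rw [cj_inv_cj, cj_inv_cj] at h5
  exact Subtype.ext h5

/-- The commutator map between logarithm spaces. -/
lemma exists_phi {a b c : M →ₗ[k] M} (h2 : (2 : k) ≠ 0) (h3 : Nat.card k ≠ 3) (Q : UPair G a b) (hN : ¬ NTy a b)
    (hz : zz a b ≠ 0) (hc : MinLog G c) (hcz : zz a b = c) :
    ∃ L : LL Q.hy →ₗ[k] LL hc, Function.Injective L ∧ ∀ w, (L w : M →ₗ[k] M) = zz a w.1 := by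
  subst hcz
  have hmem : ∀ w ∈ LL Q.hy, zz a w ∈ LL hc := by
    rintro w (rfl | ⟨h5, h6⟩)
    · left; simp [zz]
    · right
      have Q' := upair_of_not h2 h3 hN Q.hx h5 (Same.refl _) h6
      have hne : zz a w ≠ 0 := z_ne Q Q' hz (Same.refl _) h6
      exact ⟨Q'.minZ hne, same_z Q Q' hz hne (Same.refl _) h6⟩
  refine ⟨{ toFun := fun w => ⟨zz a w.1, hmem w.1 w.2⟩
            map_add' := fun u v => Subtype.ext (zz_add_right a u.1 v.1)
            map_smul' := fun c u => Subtype.ext (zz_smul_right c a u.1) }, ?_, fun w => rfl⟩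
  rw [injective_iff_map_eq_zero]
  intro w hw
  have h4 : zz a w.1 = 0 := congrArg Subtype.val hw
  by_contra h5
  have h6 : w.1 ≠ 0 := fun h => h5 (Subtype.ext h)
  have h7 := w.2.resolve_left h6
  have Q' := upair_of_not h2 h3 hN Q.hx h7.1 (Same.refl _) h7.2
  exact z_ne Q Q' hz (Same.refl _) h7.2 h4

/-- The algebraic identity for the lifting of `y`. -/
lemma lift_identity {x y z'' : M →ₗ[k] M} (P : UPair G x y) (hz : zz x y ≠ 0) (hex : Exact (zz x y) z'')
    (hU : z'' * y * z'' = 0) : y * (z'' * zz x y) + (zz x y * z'') * y = y := by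
  ext v
  obtain ⟨z, hzd⟩ : ∃ z, z = zz x y := ⟨_, rfl⟩
  rw [← hzd] at hex ⊢
  have hyz : y * z = 0 := hzd ▸ P.y_mul_z
  have hzy : z * y = 0 := hzd ▸ P.z_mul_y
  have hzz := hex.xx
  have hzzz := hex.xyx
  obtain ⟨c, hc⟩ : ∃ c, c = v - z'' (z v) - z (z'' v) := ⟨_, rfl⟩
  have hcz : z c = 0 := by
    rw [hc, map_sub, map_sub]
    have e1 : z (z'' (z v)) = z v := congrArg (fun F : M →ₗ[k] M => F v) hzzz
    have e2 : z (z (z'' v)) = 0 := congrArg (fun F : M →ₗ[k] M => F (z'' v)) hzz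
    rw [e1, e2, sub_self, sub_zero]
  have hyc : y c ∈ LinearMap.range z := by
    rw [hzd] at hcz ⊢
    exact P.y_ker_z hz hcz
  obtain ⟨u, hu⟩ := hyc
  have e3 : z (z'' (y c)) = y c := by
    rw [← hu]
    exact congrArg (fun F : M →ₗ[k] M => F u) hzzz
  have e4 : y (z (z'' v)) = 0 := congrArg (fun F : M →ₗ[k] M => F (z'' v)) hyz
  have e5 : y v = y c + y (z'' (z v)) := by
    rw [hc, map_sub, map_sub, e4]
    abel
  have e6 : z'' (y (z'' (z v))) = 0 := congrArg (fun F : M →ₗ[k] M => F (z v)) hU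
  show y (z'' (z v)) + z (z'' (y v)) = y v
  rw [e5, map_add, map_add, e3, e6, map_zero, add_zero, add_comm]

/-- The main dimension inequality. -/
theorem finrank_LL_le (hG : Cfsg.IsQuadraticPair G) (h2 : (2 : k) ≠ 0) (h3 : Nat.card k ≠ 3) {x y : M →ₗ[k] M}
    (P : UPair G x y) (hz : zz x y ≠ 0) :
    Module.finrank k (LL (P.minZ hz)) ≤ Module.finrank k (LL P.hy) := by
  have hzm := P.minZ hz
  -- the non-unipotent conjugate
  have hρ := mem_of_minLog hzm
  obtain ⟨g, hg, hNg⟩ := exists_conj_NTy hG h2 h3 hρ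
  rw [NN_oa] at hNg
  obtain ⟨z'', hz'', hs'', hex⟩ := exists_exact h2 h3 hzm (minLog_cj hzm hg) hNg
  rcases pair_dich h2 h3 P.hy hz'' with hN | ⟨hU1, hU2⟩
  · -- conjugate
    obtain ⟨z3, hz3, hs3, hex3⟩ := exists_exact h2 h3 P.hy hz'' hN
    have hw : wU hex3 ∈ G := by
      have h5 := P.hy.oa_mem 1
      have h6 := hz3.oa_mem 1
      exact G.mul_mem (G.mul_mem h5 (G.inv_mem h6)) h5
    have h7 : Module.finrank k (LL hz3) ≤ Module.finrank k (LL P.hy) := by
      apply finrank_LL_le_of_cj P.hy hz3 hw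
      rw [cj_wU_y hex3]
      exact same_neg y
    have h8 : Module.finrank k (LL hzm) ≤ Module.finrank k (LL (minLog_cj hzm hg)) :=
      finrank_LL_le_of_cj (minLog_cj hzm hg) hzm hg (Same.refl _)
    have h9 : LL (minLog_cj hzm hg) = LL hz3 := by
      rw [← LL_eq_of_mem (minLog_cj hzm hg) hz'' hs'']
      exact (LL_eq_of_mem hz'' hz3 hs3).symm
    rw [h9] at h8
    exact h8.trans h7
  · -- unipotent case
    have Q : UPair G y z'' := ⟨P.hy, hz'', hU1, hU2⟩
    obtain ⟨e', he'⟩ : ∃ e', e' = zz y z'' := ⟨_, rfl⟩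
    have hlift : zz e' (zz x y) = y := by
      rw [he']
      have h5 := lift_identity P hz hex hU2
      simp only [zz] at h5 ⊢
      have h6 := P.y_mul_z
      have h7 := P.z_mul_y
      simp only [zz] at h6 h7
      have e1 : (y * z'' - z'' * y) * (x * y - y * x) - (x * y - y * x) * (y * z'' - z'' * y) =
          y * (z'' * (x * y - y * x)) + (x * y - y * x) * z'' * y - z'' * (y * (x * y - y * x)) -
            ((x * y - y * x) * y) * z'' := by noncomm_ring
      rw [e1, h6, h7, mul_zero, zero_mul, sub_zero, sub_zero]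
      exact h5
    have hne : e' ≠ 0 := by
      intro h0
      apply P.hy.ne
      rw [← hlift, h0, zz_zero_left]
    have hQ' : zz y z'' ≠ 0 := he' ▸ hne
    have hme : MinLog G e' := he' ▸ Q.minZ hQ'
    have hzez : zz x y * e' * zz x y = 0 := by
      rw [he']
      have h6 := P.y_mul_z
      have h7 := P.z_mul_y
      simp only [zz] at h6 h7 ⊢
      have e1 : (x * y - y * x) * (y * z'' - z'' * y) * (x * y - y * x) =
          ((x * y - y * x) * y) * z'' * (x * y - y * x) -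
            (x * y - y * x) * z'' * (y * (x * y - y * x)) := by noncomm_ring
      rw [e1, h6, h7, mul_zero, zero_mul, zero_mul, sub_zero]
    have hNe : ¬ NTy e' (zz x y) := fun h => h.symm.not_zero hzm.ne hzez
    have Q2 := upair_of_not h2 h3 hNe hme hzm (Same.refl _) (Same.refl _)
    obtain ⟨L, hL, -⟩ := exists_phi h2 h3 Q2 hNe (by rw [hlift]; exact P.hy.ne) P.hy hlift
    exact LinearMap.finrank_le_finrank_of_injective hL

/-- Surjectivity of the commutator map. -/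
theorem surj_right (hG : Cfsg.IsQuadraticPair G) (h2 : (2 : k) ≠ 0) (h3 : Nat.card k ≠ 3) {x y : M →ₗ[k] M}
    (P : UPair G x y) (hN : ¬ NTy x y) (hz : zz x y ≠ 0) :
    ∀ w ∈ LL (P.minZ hz), ∃ y' ∈ LL P.hy, zz x y' = w := by
  obtain ⟨L, hL, hL'⟩ := exists_phi h2 h3 P hN hz (P.minZ hz) rfl
  have h1 := LinearMap.finrank_le_finrank_of_injective hL
  have h4 := finrank_LL_le hG h2 h3 P hz
  have h5 : Function.Surjective L :=
    (LinearMap.injective_iff_surjective_of_finrank_eq_finrank (le_antisymm h1 h4)).1 hL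
  intro w hw
  obtain ⟨y', hy'⟩ := h5 ⟨w, hw⟩
  refine ⟨y'.1, y'.2, ?_⟩
  rw [← hL']
  exact congrArg Subtype.val hy'

/-- Surjectivity of the commutator map, other side. -/
theorem surj_left (hG : Cfsg.IsQuadraticPair G) (h2 : (2 : k) ≠ 0) (h3 : Nat.card k ≠ 3) {x y : M →ₗ[k] M}
    (P : UPair G x y) (hN : ¬ NTy x y) (hz : zz x y ≠ 0) :
    ∀ w ∈ LL (P.minZ hz), ∃ x' ∈ LL P.hx, zz x' y = w := by
  intro w hw
  have hz' : zz y x ≠ 0 := by rw [zz_swap x y]; exact neg_ne_zero.2 hz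
  have hs : LL (P.symm.minZ hz') = LL (P.minZ hz) := by
    refine LL_eq_of_mem (P.minZ hz) (P.symm.minZ hz') ?_
    rw [zz_swap x y]
    exact same_neg _
  have hw' : -w ∈ LL (P.symm.minZ hz') := by
    rw [hs]
    exact Submodule.neg_mem _ hw
  obtain ⟨x', hx', e⟩ := surj_right hG h2 h3 P.symm (fun h => hN h.symm) hz' (-w) hw'
  refine ⟨x', hx', ?_⟩
  rw [zz_swap x' y] at e
  exact neg_inj.1 e

end Cfsg.Agent.Lib.Linalg.Quad.Surj
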