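import Cfsg.Agent.Lib.Linalg.Quad.NType
import Mathlib

/-!
# The unipotent type
-/

set_option autoImplicit false

namespace Cfsg.Agent.Lib.Linalg.Quad.UType

open Polynomial
open Cfsg.Agent.Lib.Linalg.Quad.Dich Cfsg.Agent.Lib.Linalg.Quad.Psi Cfsg.Agent.Lib.Linalg.Quad.Root
  Cfsg.Agent.Lib.Linalg.Quad.Pair Cfsg.Agent.Lib.Linalg.Quad.NType

variable {k : Type*} [Field k] {M : Type*} [AddCommGroup M] [Module k M]

/-- The commutator in the associative algebra. -/
abbrev zz (x y : M →ₗ[k] M) : M →ₗ[k] M := x * y - y * x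

lemma zz_swap (x y : M →ₗ[k] M) : zz y x = - zz x y := by simp [zz]

lemma zz_add_left (x x' y : M →ₗ[k] M) : zz (x + x') y = zz x y + zz x' y := by
  simp only [zz, add_mul, mul_add]; abel

lemma zz_add_right (x y y' : M →ₗ[k] M) : zz x (y + y') = zz x y + zz x y' := by
  simp only [zz, add_mul, mul_add]; abel

lemma zz_smul_left (c : k) (x y : M →ₗ[k] M) : zz (c • x) y = c • zz x y := by
  simp only [zz, smul_mul_assoc, mul_smul_comm, smul_sub]

lemma zz_smul_right (c : k) (x y : M →ₗ[k] M) : zz x (c • y) = c • zz x y := by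
  simp only [zz, smul_mul_assoc, mul_smul_comm, smul_sub]

lemma zz_zero_left (y : M →ₗ[k] M) : zz 0 y = 0 := by simp [zz]

lemma zz_zero_right (x : M →ₗ[k] M) : zz x 0 = 0 := by simp [zz]

lemma comm_alg {A : Type*} [Ring A] {a b : A} (h1 : a * a = 0) (h2 : b * b = 0) (h3 : a * b * a = 0)
    (h4 : b * a * b = 0) : (1 + a) * (1 + b) * (1 + -a) * (1 + -b) = 1 + (a * b - b * a) := by
  have h5 : ∀ w, a * (a * w) = 0 := fun w => by rw [← mul_assoc, h1, zero_mul]
  have h6 : ∀ w, b * (b * w) = 0 := fun w => by rw [← mul_assoc, h2, zero_mul]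
  have h7 : a * (b * a) = 0 := by rw [← mul_assoc, h3]
  have h8 : b * (a * b) = 0 := by rw [← mul_assoc, h4]
  have h9 : ∀ w, a * (b * (a * w)) = 0 := fun w => by
    calc a * (b * (a * w)) = (a * b * a) * w := by noncomm_ring
      _ = 0 := by rw [h3, zero_mul]
  have h10 : ∀ w, b * (a * (b * w)) = 0 := fun w => by
    calc b * (a * (b * w)) = (b * a * b) * w := by noncomm_ring
      _ = 0 := by rw [h4, zero_mul]
  simp only [add_mul, mul_add, mul_neg, neg_mul, one_mul, mul_one, mul_assoc, h1, h2, h5, h6, h7, h8, h9, h10,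
    neg_zero, add_zero, zero_add, mul_zero]
  abel

/-- The group commutator. -/
lemma comm_val {x y : M →ₗ[k] M} (hxx : x * x = 0) (hyy : y * y = 0) (hxyx : x * y * x = 0) (hyxy : y * x * y = 0)
    (c c' : k) :
    ((oa x hxx c * oa y hyy c' * (oa x hxx c)⁻¹ * (oa y hyy c')⁻¹ : LinearMap.GeneralLinearGroup k M) : M →ₗ[k] M) =
      1 + (c * c') • zz x y := by
  rw [oa_inv, oa_inv]
  simp only [Units.val_mul, oa_val, neg_smul]
  rw [comm_alg (a := c • x) (b := c' • y)]
  · congr 1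
    simp only [zz, smul_mul_assoc, mul_smul_comm, smul_sub, mul_comm c c', mul_smul]
    rw [smul_comm c c']
  · simp only [smul_mul_assoc, mul_smul_comm, hxx, smul_zero]
  · simp only [smul_mul_assoc, mul_smul_comm, hyy, smul_zero]
  · simp only [smul_mul_assoc, mul_smul_comm, hxyx, smul_zero]
  · simp only [smul_mul_assoc, mul_smul_comm, hyxy, smul_zero]

/-- Rank-nullity on a subspace. -/
lemma finrank_map_add_inf [FiniteDimensional k M] (R : Submodule k M) (f : M →ₗ[k] M) :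
    Module.finrank k (R.map f) + Module.finrank k (R ⊓ LinearMap.ker f : Submodule k M) = Module.finrank k R := by
  have h1 := LinearMap.finrank_range_add_finrank_ker (f.domRestrict R)
  rw [LinearMap.range_domRestrict] at h1
  rw [← h1]
  congr 1
  have h2 : LinearMap.ker (f.domRestrict R) = (R ⊓ LinearMap.ker f).comap R.subtype := by
    ext v
    simp [LinearMap.mem_ker]
  rw [h2]
  exact (LinearEquiv.finrank_eq (Submodule.comapSubtypeEquivOfLe inf_le_left)).symm

variable [FiniteDimensional k M] {G : Subgroup (LinearMap.GeneralLinearGroup k M)}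

/-- The unipotent pairs. -/
structure UPair (G : Subgroup (LinearMap.GeneralLinearGroup k M)) (x y : M →ₗ[k] M) : Prop where
  hx : MinLog G x
  hy : MinLog G y
  xyx : x * y * x = 0
  yxy : y * x * y = 0

namespace UPair

variable {x y : M →ₗ[k] M} (P : UPair G x y)
include P

lemma symm : UPair G y x := ⟨P.hy, P.hx, P.yxy, P.xyx⟩

lemma rk_eq : rk x = rk y := le_antisymm (P.hx.min _ P.hy.toLogQ) (P.hy.min _ P.hx.toLogQ)

lemma sq_z : zz x y * zz x y = 0 := by
  have hxx := P.hx.sq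
  have hyy := P.hy.sq
  have e := sq_diff hxx hyy
  simp only [zz]
  rw [e]
  have e1 : TT x y * x = 0 := by rw [TT_mul_x hxx hyy, P.xyx]
  have e2 : TT x y * y = 0 := by rw [TT_mul_y hxx hyy, P.yxy]
  show TT x y * (x * y + y * x) = 0
  rw [mul_add, ← mul_assoc, ← mul_assoc, e1, e2, zero_mul, zero_mul, add_zero]

lemma mem_z (c : k) (u : LinearMap.GeneralLinearGroup k M) (hu : (u : M →ₗ[k] M) = 1 + c • zz x y) : u ∈ G := by
  have h1 := comm_val P.hx.sq P.hy.sq P.xyx P.yxy c 1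
  rw [mul_one, ← hu] at h1
  have : u = oa x P.hx.sq c * oa y P.hy.sq 1 * (oa x P.hx.sq c)⁻¹ * (oa y P.hy.sq 1)⁻¹ := Units.ext h1.symm
  rw [this]
  have h3 := P.hx.oa_mem c
  have h4 := P.hy.oa_mem 1
  exact G.mul_mem (G.mul_mem (G.mul_mem h3 h4) (G.inv_mem h3)) (G.inv_mem h4)

lemma rk_le : rk (x * y) + rk (y * x) ≤ rk y := by
  have h1 := finrank_map_add_inf (LinearMap.range y) x
  have h2 : LinearMap.range (y * x) ≤ LinearMap.range y ⊓ LinearMap.ker x := by
    rintro _ ⟨v, rfl⟩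
    refine ⟨⟨x v, rfl⟩, ?_⟩
    exact congrArg (fun f : M →ₗ[k] M => f v) P.xyx
  have h3 := Submodule.finrank_mono h2
  unfold rk
  rw [range_mul x y]
  omega

lemma range_z_le : LinearMap.range (zz x y) ≤ LinearMap.range (x * y) ⊔ LinearMap.range (y * x) := by
  rintro _ ⟨v, rfl⟩
  exact Submodule.sub_mem _ (Submodule.mem_sup_left ⟨v, rfl⟩) (Submodule.mem_sup_right ⟨v, rfl⟩)

lemma rk_z_le : rk (zz x y) ≤ rk (x * y) + rk (y * x) :=
  (Submodule.finrank_mono P.range_z_le).trans (Submodule.finrank_add_le_finrank_add_finrank _ _)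

variable (hz : zz x y ≠ 0)
include hz

lemma logQ_z : LogQ G (zz x y) := ⟨P.sq_z, hz, P.mem_z⟩

lemma rk_z : rk (zz x y) = rk y := by
  have h1 := P.hy.min _ (P.logQ_z hz)
  have h2 := P.rk_z_le
  have h3 := P.rk_le
  omega

lemma rk_sum : rk (x * y) + rk (y * x) = rk y := by
  have h1 := P.hy.min _ (P.logQ_z hz)
  have h2 := P.rk_z_le
  have h3 := P.rk_le
  omega

lemma minZ : MinLog G (zz x y) := by
  refine ⟨P.logQ_z hz, fun w hw => ?_⟩
  rw [P.rk_z hz]
  exact P.hy.min w hw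

lemma range_xy : LinearMap.range (x * y) = LinearMap.range x ⊓ LinearMap.ker y := by
  apply Submodule.eq_of_le_of_finrank_le
  · rintro _ ⟨v, rfl⟩
    refine ⟨⟨y v, rfl⟩, ?_⟩
    exact congrArg (fun f : M →ₗ[k] M => f v) P.yxy
  · have h1 := finrank_map_add_inf (LinearMap.range x) y
    rw [← range_mul y x] at h1
    have h2 := P.rk_sum hz
    have h3 := P.rk_eq
    unfold rk at h2 h3
    omega

lemma range_yx : LinearMap.range (y * x) = LinearMap.range y ⊓ LinearMap.ker x := by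
  have h : zz y x ≠ 0 := by rw [zz_swap]; exact neg_ne_zero.2 hz
  exact P.symm.range_xy h

lemma range_z : LinearMap.range (zz x y) = LinearMap.range (x * y) ⊔ LinearMap.range (y * x) := by
  apply Submodule.eq_of_le_of_finrank_le P.range_z_le
  have h1 := Submodule.finrank_add_le_finrank_add_finrank (LinearMap.range (x * y)) (LinearMap.range (y * x))
  have h2 := P.rk_sum hz
  have h3 := P.rk_z hz
  unfold rk at h2 h3
  omega

lemma disj : (LinearMap.range (x * y)) ⊓ (LinearMap.range (y * x)) = ⊥ := by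
  have h1 := Submodule.finrank_sup_add_finrank_inf_eq (LinearMap.range (x * y)) (LinearMap.range (y * x))
  rw [← P.range_z hz] at h1
  have h2 := P.rk_sum hz
  have h3 := P.rk_z hz
  unfold rk at h2 h3
  have h4 : Module.finrank k ((LinearMap.range (x * y) ⊓ LinearMap.range (y * x) : Submodule k M)) = 0 := by omega
  exact Submodule.finrank_eq_zero.1 h4

lemma ker_xy : LinearMap.ker (x * y) = LinearMap.ker y ⊔ LinearMap.range x := by
  symm
  apply Submodule.eq_of_le_of_finrank_le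
  · refine sup_le ?_ ?_
    · intro v hv
      have h0 : y v = 0 := hv
      simp [h0]
    · rintro _ ⟨v, rfl⟩
      exact congrArg (fun f : M →ₗ[k] M => f v) P.xyx
  · have h1 := Submodule.finrank_sup_add_finrank_inf_eq (LinearMap.ker y) (LinearMap.range x)
    have h2 := LinearMap.finrank_range_add_finrank_ker (x * y)
    have h3 := LinearMap.finrank_range_add_finrank_ker y
    have h4 : Module.finrank k ((LinearMap.ker y ⊓ LinearMap.range x : Submodule k M)) = rk (x * y) := by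
      unfold rk
      rw [P.range_xy hz, inf_comm]
    have h5 := P.rk_eq
    unfold rk at h4 h5
    omega

lemma ker_yx : LinearMap.ker (y * x) = LinearMap.ker x ⊔ LinearMap.range y := by
  have h : zz y x ≠ 0 := by rw [zz_swap]; exact neg_ne_zero.2 hz
  exact P.symm.ker_xy h

lemma ker_z : LinearMap.ker (zz x y) = (LinearMap.ker y ⊔ LinearMap.range x) ⊓ (LinearMap.ker x ⊔ LinearMap.range y) := by
  rw [← P.ker_xy hz, ← P.ker_yx hz]
  apply le_antisymm
  · intro v hv
    have h1 : (x * y) v = (y * x) v := by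
      have : (x * y - y * x) v = 0 := hv
      rwa [LinearMap.sub_apply, sub_eq_zero] at this
    have h2 : (x * y) v ∈ (LinearMap.range (x * y)) ⊓ (LinearMap.range (y * x)) :=
      ⟨⟨v, rfl⟩, ⟨v, h1.symm⟩⟩
    rw [P.disj hz, Submodule.mem_bot] at h2
    refine ⟨h2, ?_⟩
    show (y * x) v = 0
    rw [← h1]
    exact h2
  · rintro v ⟨h1, h2⟩
    have h3 : (x * y) v = 0 := h1
    have h4 : (y * x) v = 0 := h2
    show (x * y - y * x) v = 0
    rw [LinearMap.sub_apply, h3, h4, sub_zero]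


/-- Vectors of the fixed space of `z` are mapped into the commutator space. -/
lemma y_ker_z {v : M} (hv : v ∈ LinearMap.ker (zz x y)) : y v ∈ LinearMap.range (zz x y) := by
  rw [P.ker_z hz] at hv
  obtain ⟨a, ha, i, hi, rfl⟩ := Submodule.mem_sup.1 hv.1
  have h1 : y a = 0 := ha
  obtain ⟨u, rfl⟩ := hi
  rw [map_add, h1, zero_add, P.range_z hz]
  exact Submodule.mem_sup_right ⟨u, rfl⟩

lemma x_ker_z {v : M} (hv : v ∈ LinearMap.ker (zz x y)) : x v ∈ LinearMap.range (zz x y) := by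
  rw [P.ker_z hz] at hv
  obtain ⟨a, ha, i, hi, rfl⟩ := Submodule.mem_sup.1 hv.2
  have h1 : x a = 0 := ha
  obtain ⟨u, rfl⟩ := hi
  rw [map_add, h1, zero_add, P.range_z hz]
  exact Submodule.mem_sup_left ⟨u, rfl⟩

omit hz in
lemma y_mul_z : y * zz x y = 0 := by
  simp only [zz, mul_sub]
  rw [← mul_assoc, P.yxy, ← mul_assoc, P.hy.sq, zero_mul, sub_zero]

omit hz in
lemma z_mul_y : zz x y * y = 0 := by
  simp only [zz, sub_mul]
  rw [mul_assoc, P.hy.sq, mul_zero, P.yxy, sub_zero]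

omit hz in
lemma x_mul_z : x * zz x y = 0 := by
  simp only [zz, mul_sub]
  rw [← mul_assoc, P.hx.sq, zero_mul, ← mul_assoc, P.xyx, sub_zero]

omit hz in
lemma z_mul_x : zz x y * x = 0 := by
  simp only [zz, sub_mul]
  rw [P.xyx, mul_assoc, P.hx.sq, mul_zero, sub_zero]

end UPair

/-- The commutator has the same action for two pairs with the same action. -/
lemma same_z {x y x' y' : M →ₗ[k] M} (P : UPair G x y) (P' : UPair G x' y') (hz : zz x y ≠ 0) (hz' : zz x' y' ≠ 0)
    (hx : Same x x') (hy : Same y y') : Same (zz x y) (zz x' y') := by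
  constructor
  · rw [P.ker_z hz, P'.ker_z hz', hx.1, hx.2, hy.1, hy.2]
  · rw [P.range_z hz, P'.range_z hz', P.range_xy hz, P'.range_xy hz', P.range_yx hz, P'.range_yx hz', hx.1, hx.2,
      hy.1, hy.2]

/-- Commutators are nonzero. -/
lemma z_ne {x y x' y' : M →ₗ[k] M} (P : UPair G x y) (P' : UPair G x' y') (hz : zz x y ≠ 0)
    (hx : Same x x') (hy : Same y y') : zz x' y' ≠ 0 := by
  intro h0
  have e : x' * y' = y' * x' := sub_eq_zero.1 h0
  have h1 : x' * y' = 0 := by
    ext v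
    have hmem : (x' * y') v ∈ LinearMap.range (x * y) ⊓ LinearMap.range (y * x) := by
      rw [P.range_xy hz, P.range_yx hz, ← hx.2, ← hx.1, ← hy.2, ← hy.1]
      refine ⟨⟨⟨y' v, rfl⟩, ?_⟩, ⟨⟨x' v, ?_⟩, ?_⟩⟩
      · exact congrArg (fun f : M →ₗ[k] M => f v) P'.yxy
      · exact congrArg (fun f : M →ₗ[k] M => f v) e.symm
      · have : x' * (x' * y') = 0 := by rw [← mul_assoc, P'.hx.sq, zero_mul]
        exact congrArg (fun f : M →ₗ[k] M => f v) this
    rw [P.disj hz, Submodule.mem_bot] at hmem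
    exact hmem
  have h2 : y' * x' = 0 := by rw [← e, h1]
  have h3 : LinearMap.range y' ≤ LinearMap.ker x' := by
    rintro _ ⟨v, rfl⟩
    exact congrArg (fun f : M →ₗ[k] M => f v) h1
  have h4 : LinearMap.range x' ≤ LinearMap.ker y' := by
    rintro _ ⟨v, rfl⟩
    exact congrArg (fun f : M →ₗ[k] M => f v) h2
  rw [hy.2, hx.1] at h3
  rw [hx.2, hy.1] at h4
  have h5 : LinearMap.range (y * x) = LinearMap.range y := by
    rw [P.range_yx hz]; exact inf_eq_left.2 h3
  have h6 : LinearMap.range (x * y) = LinearMap.range x := by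
    rw [P.range_xy hz]; exact inf_eq_left.2 h4
  have h7 := P.rk_sum hz
  have h8 := P.rk_eq
  unfold rk at h7 h8
  rw [h5, h6] at h7
  have h9 : Module.finrank k (LinearMap.range y) = 0 := by omega
  apply P.hy.ne
  exact LinearMap.range_eq_bot.1 (Submodule.finrank_eq_zero.1 h9)

/-- The commutator criterion: one pair of commuting nonzero elements makes all pairs commute. -/
lemma z_eq_zero_of {x y x' y' : M →ₗ[k] M} (P : UPair G x y) (P' : UPair G x' y') (hz : zz x y = 0)
    (hx : Same x x') (hy : Same y y') : zz x' y' = 0 := by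
  by_contra h
  exact z_ne P' P h hx.symm hy.symm hz

/-- Pairs with the same action as a unipotent pair are unipotent. -/
lemma upair_of_not (h2 : (2 : k) ≠ 0) (h3 : Nat.card k ≠ 3) {x y x₁ y₁ : M →ₗ[k] M} (hN : ¬ NTy x y)
    (hx₁ : MinLog G x₁) (hy₁ : MinLog G y₁) (hsx : Same x x₁) (hsy : Same y y₁) : UPair G x₁ y₁ := by
  rcases pair_dich h2 h3 hx₁ hy₁ with h | h
  · exact absurd (h.congr hsx.symm hsy.symm) hN
  · exact ⟨hx₁, hy₁, h.1, h.2⟩

variable {σ τ : LinearMap.GeneralLinearGroup k M}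

lemma mem_E_log (hσ : σ ∈ Cfsg.minimalQuadraticElements G) {a : LinearMap.GeneralLinearGroup k M}
    (ha : a ∈ Cfsg.sameActionSubgroup G σ) (ha1 : a ≠ 1) : MinLog G (NN a) ∧ Same (NN σ) (NN a) :=
  (mem_class_iff hσ).1 (class_of_mem hσ ha ha1)

lemma mul_comm_of_zz {a b : LinearMap.GeneralLinearGroup k M} (h : zz (NN a) (NN b) = 0) : a * b = b * a := by
  apply Units.ext
  rw [Units.val_mul, Units.val_mul, val_eq_one_add a, val_eq_one_add b]
  have e3 : ∀ u v : M →ₗ[k] M, (1 + u) * (1 + v) = 1 + u + v + u * v := by intro u v; noncomm_ring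
  rw [e3, e3, sub_eq_zero.1 h]
  abel

lemma zz_of_mul_comm {a b : LinearMap.GeneralLinearGroup k M} (h : a * b = b * a) : zz (NN a) (NN b) = 0 := by
  have h1 := congrArg Units.val h
  rw [Units.val_mul, Units.val_mul, val_eq_one_add a, val_eq_one_add b] at h1
  have e3 : ∀ u v : M →ₗ[k] M, (1 + u) * (1 + v) = 1 + u + v + u * v := by intro u v; noncomm_ring
  rw [e3, e3] at h1
  rw [zz, sub_eq_zero]
  have h2 : 1 + NN a + NN b = 1 + NN b + NN a := by abel
  rw [h2] at h1
  exact add_left_cancel h1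

/-- Two root subgroups commute if all the relevant commutators vanish. -/
lemma commutator_eq_bot_of {E F : Subgroup (LinearMap.GeneralLinearGroup k M)}
    (h : ∀ g ∈ E, ∀ h ∈ F, g * h = h * g) : ⁅E, F⁆ = ⊥ := by
  rw [Subgroup.commutator_eq_bot_iff_le_centralizer]
  intro g hg
  rw [Subgroup.mem_centralizer_iff]
  intro u hu
  exact (h g hg u hu).symm

/-- **Commuting criterion**, first part. -/
theorem comm_of_comm (h2 : (2 : k) ≠ 0) (h3 : Nat.card k ≠ 3) (hσ : σ ∈ Cfsg.minimalQuadraticElements G)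
    (hτ : τ ∈ Cfsg.minimalQuadraticElements G) {e f : LinearMap.GeneralLinearGroup k M}
    (he : e ∈ Cfsg.sameActionSubgroup G σ) (he1 : e ≠ 1) (hf : f ∈ Cfsg.sameActionSubgroup G τ) (hf1 : f ≠ 1)
    (hef : e * f = f * e) : ⁅Cfsg.sameActionSubgroup G σ, Cfsg.sameActionSubgroup G τ⁆ = ⊥ := by
  obtain ⟨hx₁, hsx⟩ := mem_E_log hσ he he1
  obtain ⟨hy₁, hsy⟩ := mem_E_log hτ hf hf1
  have hz := zz_of_mul_comm hef
  have hN : ¬ NTy (NN σ) (NN τ) := by
    intro hN
    have h4 := hN.congr hsx hsy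
    apply h4.not_zero hx₁.ne
    have e1 : NN e * NN f = NN f * NN e := sub_eq_zero.1 hz
    rw [e1, mul_assoc, hx₁.sq, mul_zero]
  have P := upair_of_not h2 h3 hN hx₁ hy₁ hsx hsy
  apply commutator_eq_bot_of
  intro g hg h hh
  by_cases hg1 : g = 1
  · simp [hg1]
  by_cases hh1 : h = 1
  · simp [hh1]
  obtain ⟨hx₂, hsx₂⟩ := mem_E_log hσ hg hg1
  obtain ⟨hy₂, hsy₂⟩ := mem_E_log hτ hh hh1
  have P₂ := upair_of_not h2 h3 hN hx₂ hy₂ hsx₂ hsy₂
  exact mul_comm_of_zz (z_eq_zero_of P P₂ hz (hsx.symm.trans hsx₂) (hsy.symm.trans hsy₂))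

/-- **Commuting criterion**, second part. -/
theorem comm_of_norm (h2 : (2 : k) ≠ 0) (h3 : Nat.card k ≠ 3) (hσ : σ ∈ Cfsg.minimalQuadraticElements G)
    (hτ : τ ∈ Cfsg.minimalQuadraticElements G) {e : LinearMap.GeneralLinearGroup k M}
    (he : e ∈ Cfsg.sameActionSubgroup G σ) (he1 : e ≠ 1)
    (hn : e ∈ Subgroup.normalizer (Cfsg.sameActionSubgroup G τ : Set (LinearMap.GeneralLinearGroup k M))) :
    ⁅Cfsg.sameActionSubgroup G σ, Cfsg.sameActionSubgroup G τ⁆ = ⊥ := by
  obtain ⟨hx₁, hsx⟩ := mem_E_log hσ he he1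
  have hy := minLog_of_mem hτ
  have hτE : τ ∈ Cfsg.sameActionSubgroup G τ := Subgroup.subset_closure ⟨hτ, rfl, rfl⟩
  have hconj : e * τ * e⁻¹ ∈ Cfsg.sameActionSubgroup G τ := (Subgroup.mem_normalizer_iff.1 hn τ).1 hτE
  have hcy : cj e (NN τ) ∈ LL hy := by
    have := (mem_E_iff hτ).1 hconj
    rw [NN_conj] at this
    exact this
  have hcy0 : cj e (NN τ) ≠ 0 := by
    intro h0
    apply hy.ne
    have := cj_inv_cj e (NN τ)
    rw [h0] at this
    simpa [cj] using this.symm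
  have hs := same_of_mem_LL hy hcy hcy0
  -- `x` preserves the image and the kernel of `y`
  have hJ : ∀ v ∈ LinearMap.range (NN τ), NN e v ∈ LinearMap.range (NN τ) := by
    rintro _ ⟨u, rfl⟩
    have h4 : (e : M →ₗ[k] M) (NN τ u) ∈ LinearMap.range (NN τ) := by
      rw [← hs.2]
      have : cj e (NN τ) ((e : M →ₗ[k] M) u) = (e : M →ₗ[k] M) (NN τ u) :=
        congrArg (fun F : M →ₗ[k] M => F u) (cj_mul_self e (NN τ))
      exact ⟨_, this⟩
    simp only [NN, LinearMap.sub_apply, Module.End.one_apply]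
    exact Submodule.sub_mem _ h4 ⟨u, rfl⟩
  have hK : ∀ v ∈ LinearMap.ker (NN τ), NN e v ∈ LinearMap.ker (NN τ) := by
    intro v hv
    have h4 : (e : M →ₗ[k] M) v ∈ LinearMap.ker (NN τ) := by
      rw [← hs.1]
      have : cj e (NN τ) ((e : M →ₗ[k] M) v) = (e : M →ₗ[k] M) (NN τ v) :=
        congrArg (fun F : M →ₗ[k] M => F v) (cj_mul_self e (NN τ))
      rw [LinearMap.mem_ker, this, LinearMap.mem_ker.1 hv, map_zero]
    simp only [NN, LinearMap.sub_apply, Module.End.one_apply]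
    exact Submodule.sub_mem _ h4 hv
  have hN : ¬ NTy (NN σ) (NN τ) := by
    intro hN
    have hN₁ := hN.congr hsx (Same.refl _)
    apply hy.ne
    ext v
    refine hN₁.inj_y _ ⟨v, rfl⟩ ?_
    exact hN₁.inter hx₁.sq ⟨_, rfl⟩ (hJ _ ⟨v, rfl⟩)
  have P := upair_of_not h2 h3 hN hx₁ hy hsx (Same.refl _)
  by_contra hne
  have hz : zz (NN e) (NN τ) ≠ 0 := by
    intro hz
    apply hne
    apply commutator_eq_bot_of
    intro g hg h hh
    by_cases hg1 : g = 1
    · simp [hg1]
    by_cases hh1 : h = 1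
    · simp [hh1]
    obtain ⟨hx₂, hsx₂⟩ := mem_E_log hσ hg hg1
    obtain ⟨hy₂, hsy₂⟩ := mem_E_log hτ hh hh1
    have P₂ := upair_of_not h2 h3 hN hx₂ hy₂ hsx₂ hsy₂
    exact mul_comm_of_zz (z_eq_zero_of P P₂ hz (hsx.symm.trans hsx₂) hsy₂)
  -- `x y = 0`
  have hxy : NN e * NN τ = 0 := by
    ext v
    have h5 : NN e (NN τ v) ∈ LinearMap.range (NN e * NN τ) ⊓ LinearMap.range (NN τ * NN e) := by
      rw [P.range_yx hz]
      refine ⟨⟨v, rfl⟩, hJ _ ⟨v, rfl⟩, ?_⟩
      exact congrArg (fun F : M →ₗ[k] M => F (NN τ v)) hx₁.sq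
    rw [P.disj hz, Submodule.mem_bot] at h5
    exact h5
  apply hx₁.ne
  ext v
  have h6 : v ∈ LinearMap.ker (NN e * NN τ) := by rw [hxy]; trivial
  rw [P.ker_xy hz] at h6
  obtain ⟨a, ha, i, hi, rfl⟩ := Submodule.mem_sup.1 h6
  have h7 : NN e a ∈ LinearMap.range (NN e * NN τ) := by
    rw [P.range_xy hz]
    exact ⟨⟨a, rfl⟩, hK a ha⟩
  rw [hxy, LinearMap.range_zero, Submodule.mem_bot] at h7
  obtain ⟨u, rfl⟩ := hi
  have h8 : NN e (NN e u) = 0 := congrArg (fun F : M →ₗ[k] M => F u) hx₁.sq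
  simp only [map_add, h7, h8, add_zero, LinearMap.zero_apply]

end Cfsg.Agent.Lib.Linalg.Quad.UType
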